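import Mathlib
import Cfsg.Prelude.Def_FusionSystem

/-!
# Interface for S5115 (constrained 2-fusion systems pass to subnormal subgroups)

`Ctl S Q` is the group-theoretic form of "`Q` is normal and centric in the fusion system `F_S(G)`".
The `…Stmt` definitions are the exact statements of the pieces of the proof.
-/

set_option autoImplicit false

namespace Cfsg.Agent.Lib.Helper97.FC

universe u

section Defs

variable {G : Type u} [Group G]

/-- `S` is (the carrier of) a Sylow `p`-subgroup of `G`. -/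
def IsSyl (p : ℕ) (S : Subgroup G) : Prop := ∃ R : Sylow p G, (R : Subgroup G) = S

/-- Every conjugation map between subgroups of `S` is induced by an element normalizing `U`. -/
def Ext (S U : Subgroup G) : Prop :=
  ∀ P : Subgroup G, P ≤ S → ∀ g : G, (∀ x ∈ P, g * x * g⁻¹ ∈ S) →
    ∃ n ∈ Subgroup.normalizer (U : Set G), ∀ x ∈ P, n * x * n⁻¹ = g * x * g⁻¹

/-- Relative version: every conjugation map by an element of `H` between subgroups of `T` is
induced by an element of `H` normalizing `U`. -/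
def ExtIn (H T U : Subgroup G) : Prop :=
  ∀ P : Subgroup G, P ≤ T → ∀ h ∈ H, (∀ x ∈ P, h * x * h⁻¹ ∈ T) →
    ∃ h' ∈ H, h' ∈ Subgroup.normalizer (U : Set G) ∧ ∀ x ∈ P, h' * x * h'⁻¹ = h * x * h⁻¹

/-- Group-theoretic form of "`Q` is normal and centric in `F_S(G)`". -/
def Ctl (S Q : Subgroup G) : Prop :=
  Q ≤ S ∧ Ext S Q ∧ ∀ z ∈ S, (∀ x ∈ Q, z * x = x * z) → z ∈ Q

end Defs

/-! ## Interface with fusion systems -/

/-- A constrained group fusion system has a normal centric subgroup, in group-theoretic form. -/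
def InStmt.{v} : Prop :=
  ∀ (G : Type v) [Group G] (S : Subgroup G) (p : ℕ),
    (Cfsg.groupFusionSystem S).IsConstrained p → ∃ Q : Subgroup G, Ctl S Q

/-- Conversely, for a Sylow subgroup. -/
def OutStmt.{v} : Prop :=
  ∀ (G : Type v) [Group G] [Finite G] (p : ℕ) [Fact p.Prime] (S Q : Subgroup G),
    IsSyl p S → Ctl S Q → (Cfsg.groupFusionSystem S).IsConstrained p

/-- Transport along a group isomorphism. -/
def MapStmt.{v} : Prop :=
  ∀ (G G' : Type v) [Group G] [Group G'] [Finite G] (p : ℕ) [Fact p.Prime] (e : G ≃* G')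
    (S Q : Subgroup G), IsSyl p S → Ctl S Q →
    IsSyl p (S.map e.toMonoidHom) ∧ Ctl (S.map e.toMonoidHom) (Q.map e.toMonoidHom)

/-! ## Group theory -/

/-- `S ∩ Y` is a maximal `p`-subgroup of `Y` when `Y` is normalized by a subgroup `N ⊇ S, Y`. -/
def SylInfStmt.{v} : Prop :=
  ∀ (G : Type v) [Group G] [Finite G] (p : ℕ) [Fact p.Prime] (S Y N : Subgroup G),
    IsSyl p S → S ≤ N → Y ≤ N → N ≤ Subgroup.normalizer (Y : Set G) →
    ∀ D : Subgroup G, D ≤ Y → IsPGroup p D → S ⊓ Y ≤ D → D = S ⊓ Y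

/-- The elements of order prime to `p` of `C_G(Q)` form a subgroup (Burnside / Schur–Zassenhaus:
the Sylow `p`-subgroup `C_S(Q) = Z(Q)` of `C_G(Q)` is central). -/
def B1Stmt.{v} : Prop :=
  ∀ (G : Type v) [Group G] [Finite G] (p : ℕ) [Fact p.Prime] (S Q : Subgroup G),
    IsSyl p S → Ctl S Q →
    ∃ K : Subgroup G, ∀ x : G, x ∈ K ↔
      (x ∈ Subgroup.centralizer (Q : Set G) ∧ (orderOf x).Coprime p)

/-- Stability group: a `p'`-element stabilizing the chain `Q ≥ R ≥ 1` centralizes `Q`. -/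
def B2Stmt.{v} : Prop :=
  ∀ (G : Type v) [Group G] [Finite G] (p : ℕ) [Fact p.Prime] (Q R : Subgroup G) (y : G),
    IsPGroup p Q → R ≤ Q → (orderOf y).Coprime p →
    (∀ q ∈ Q, y * q * y⁻¹ * q⁻¹ ∈ R) → (∀ r ∈ R, y * r = r * y) →
    ∀ q ∈ Q, y * q = q * y

/-- Coprime action: two `A`-invariant Sylow `p`-subgroups of a group `X` with normal
`p`-complement `K` are conjugate by an element of `C_K(A)`. -/
def B3Stmt.{v} : Prop :=
  ∀ (G : Type v) [Group G] [Finite G] (p : ℕ) [Fact p.Prime] (X K D₁ D₂ A : Subgroup G),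
    K ≤ X → X ≤ Subgroup.normalizer (K : Set G) →
    (∀ k ∈ K, (orderOf k).Coprime p) → (∀ x ∈ X, (orderOf x).Coprime p → x ∈ K) →
    IsPGroup p A → A ≤ Subgroup.normalizer (K : Set G) →
    D₁ ≤ X → D₂ ≤ X → IsPGroup p D₁ → IsPGroup p D₂ →
    (∀ D : Subgroup G, D ≤ X → IsPGroup p D → D₁ ≤ D → D = D₁) →
    Nat.card D₂ = Nat.card D₁ →
    A ≤ Subgroup.normalizer (D₁ : Set G) → A ≤ Subgroup.normalizer (D₂ : Set G) →
    ∃ k ∈ K, (∀ a ∈ A, a * k = k * a) ∧ ∀ x ∈ D₂, k * x * k⁻¹ ∈ D₁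

/-- `U = (Q ∩ H) · C_{S ∩ H}(Q ∩ H)` is "normal in `F_S(G)`". -/
def ExtUStmt.{v} : Prop :=
  ∀ (G : Type v) [Group G] [Finite G] (p : ℕ) [Fact p.Prime] (S Q H : Subgroup G),
    IsSyl p S → Ctl S Q → H.Normal →
    Ext S ((Q ⊓ H) ⊔ ((S ⊓ H) ⊓ Subgroup.centralizer ((Q ⊓ H : Subgroup G) : Set G)))

/-- A subgroup of `S ∩ H` that is "normal in `F_S(G)`" is "normal in `F_{S ∩ H}(H)`". -/
def ExtHStmt.{v} : Prop :=
  ∀ (G : Type v) [Group G] [Finite G] (p : ℕ) [Fact p.Prime] (S H U : Subgroup G),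
    IsSyl p S → H.Normal → U ≤ S ⊓ H → Ext S U → ExtIn H (S ⊓ H) U

/-- The core statement for a normal subgroup, inside `G`. -/
def CoreStmt.{v} : Prop :=
  ∀ (G : Type v) [Group G] [Finite G] (p : ℕ) [Fact p.Prime] (S Q H : Subgroup G),
    IsSyl p S → Ctl S Q → H.Normal →
    ∃ U : Subgroup G, U ≤ S ⊓ H ∧ ExtIn H (S ⊓ H) U ∧
      ∀ z ∈ S ⊓ H, (∀ x ∈ U, z * x = x * z) → z ∈ U

/-- The statement for a normal subgroup `H`, as a statement about the group `↥H`. -/
def NormalStmt.{v} : Prop :=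
  ∀ (G : Type v) [Group G] [Finite G] (p : ℕ) [Fact p.Prime] (S Q H : Subgroup G),
    IsSyl p S → Ctl S Q → H.Normal →
    IsSyl p (S.subgroupOf H) ∧ ∃ U : Subgroup ↥H, Ctl (S.subgroupOf H) U

/-- One step of a subnormal chain. -/
def StepStmt.{v} : Prop :=
  ∀ (G : Type v) [Group G] [Finite G] (p : ℕ) [Fact p.Prime] (S H K : Subgroup G),
    H ≤ K → (H.subgroupOf K).Normal →
    (IsSyl p (S.subgroupOf K) ∧ ∃ U : Subgroup ↥K, Ctl (S.subgroupOf K) U) →
    (IsSyl p (S.subgroupOf H) ∧ ∃ U : Subgroup ↥H, Ctl (S.subgroupOf H) U)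

/-- The statement of S5115. -/
def FinStmt.{v} : Prop :=
  ∀ (G : Type v) [Group G] [Finite G] (S : Sylow 2 G),
    (Cfsg.groupFusionSystem (S : Subgroup G)).IsConstrained 2 →
    ∀ H : Subgroup G, H.IsSubnormal →
      (Cfsg.groupFusionSystem ((S : Subgroup G).subgroupOf H)).IsConstrained 2

/-! ## Formal assembly -/

theorem core (h1 : ExtUStmt.{u}) (h2 : ExtHStmt.{u}) : CoreStmt.{u} := by
  intro G _ _ p _ S Q H hS hQ hH
  refine ⟨(Q ⊓ H) ⊔ ((S ⊓ H) ⊓ Subgroup.centralizer ((Q ⊓ H : Subgroup G) : Set G)), ?_, ?_, ?_⟩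
  · exact sup_le (inf_le_inf_right H hQ.1) inf_le_left
  · exact h2 G p S H _ hS hH (sup_le (inf_le_inf_right H hQ.1) inf_le_left) (h1 G p S Q H hS hQ hH)
  · intro z hz hzc
    have hzC : z ∈ Subgroup.centralizer ((Q ⊓ H : Subgroup G) : Set G) := by
      rw [Subgroup.mem_centralizer_iff]
      intro x hx
      exact (hzc x (Subgroup.mem_sup_left hx)).symm
    exact Subgroup.mem_sup_right (Subgroup.mem_inf.mpr ⟨hz, hzC⟩)

theorem fin (hin : InStmt.{u}) (hout : OutStmt.{u}) (hnorm : NormalStmt.{u})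
    (hstep : StepStmt.{u}) : FinStmt.{u} := by
  intro G _ _ S hF H hH
  obtain ⟨Q, hQ⟩ := hin G (S : Subgroup G) 2 hF
  have key : ∀ H : Subgroup G, H.IsSubnormal →
      IsSyl 2 ((S : Subgroup G).subgroupOf H) ∧
        ∃ U : Subgroup ↥H, Ctl ((S : Subgroup G).subgroupOf H) U := by
    intro H hH
    induction hH with
    | top => exact hnorm G 2 (S : Subgroup G) Q ⊤ ⟨S, rfl⟩ hQ inferInstance
    | step H K hle hK hN ih => exact hstep G 2 (S : Subgroup G) H K hle hN ih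
  obtain ⟨hsyl, U, hU⟩ := key H hH
  exact hout ↥H 2 _ U hsyl hU

end Cfsg.Agent.Lib.Helper97.FC
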