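import Mathlib
import Cfsg.Prelude.Def_GeometricClasses
import Cfsg.Agent.Lib.Helper97.Transv
import Cfsg.Agent.Lib.Helper97.TransvM

/-!
# The similarity group of a symplectic form is maximal in `SL`

Helper library (helper97): forms given as functions (`Cfsg.Geo.IsBilinearForm`), the row vector
`rho f v` of the functional `f(·, v)`, symplectic transvections, and the maximality of
`similarityGroup f ⊓ specialLinear` in `specialLinear` for a non-degenerate symplectic form `f`.
-/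

set_option autoImplicit false

namespace Cfsg.Agent.Lib.Helper97

open Matrix

variable {ι : Type} [Fintype ι] [DecidableEq ι] {F : Type*} [Field F]
variable {f : (ι → F) → (ι → F) → F}

/-- A bilinear form given as a function, as a Mathlib bilinear map. -/
def bil (hf : Cfsg.Geo.IsBilinearForm f) : (ι → F) →ₗ[F] (ι → F) →ₗ[F] F :=
  LinearMap.mk₂ F f hf.add_left hf.smul_left hf.add_right (fun c m n => hf.smul_right c m n)

omit [Fintype ι] [DecidableEq ι] in
lemma bil_apply (hf : Cfsg.Geo.IsBilinearForm f) (x y : ι → F) : bil hf x y = f x y := rfl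

/-- Row vector of the functional `f(·, v)`. -/
def rho (f : (ι → F) → (ι → F) → F) (v : ι → F) : ι → F :=
  fun j => f (fun k => if j = k then 1 else 0) v

lemma rho_dot (hf : Cfsg.Geo.IsBilinearForm f) (v x : ι → F) : rho f v ⬝ᵥ x = f x v := by
  have h := LinearMap.pi_apply_eq_sum_univ ((bil hf).flip v) x
  rw [LinearMap.flip_apply, bil_apply] at h
  rw [h]
  unfold dotProduct
  apply Finset.sum_congr rfl
  intro j _
  rw [LinearMap.flip_apply, bil_apply, smul_eq_mul, mul_comm]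
  rfl

omit [Fintype ι] in
lemma rho_add (hf : Cfsg.Geo.IsBilinearForm f) (w₁ w₂ : ι → F) :
    rho f (w₁ + w₂) = rho f w₁ + rho f w₂ := by
  funext j
  exact hf.add_right _ _ _

omit [Fintype ι] in
lemma rho_smul (hf : Cfsg.Geo.IsBilinearForm f) (c : F) (w : ι → F) :
    rho f (c • w) = c • rho f w := by
  funext j
  exact hf.smul_right _ _ _

omit [Fintype ι] [DecidableEq ι] in
lemma form_zero_left (hf : Cfsg.Geo.IsBilinearForm f) (v : ι → F) : f 0 v = 0 := by
  have h := hf.smul_left 0 0 v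
  rw [zero_smul, zero_mul] at h
  exact h

omit [Fintype ι] [DecidableEq ι] in
lemma form_zero_right (hf : Cfsg.Geo.IsBilinearForm f) (v : ι → F) : f v 0 = 0 := by
  have h := hf.smul_right 0 v 0
  rw [zero_smul, zero_mul] at h
  exact h

omit [Fintype ι] [DecidableEq ι] in
lemma form_expand (hf : Cfsg.Geo.IsBilinearForm f) (x y u w : ι → F) (α β : F) :
    f (x + α • u) (y + β • w) = f x y + β * f x w + α * f u y + α * β * f u w := by
  rw [hf.add_left, hf.add_right, hf.add_right, hf.smul_left, hf.smul_left, hf.smul_right,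
    hf.smul_right]
  ring

omit [Fintype ι] [DecidableEq ι] in
lemma form_sub_smul_left (hf : Cfsg.Geo.IsBilinearForm f) (x y v : ι → F) (c : F) :
    f (x - c • y) v = f x v - c * f y v := by
  rw [← bil_apply hf, map_sub, map_smul, LinearMap.sub_apply, LinearMap.smul_apply, bil_apply,
    bil_apply, smul_eq_mul]

omit [Fintype ι] [DecidableEq ι] in
lemma form_sub_smul_right (hf : Cfsg.Geo.IsBilinearForm f) (v x y : ι → F) (c : F) :
    f v (x - c • y) = f v x - c * f v y := by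
  rw [← bil_apply hf, map_sub, map_smul, bil_apply, bil_apply, smul_eq_mul]

omit [Fintype ι] [DecidableEq ι] in
lemma form_sub_right (hf : Cfsg.Geo.IsBilinearForm f) (v x y : ι → F) :
    f v (x - y) = f v x - f v y := by
  rw [← bil_apply hf, map_sub, bil_apply, bil_apply]

lemma mem_similarityGroup_iff (f : (ι → F) → (ι → F) → F) (g : GL ι F) :
    g ∈ Cfsg.Geo.similarityGroup f ↔ ∃ c : Fˣ, ∀ u v,
      f ((g : Matrix ι ι F) *ᵥ u) ((g : Matrix ι ι F) *ᵥ v) = (c : F) * f u v := Iff.rfl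

section symplectic

variable (hf : Cfsg.Geo.IsSymplecticForm f)
include hf

lemma symp_dot0 (v : ι → F) (a : F) : (a • rho f v) ⬝ᵥ v = 0 := by
  rw [smul_dotProduct, rho_dot hf.bilinear, hf.alternating, smul_zero]

/-- Symplectic transvections `x ↦ x + a f(x, v) v` are isometries of determinant one. -/
lemma symp_tv_mem (v : ι → F) (a : F) :
    tvG v (a • rho f v) (symp_dot0 hf v a) ∈
      Cfsg.Geo.similarityGroup f ⊓ Cfsg.Geo.specialLinear ι F := by
  refine Subgroup.mem_inf.mpr ⟨?_, tvG_mem_specialLinear _ _ _⟩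
  rw [mem_similarityGroup_iff]
  refine ⟨1, fun x y => ?_⟩
  rw [tvG_val, tv_mulVec, tv_mulVec, smul_dotProduct, smul_dotProduct, rho_dot hf.bilinear,
    rho_dot hf.bilinear, Units.val_one, one_mul, form_expand hf.bilinear, hf.alternating v,
    hf.skew v y]
  simp only [smul_eq_mul]
  ring

omit [Fintype ι] [DecidableEq ι] in
lemma exists_both {u x : ι → F} (hu : u ≠ 0) (hx : x ≠ 0) : ∃ z, f z u ≠ 0 ∧ f z x ≠ 0 := by
  obtain ⟨z₁, hz₁⟩ := (hf.nondegenerate u hu).1
  obtain ⟨z₂, hz₂⟩ := (hf.nondegenerate x hx).1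
  by_cases h1 : f z₁ x = 0
  · by_cases h2 : f z₂ u = 0
    · refine ⟨z₁ + z₂, ?_, ?_⟩
      · rw [hf.bilinear.add_left, h2, add_zero]
        exact hz₁
      · rw [hf.bilinear.add_left, h1, zero_add]
        exact hz₂
    · exact ⟨z₂, h2, hz₂⟩
  · exact ⟨z₁, hz₁, h1⟩

/-- An invertible matrix preserving perpendicularity is a similarity. -/
lemma sim_of_perp (g : GL ι F)
    (h : ∀ u w, f u w = 0 → f ((g : Matrix ι ι F) *ᵥ u) ((g : Matrix ι ι F) *ᵥ w) = 0) :
    g ∈ Cfsg.Geo.similarityGroup f := by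
  have hb := hf.bilinear
  have h1 : ∀ u : ι → F, ∃ c : F, ∀ x,
      f ((g : Matrix ι ι F) *ᵥ x) ((g : Matrix ι ι F) *ᵥ u) = c * f x u := by
    intro u
    by_cases hu : ∀ x, f x u = 0
    · exact ⟨0, fun x => by rw [zero_mul]; exact h x u (hu x)⟩
    · push Not at hu
      obtain ⟨x₀, hx₀⟩ := hu
      refine ⟨f ((g : Matrix ι ι F) *ᵥ x₀) ((g : Matrix ι ι F) *ᵥ u) / f x₀ u, fun x => ?_⟩
      have h2 : f (x - (f x u / f x₀ u) • x₀) u = 0 := by
        rw [form_sub_smul_left hb, div_mul_cancel₀ _ hx₀, sub_self]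
      have h3 := h _ _ h2
      rw [Matrix.mulVec_sub, Matrix.mulVec_smul, form_sub_smul_left hb, sub_eq_zero] at h3
      rw [h3]
      ring
  choose c hc using h1
  have h2 : ∀ u x, f x u ≠ 0 → c u = c x := by
    intro u x hxu
    have e1 := hc u x
    have e2 := hc x u
    rw [hf.skew ((g : Matrix ι ι F) *ᵥ u) ((g : Matrix ι ι F) *ᵥ x), hf.skew u x, e1] at e2
    have e3 : (c u - c x) * f x u = 0 := by linear_combination -e2
    rcases mul_eq_zero.mp e3 with h' | h'
    · exact sub_eq_zero.mp h'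
    · exact absurd h' hxu
  rw [mem_similarityGroup_iff]
  by_cases hne : ∃ u₀ : ι → F, u₀ ≠ 0
  · obtain ⟨u₀, hu₀⟩ := hne
    have h3 : ∀ u, u ≠ 0 → c u = c u₀ := by
      intro u hu
      obtain ⟨z, hz1, hz2⟩ := exists_both hf hu hu₀
      rw [h2 u z hz1, h2 u₀ z hz2]
    have h4 : ∀ u x, f ((g : Matrix ι ι F) *ᵥ x) ((g : Matrix ι ι F) *ᵥ u) = c u₀ * f x u := by
      intro u x
      by_cases hu : u = 0
      · subst hu
        rw [Matrix.mulVec_zero, form_zero_right hb, form_zero_right hb, mul_zero]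
      · rw [hc u x, h3 u hu]
    have h5 : c u₀ ≠ 0 := by
      intro h0
      obtain ⟨x, hx⟩ := (hf.nondegenerate u₀ hu₀).1
      have h6 := h4 (((g⁻¹ : GL ι F) : Matrix ι ι F) *ᵥ u₀) (((g⁻¹ : GL ι F) : Matrix ι ι F) *ᵥ x)
      rw [Matrix.mulVec_mulVec, Matrix.mulVec_mulVec, ← Units.val_mul, mul_inv_cancel,
        Units.val_one, Matrix.one_mulVec, Matrix.one_mulVec, h0, zero_mul] at h6
      exact hx h6
    exact ⟨Units.mk0 (c u₀) h5, fun u v => by rw [Units.val_mk0]; exact h4 v u⟩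
  · push Not at hne
    refine ⟨1, fun u v => ?_⟩
    rw [hne u, hne v, Matrix.mulVec_zero, Units.val_one, one_mul]

/-- Every row vector is `rho f w` for some `w`. -/
lemma riesz (ψ : ι → F) : ∃ w, rho f w = ψ := by
  have hb := hf.bilinear
  let R : (ι → F) →ₗ[F] (ι → F) :=
    { toFun := rho f
      map_add' := rho_add hb
      map_smul' := fun c w => rho_smul hb c w }
  have hinj : Function.Injective R := by
    rw [← LinearMap.ker_eq_bot, LinearMap.ker_eq_bot']
    intro w hw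
    by_contra hw0
    obtain ⟨x, hx⟩ := (hf.nondegenerate w hw0).1
    apply hx
    rw [← rho_dot hb]
    have hw' : rho f w = 0 := hw
    rw [hw', zero_dotProduct]
  exact LinearMap.surjective_of_injective hinj ψ

/-- A subgroup of `GL` containing the special similarities of `f` and some non-similarity
contains the special linear group. -/
theorem symp_overgroup [Nontrivial ι] (M : Subgroup (GL ι F))
    (hHM : Cfsg.Geo.similarityGroup f ⊓ Cfsg.Geo.specialLinear ι F ≤ M) (g : GL ι F)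
    (hgM : g ∈ M) (hg : g ∉ Cfsg.Geo.similarityGroup f) :
    Cfsg.Geo.specialLinear ι F ≤ M := by
  have hb := hf.bilinear
  have hA : ∀ (v : ι → F) (a : F), TM M v (a • rho f v) := fun v a =>
    TM_of_mem (symp_dot0 hf v a) (hHM (symp_tv_mem hf v a))
  have hg' : g⁻¹ ∉ Cfsg.Geo.similarityGroup f := fun h =>
    hg (by simpa using (Cfsg.Geo.similarityGroup f).inv_mem h)
  have hex : ∃ u w, f u w = 0 ∧
      f (((g⁻¹ : GL ι F) : Matrix ι ι F) *ᵥ u) (((g⁻¹ : GL ι F) : Matrix ι ι F) *ᵥ w) ≠ 0 := by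
    by_contra hcon
    push Not at hcon
    exact hg' (sim_of_perp hf g⁻¹ hcon)
  obtain ⟨u, w₀, huw₀, hne⟩ := hex
  have hB : TM M u (rho f (((g⁻¹ : GL ι F) : Matrix ι ι F) *ᵥ u) ᵥ*
      ((g⁻¹ : GL ι F) : Matrix ι ι F)) := by
    have h1 := TM_conj (hA (((g⁻¹ : GL ι F) : Matrix ι ι F) *ᵥ u) 1) (M.inv_mem hgM)
    rw [inv_inv, Matrix.mulVec_mulVec, ← Units.val_mul, mul_inv_cancel, Units.val_one,
      Matrix.one_mulVec, one_smul] at h1
    exact h1
  have hψ₀w : (rho f (((g⁻¹ : GL ι F) : Matrix ι ι F) *ᵥ u) ᵥ*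
      ((g⁻¹ : GL ι F) : Matrix ι ι F)) ⬝ᵥ w₀ ≠ 0 := by
    rw [← Matrix.dotProduct_mulVec, rho_dot hb, hf.skew]
    exact neg_ne_zero.mpr hne
  have hC : ∀ (ψ : ι → F), TM M u ψ → ∀ w, f u w = 0 → ψ ⬝ᵥ w ≠ 0 →
      ∀ c : F, TM M u (c • rho f w) := by
    intro ψ hψ w huw hψw c
    have hk := (hA w (c / (ψ ⬝ᵥ w))).mem
    have h1 := TM_conj hψ hk
    have hku : ((tvG w ((c / (ψ ⬝ᵥ w)) • rho f w) (hA w (c / (ψ ⬝ᵥ w))).1 : GL ι F) :
        Matrix ι ι F) *ᵥ u = u := by
      rw [tvG_val, tv_mulVec, smul_dotProduct, rho_dot hb, huw, smul_zero, zero_smul, add_zero]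
    have hku' : (((tvG w ((c / (ψ ⬝ᵥ w)) • rho f w) (hA w (c / (ψ ⬝ᵥ w))).1)⁻¹ : GL ι F) :
        Matrix ι ι F) *ᵥ u = u := by
      conv_lhs => rw [← hku]
      rw [Matrix.mulVec_mulVec, ← Units.val_mul, inv_mul_cancel, Units.val_one,
        Matrix.one_mulVec]
    rw [hku', tvG_val, tv, Matrix.vecMul_add, Matrix.vecMul_one, Matrix.vecMul_vecMulVec] at h1
    have h2 := TM_sub h1 hψ
    have h3 : ψ + (ψ ⬝ᵥ w) • ((c / (ψ ⬝ᵥ w)) • rho f w) - ψ = c • rho f w := by
      rw [add_sub_cancel_left, smul_smul, mul_div_cancel₀ _ hψw]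
    rw [h3] at h2
    exact h2
  have hD : ∀ w, f u w = 0 → TM M u (rho f w) := by
    intro w huw
    by_cases hw : (rho f (((g⁻¹ : GL ι F) : Matrix ι ι F) *ᵥ u) ᵥ*
        ((g⁻¹ : GL ι F) : Matrix ι ι F)) ⬝ᵥ w = 0
    · have h1 := hC _ hB (w + w₀) (by rw [hb.add_right, huw, huw₀, add_zero])
        (by rw [dotProduct_add, hw, zero_add]; exact hψ₀w) 1
      have h2 := hC _ hB w₀ huw₀ hψ₀w 1
      have h3 := TM_sub h1 h2
      rw [one_smul, one_smul, rho_add hb, add_sub_cancel_right] at h3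
      exact h3
    · have h1 := hC _ hB w huw hw 1
      rwa [one_smul] at h1
  have hu0 : u ≠ 0 := by
    rintro rfl
    apply hne
    rw [Matrix.mulVec_zero, form_zero_left hb]
  have huc : u ∈ centres M := by
    apply mem_centres_of_TM
    intro ψ hψ
    obtain ⟨w, rfl⟩ := riesz hf ψ
    exact hD w (by rw [← rho_dot hb]; exact hψ)
  apply specialLinear_le_of_tv
  suffices hall : ∀ x : ι → F, x ∈ centres M from fun v φ h t ht => hall v φ h t ht
  have hstep : ∀ y x : ι → F, y ∈ centres M → f y x ≠ 0 → x ∈ centres M := by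
    intro y x hy hyx
    have hk := (hA (x - y) (1 / f y x)).mem
    have h1 := centres_smul_mem M hy hk
    rw [tvG_val, tv_mulVec, smul_dotProduct, rho_dot hb] at h1
    have h2 : f y (x - y) = f y x := by rw [form_sub_right hb, hf.alternating, sub_zero]
    rw [h2, smul_eq_mul, one_div, inv_mul_cancel₀ hyx, one_smul, add_sub_cancel] at h1
    exact h1
  intro x
  by_cases hx : x = 0
  · subst hx
    have h1 := centres_smul M huc 0
    rwa [zero_smul] at h1
  · obtain ⟨z, hz1, hz2⟩ := exists_both hf hu0 hx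
    have hzc : z ∈ centres M := hstep u z huc (by rw [hf.skew]; exact neg_ne_zero.mpr hz1)
    exact hstep z x hzc hz2

end symplectic

/-- In dimension at least three some element of `SL` is not a similarity of `f`. -/
theorem symp_exists_not_sim (n : ℕ) (hn : 3 ≤ n) (f : (Fin n → F) → (Fin n → F) → F)
    (hf : Cfsg.Geo.IsSymplecticForm f) :
    ∃ t ∈ Cfsg.Geo.specialLinear (Fin n) F, t ∉ Cfsg.Geo.similarityGroup f := by
  have hb := hf.bilinear
  have h0n : 0 < n := by omega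
  have h1n : 1 < n := by omega
  have h2n : 2 < n := by omega
  have hw : ∃ u w : Fin n → F, u ≠ 0 ∧ f u w = 0 ∧ ∀ a : F, w ≠ a • u := by
    have hu0 : (Pi.single (⟨0, h0n⟩ : Fin n) (1 : F) : Fin n → F) ≠ 0 := by
      intro h
      have h' := congrFun h ⟨0, h0n⟩
      simp at h'
    by_cases h1 : f (Pi.single (⟨0, h0n⟩ : Fin n) (1 : F)) (Pi.single (⟨1, h1n⟩ : Fin n) (1 : F)) = 0
    · refine ⟨_, _, hu0, h1, fun a h => ?_⟩
      have h' := congrFun h ⟨1, h1n⟩
      simp [Fin.ext_iff] at h'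
    · refine ⟨_, Pi.single (⟨2, h2n⟩ : Fin n) (1 : F) -
          (f (Pi.single (⟨0, h0n⟩ : Fin n) (1 : F)) (Pi.single (⟨2, h2n⟩ : Fin n) (1 : F)) /
            f (Pi.single (⟨0, h0n⟩ : Fin n) (1 : F)) (Pi.single (⟨1, h1n⟩ : Fin n) (1 : F))) •
            (Pi.single (⟨1, h1n⟩ : Fin n) (1 : F) : Fin n → F), hu0, ?_, fun a h => ?_⟩
      · rw [form_sub_smul_right hb, div_mul_cancel₀ _ h1, sub_self]
      · have h' := congrFun h ⟨2, h2n⟩
        simp [Fin.ext_iff] at h'
  obtain ⟨u, w, hu0, huw, hwu⟩ := hw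
  have h0 : rho f w ⬝ᵥ u = 0 := by
    rw [rho_dot hb]
    exact huw
  refine ⟨tvG _ _ h0, tvG_mem_specialLinear _ _ _, ?_⟩
  rw [mem_similarityGroup_iff]
  rintro ⟨c, hc⟩
  obtain ⟨x₀, hx₀⟩ := (hf.nondegenerate _ hu0).1
  have hexp : ∀ x y : Fin n → F, f x y + f y w * f x u + f x w * f u y = (c : F) * f x y := by
    intro x y
    have h1 := hc x y
    rw [tvG_val, tv_mulVec, tv_mulVec, rho_dot hb, rho_dot hb, form_expand hb, hf.alternating,
      mul_zero, add_zero] at h1
    exact h1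
  have hc1 : (c : F) = 1 := by
    have h1 := hexp x₀ u
    rw [hf.alternating, mul_zero, add_zero, huw, zero_mul, add_zero] at h1
    have h2 : ((c : F) - 1) * f x₀ u = 0 := by
      linear_combination -h1
    rcases mul_eq_zero.mp h2 with h' | h'
    · exact sub_eq_zero.mp h'
    · exact absurd h' hx₀
  apply hwu (f x₀ w / f x₀ u)
  by_contra hne
  have hne' : w - (f x₀ w / f x₀ u) • u ≠ 0 := fun h => hne (sub_eq_zero.mp h)
  obtain ⟨y, hy⟩ := (hf.nondegenerate _ hne').1
  apply hy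
  have h2 : f y w * f x₀ u = f x₀ w * f y u := by
    have h1 := hexp x₀ y
    rw [hc1, one_mul, hf.skew u y] at h1
    linear_combination h1
  rw [form_sub_smul_right hb, div_mul_eq_mul_div, sub_eq_zero, eq_div_iff hx₀]
  exact h2

/-- The similarity group of a non-degenerate symplectic form meets `SL_n` in a maximal subgroup
of `SL_n` (for `n ≥ 3`). -/
theorem symp_isMaximalIn (n : ℕ) (hn : 3 ≤ n) (f : (Fin n → F) → (Fin n → F) → F)
    (hf : Cfsg.Geo.IsSymplecticForm f) :
    Cfsg.Geo.IsMaximalIn (Cfsg.Geo.specialLinear (Fin n) F)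
      (Cfsg.Geo.similarityGroup f ⊓ Cfsg.Geo.specialLinear (Fin n) F) := by
  have hnt : Nontrivial (Fin n) := Fin.nontrivial_iff_two_le.mpr (by omega)
  refine ⟨lt_of_le_of_ne inf_le_right ?_, ?_⟩
  · intro heq
    obtain ⟨t, ht, hts⟩ := symp_exists_not_sim n hn f hf
    rw [← heq] at ht
    exact hts ht.1
  · intro M hHM hMS
    by_cases hMH : M ≤ Cfsg.Geo.similarityGroup f ⊓ Cfsg.Geo.specialLinear (Fin n) F
    · left
      exact le_antisymm hMH hHM
    · right
      obtain ⟨g, hgM, hgH⟩ := SetLike.not_le_iff_exists.mp hMH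
      exact le_antisymm hMS (symp_overgroup hf M hHM g hgM (fun h => hgH ⟨h, hMS hgM⟩))

end Cfsg.Agent.Lib.Helper97
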