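import Mathlib
import Cfsg.Prelude.Def_GeometricClasses
import Cfsg.Agent.Lib.Helper71.Asch0
import Cfsg.Agent.Lib.Helper86.ASB8Defs

/-!
# S5630, piece B8.TW2A (helper97 for helper86): the standard form on the `k`-th tensor power
of `F²`, scaled by the standard tensor-wreath group.
-/

set_option autoImplicit false

namespace Cfsg.Agent.Lib.Helper97.ASB8TW2A

open Matrix Cfsg.Geo Cfsg.Agent.Lib.Helper71.Asch Cfsg.Agent.Lib.Helper86.ASB8

variable {F : Type*} [Field F]

section gram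

variable {X : Type} [Fintype X] [DecidableEq X]

theorem gram_bilinear (S : Matrix X X F) :
    IsBilinearForm (fun u v : X → F => u ⬝ᵥ (S *ᵥ v)) := by
  refine ⟨fun x y v => ?_, fun a x v => ?_, fun v x y => ?_, fun a v x => ?_⟩
  · show (x + y) ⬝ᵥ (S *ᵥ v) = x ⬝ᵥ (S *ᵥ v) + y ⬝ᵥ (S *ᵥ v)
    rw [add_dotProduct]
  · show (a • x) ⬝ᵥ (S *ᵥ v) = a * (x ⬝ᵥ (S *ᵥ v))
    rw [smul_dotProduct, smul_eq_mul]
  · show v ⬝ᵥ (S *ᵥ (x + y)) = v ⬝ᵥ (S *ᵥ x) + v ⬝ᵥ (S *ᵥ y)
    rw [Matrix.mulVec_add, dotProduct_add]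
  · show v ⬝ᵥ (S *ᵥ (a • x)) = a * (v ⬝ᵥ (S *ᵥ x))
    rw [Matrix.mulVec_smul, dotProduct_smul, smul_eq_mul]

theorem gram_exists_ne (S : Matrix X X F) (hS : IsUnit S) (v : X → F) (hv : v ≠ 0) :
    ∃ x : X → F, x ⬝ᵥ (S *ᵥ v) ≠ 0 := by
  have h1 : S *ᵥ v ≠ 0 := by
    intro h0
    apply hv
    apply Matrix.mulVec_injective_iff_isUnit.mpr hS
    rw [h0, Matrix.mulVec_zero]
  obtain ⟨i, hi⟩ := Function.ne_iff.mp h1
  refine ⟨Pi.single i 1, ?_⟩
  rw [single_one_dotProduct]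
  exact hi

theorem gram_swap (S : Matrix X X F) (ε : F) (hST : Sᵀ = ε • S) (u v : X → F) :
    v ⬝ᵥ (S *ᵥ u) = ε * (u ⬝ᵥ (S *ᵥ v)) := by
  rw [Matrix.dotProduct_mulVec, ← Matrix.mulVec_transpose, hST, Matrix.smul_mulVec,
    smul_dotProduct, smul_eq_mul, dotProduct_comm]

theorem gram_conj (A S : Matrix X X F) (u v : X → F) :
    (A *ᵥ u) ⬝ᵥ (S *ᵥ (A *ᵥ v)) = u ⬝ᵥ ((Aᵀ * S * A) *ᵥ v) := by
  rw [← Matrix.vecMul_transpose, ← Matrix.dotProduct_mulVec, Matrix.mulVec_mulVec,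
    Matrix.mulVec_mulVec, Matrix.mul_assoc]

theorem gram_expand (S : Matrix X X F) (a b : X → F) :
    a ⬝ᵥ (S *ᵥ b) = ∑ x, ∑ y, a x * S x y * b y := by
  show ∑ x, a x * (∑ y, S x y * b y) = _
  apply Finset.sum_congr rfl
  intro x _
  rw [Finset.mul_sum]
  apply Finset.sum_congr rfl
  intro y _
  ring

end gram

/-- the tensor product of a family of `m × m` matrices -/
def ten {k m : ℕ} (M : Fin k → Matrix (Fin m) (Fin m) F) :
    Matrix (Fin k → Fin m) (Fin k → Fin m) F :=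
  Matrix.of fun x y => ∏ i, M i (x i) (y i)

theorem ten_apply {k m : ℕ} (M : Fin k → Matrix (Fin m) (Fin m) F) (x y : Fin k → Fin m) :
    ten M x y = ∏ i, M i (x i) (y i) := rfl

theorem ten_mul {k m : ℕ} (M N : Fin k → Matrix (Fin m) (Fin m) F) :
    ten M * ten N = ten (fun i => M i * N i) := by
  ext x z
  rw [Matrix.mul_apply, ten_apply]
  simp only [ten_apply, Matrix.mul_apply]
  rw [Fintype.prod_sum]
  apply Finset.sum_congr rfl
  intro y _
  rw [Finset.prod_mul_distrib]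

theorem ten_transpose {k m : ℕ} (M : Fin k → Matrix (Fin m) (Fin m) F) :
    (ten M)ᵀ = ten (fun i => (M i)ᵀ) := by
  ext x y
  rfl

theorem ten_smul {k m : ℕ} (c : Fin k → F) (M : Fin k → Matrix (Fin m) (Fin m) F) :
    ten (fun i => c i • M i) = (∏ i, c i) • ten M := by
  ext x y
  rw [Matrix.smul_apply, ten_apply, ten_apply, smul_eq_mul, ← Finset.prod_mul_distrib]
  rfl

theorem ten_one {k m : ℕ} : ten (fun _ : Fin k => (1 : Matrix (Fin m) (Fin m) F)) = 1 := by
  ext x y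
  rw [ten_apply]
  simp only [Matrix.one_apply]
  rw [Fintype.prod_boole]
  by_cases h : x = y
  · rw [if_pos h, if_pos (fun i => congrFun h i)]
  · rw [if_neg h, if_neg (fun h' => h (funext h'))]

/-- the standard alternating matrix on `F²` -/
def om : Matrix (Fin 2) (Fin 2) F := !![0, 1; -1, 0]

theorem om_transpose : (om : Matrix (Fin 2) (Fin 2) F)ᵀ = (-1 : F) • om := by
  ext i j
  fin_cases i <;> fin_cases j <;> simp [om]

theorem om_mul : (om : Matrix (Fin 2) (Fin 2) F) * om = (-1 : F) • 1 := by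
  ext i j
  fin_cases i <;> fin_cases j <;> simp [om, Matrix.mul_apply, Fin.sum_univ_two]

theorem om_conj (A : Matrix (Fin 2) (Fin 2) F) : Aᵀ * om * A = A.det • om := by
  ext i j
  fin_cases i <;> fin_cases j <;>
    simp [om, Matrix.mul_apply, Fin.sum_univ_two, Matrix.det_fin_two] <;> ring

theorem om_diag (a : Fin 2) : (om : Matrix (Fin 2) (Fin 2) F) a a = 0 := by
  fin_cases a <;> simp [om]

/-- the Gram matrix of the standard form on the `k`-th tensor power of `F²` -/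
def gm (k : ℕ) : Matrix (Fin k → Fin 2) (Fin k → Fin 2) F := ten (fun _ => om)

theorem gm_transpose (k : ℕ) :
    (gm k : Matrix (Fin k → Fin 2) (Fin k → Fin 2) F)ᵀ = ((-1 : F) ^ k) • gm k := by
  unfold gm
  rw [ten_transpose]
  have h1 : (fun _ : Fin k => (om : Matrix (Fin 2) (Fin 2) F)ᵀ) = fun _ => (-1 : F) • om := by
    funext i
    exact om_transpose
  rw [h1, ten_smul (fun _ => (-1 : F)), Finset.prod_const, Finset.card_univ, Fintype.card_fin]

theorem gm_mul (k : ℕ) :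
    (gm k : Matrix (Fin k → Fin 2) (Fin k → Fin 2) F) * gm k = ((-1 : F) ^ k) • 1 := by
  unfold gm
  rw [ten_mul]
  have h1 : (fun _ : Fin k => (om : Matrix (Fin 2) (Fin 2) F) * om) =
      fun _ => (-1 : F) • (1 : Matrix (Fin 2) (Fin 2) F) := by
    funext i
    exact om_mul
  rw [h1, ten_smul (fun _ => (-1 : F)), Finset.prod_const, Finset.card_univ, Fintype.card_fin,
    ten_one]

theorem gm_isUnit (k : ℕ) : IsUnit (gm k : Matrix (Fin k → Fin 2) (Fin k → Fin 2) F) := by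
  have hc : ((-1 : F) ^ k) * ((-1 : F) ^ k) = 1 := by
    rw [← mul_pow]
    simp
  refine ⟨⟨gm k, ((-1 : F) ^ k) • gm k, ?_, ?_⟩, rfl⟩
  · rw [Matrix.mul_smul, gm_mul, smul_smul, hc, one_smul]
  · rw [Matrix.smul_mul, gm_mul, smul_smul, hc, one_smul]

theorem gm_diag {k : ℕ} (hk : 1 ≤ k) (x : Fin k → Fin 2) :
    (gm k : Matrix (Fin k → Fin 2) (Fin k → Fin 2) F) x x = 0 := by
  unfold gm
  rw [ten_apply]
  exact Finset.prod_eq_zero (Finset.mem_univ (⟨0, hk⟩ : Fin k)) (om_diag _)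

/-- B8.TW2A: the standard form on the `k`-th tensor power of `F²`. -/
theorem tw2_std {k : ℕ} (hk : 1 ≤ k) :
    ∃ f₀ : ((Fin k → Fin 2) → F) → ((Fin k → Fin 2) → F) → F,
      IsBilinearForm f₀ ∧ IsNondegenerateForm f₀ ∧ (∀ u v, f₀ v u = (-1) ^ k * f₀ u v) ∧
      (((2 : F) = 0 ∨ Odd k) → ∀ v, f₀ v v = 0) ∧
      tensorWreathStandard 2 k F ≤ similarityGroup f₀ := by
  classical
  have hsw : ∀ u v : (Fin k → Fin 2) → F,
      v ⬝ᵥ (gm k *ᵥ u) = (-1) ^ k * (u ⬝ᵥ (gm k *ᵥ v)) :=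
    fun u v => gram_swap (gm k) _ (gm_transpose k) u v
  have hpm : ((-1 : F) ^ k) ≠ 0 := pow_ne_zero _ (neg_ne_zero.mpr one_ne_zero)
  refine ⟨fun u v => u ⬝ᵥ (gm k *ᵥ v), gram_bilinear _, ?_, hsw, ?_, ?_⟩
  · intro v hv
    obtain ⟨x, hx⟩ := gram_exists_ne (gm k) (gm_isUnit k) v hv
    refine ⟨⟨x, hx⟩, ⟨x, ?_⟩⟩
    show v ⬝ᵥ (gm k *ᵥ x) ≠ 0
    rw [hsw x v]
    exact mul_ne_zero hpm hx
  · intro h v
    show v ⬝ᵥ (gm k *ᵥ v) = 0
    by_cases h2 : (2 : F) = 0
    · have hneg : (-1 : F) = 1 := by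
        have h3 : (1 : F) + 1 = 0 := by rw [one_add_one_eq_two, h2]
        exact neg_eq_of_add_eq_zero_right h3
      have hsymm : ∀ x y : Fin k → Fin 2,
          (gm k : Matrix (Fin k → Fin 2) (Fin k → Fin 2) F) y x = gm k x y := by
        intro x y
        have h1 := congrFun (congrFun (gm_transpose (F := F) k) x) y
        rw [Matrix.transpose_apply, Matrix.smul_apply, hneg, one_pow, one_smul] at h1
        exact h1
      have e : v ⬝ᵥ (gm k *ᵥ v) =
          ∑ p : (Fin k → Fin 2) × (Fin k → Fin 2), v p.1 * gm k p.1 p.2 * v p.2 :=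
        (gram_expand (gm k) v v).trans
          (Fintype.sum_prod_type' (fun x y => v x * gm k x y * v y)).symm
      rw [e]
      apply Finset.sum_ninvolution (fun p => p.swap)
      · intro p
        show v p.1 * gm k p.1 p.2 * v p.2 + v p.2 * gm k p.2 p.1 * v p.1 = 0
        rw [hsymm p.1 p.2]
        calc v p.1 * gm k p.1 p.2 * v p.2 + v p.2 * gm k p.1 p.2 * v p.1
            = 2 * (v p.1 * gm k p.1 p.2 * v p.2) := by ring
          _ = 0 := by rw [h2, zero_mul]
      · intro p hp hpp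
        apply hp
        have h1 : p.2 = p.1 := congrArg Prod.fst hpp
        rw [h1, gm_diag hk, mul_zero, zero_mul]
      · intro p
        exact Finset.mem_univ _
      · intro p
        exact Prod.swap_swap p
    · have hodd : Odd k := h.resolve_left h2
      have h1 := hsw v v
      rw [hodd.neg_one_pow, neg_one_mul] at h1
      have h3 : (2 : F) * (v ⬝ᵥ (gm k *ᵥ v)) = 0 := by
        calc (2 : F) * (v ⬝ᵥ (gm k *ᵥ v)) = v ⬝ᵥ (gm k *ᵥ v) + v ⬝ᵥ (gm k *ᵥ v) := by ring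
          _ = 0 := by
            nth_rewrite 1 [h1]
            rw [neg_add_cancel]
      exact (mul_eq_zero.mp h3).resolve_left h2
  · unfold tensorWreathStandard
    rw [Subgroup.closure_le]
    intro g hg
    have key : ∀ c : F, c ≠ 0 → g.1ᵀ * gm k * g.1 = c • gm k →
        g ∈ similarityGroup (fun u v : (Fin k → Fin 2) → F => u ⬝ᵥ (gm k *ᵥ v)) := by
      intro c hc hgc
      show ∃ c : Fˣ, ∀ u v : (Fin k → Fin 2) → F,
        (g.1 *ᵥ u) ⬝ᵥ (gm k *ᵥ (g.1 *ᵥ v)) = (c : F) * (u ⬝ᵥ (gm k *ᵥ v))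
      refine ⟨Units.mk0 c hc, fun u v => ?_⟩
      rw [gram_conj, hgc, Matrix.smul_mulVec, dotProduct_smul, smul_eq_mul]
      rfl
    rcases hg with ⟨gs, hgs⟩ | ⟨σ, hσ⟩
    · have hg1 : g.1 = ten (fun i => (gs i).1) := by
        ext x y
        rw [hgs x y]
        rfl
      apply key (∏ i, (gs i).1.det)
      · rw [Finset.prod_ne_zero_iff]
        intro i _
        exact ((Matrix.isUnit_iff_isUnit_det _).mp (gs i).isUnit).ne_zero
      · rw [hg1, ten_transpose]
        unfold gm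
        rw [ten_mul, ten_mul]
        have h1 : (fun i : Fin k => ((gs i).1)ᵀ * om * (gs i).1) =
            fun i => (gs i).1.det • (om : Matrix (Fin 2) (Fin 2) F) := by
          funext i
          exact om_conj _
        rw [h1, ten_smul]
    · show ∃ c : Fˣ, ∀ u v : (Fin k → Fin 2) → F,
        (g.1 *ᵥ u) ⬝ᵥ (gm k *ᵥ (g.1 *ᵥ v)) = (c : F) * (u ⬝ᵥ (gm k *ᵥ v))
      refine ⟨1, fun u v => ?_⟩
      rw [Units.val_one, one_mul]
      have hmv : ∀ (w : (Fin k → Fin 2) → F) (x : Fin k → Fin 2),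
          (g.1 *ᵥ w) x = w (x ∘ σ) := by
        intro w x
        show ∑ y, g.1 x y * w y = w (x ∘ σ)
        rw [Finset.sum_eq_single (x ∘ σ)]
        · rw [hσ, if_pos rfl, one_mul]
        · intro y _ hy
          rw [hσ, if_neg hy, zero_mul]
        · intro h
          exact absurd (Finset.mem_univ _) h
      obtain ⟨e, he⟩ : ∃ e : (Fin k → Fin 2) ≃ (Fin k → Fin 2), ∀ x, e x = x ∘ σ :=
        ⟨⟨fun x => x ∘ σ, fun x => x ∘ σ.symm, fun x => by funext i; simp,
          fun x => by funext i; simp⟩, fun x => rfl⟩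
      have hG : ∀ x y : Fin k → Fin 2,
          (gm k : Matrix (Fin k → Fin 2) (Fin k → Fin 2) F) x y = gm k (x ∘ σ) (y ∘ σ) := by
        intro x y
        unfold gm
        rw [ten_apply, ten_apply]
        exact (Equiv.prod_comp σ (fun j => (om : Matrix (Fin 2) (Fin 2) F) (x j) (y j))).symm
      rw [gram_expand, gram_expand]
      calc ∑ x, ∑ y, (g.1 *ᵥ u) x * gm k x y * (g.1 *ᵥ v) y
          = ∑ x, ∑ y, u (e x) * gm k (e x) (e y) * v (e y) := by
            apply Finset.sum_congr rfl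
            intro x _
            apply Finset.sum_congr rfl
            intro y _
            rw [hmv, hmv, hG x y, he x, he y]
        _ = ∑ x, ∑ y, u x * gm k x y * v y := by
            apply Fintype.sum_equiv e
            intro x
            apply Fintype.sum_equiv e
            intro y
            rfl

end Cfsg.Agent.Lib.Helper97.ASB8TW2A
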