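import Mathlib
import Cfsg.Prelude.Def_GeometricClasses
import Cfsg.Agent.Lib.Helper71.Asch0
import Cfsg.Agent.Lib.Helper71.Asch5
import Cfsg.Agent.Lib.Helper28.ASUFQ

/-!
# S5630, piece SK (helper97 for helper71): centre of order 2

`L` of symplectic type with `|Z(L)| = 2`, odd characteristic: `∑ tr(g)² = 2 n² ≠ 0`, so the
averaging lemma gives an invertible invariant bilinear matrix `S`; `Sᵀ = ± S` by uniqueness, and
`H` lies in a member of class 8 (UFQ or UFS).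

The file also proves the averaging lemmas `AVG` and `AVGinv` (statements of the Skel5).
-/

set_option autoImplicit false

namespace Cfsg.Agent.Lib.Helper97.ASSK

open Matrix Cfsg.Geo Cfsg.Agent.Lib.Helper71.Asch
open scoped Kronecker

variable {n : ℕ} {F : Type*} [Field F]

/-- an entry of `A E_ij B` -/
theorem mul_single_mul_apply (A B : Matrix (Fin n) (Fin n) F) (i j k l : Fin n) :
    (A * Matrix.single i j (1 : F) * B) k l = A k i * B j l := by
  rw [Matrix.mul_apply, Finset.sum_eq_single j]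
  · rw [Matrix.mul_apply, Finset.sum_eq_single i]
    · rw [Matrix.single_apply_same, mul_one]
    · intro a _ ha
      rw [Matrix.single_apply_of_row_ne (Ne.symm ha) j j 1, mul_zero]
    · intro hi
      exact absurd (Finset.mem_univ i) hi
  · intro b _ hb
    have h0 : (A * Matrix.single i j (1 : F)) k b = 0 := by
      rw [Matrix.mul_apply]
      apply Finset.sum_eq_zero
      intro a _
      rw [Matrix.single_apply_of_col_ne i a (Ne.symm hb) 1, mul_zero]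
    rw [h0, zero_mul]
  · intro hj
    exact absurd (Finset.mem_univ j) hj

/-- AVG -/
theorem AVG (L : Subgroup (GL (Fin n) F)) (σ : F →+* F) (s : Finset (GL (Fin n) F))
    (hs : ∀ g, g ∈ s ↔ g ∈ L)
    (hsum : ∑ g ∈ s, Matrix.trace g.1 * σ (Matrix.trace g.1) ≠ 0) :
    ∃ S : Matrix (Fin n) (Fin n) F, S ≠ 0 ∧ ∀ x ∈ L, x.1ᵀ * S * x.1.map σ = S := by
  classical
  -- the averaging operator
  have hinv : ∀ M : Matrix (Fin n) (Fin n) F, ∀ x ∈ L,
      x.1ᵀ * (∑ g ∈ s, g.1ᵀ * M * g.1.map σ) * x.1.map σ = ∑ g ∈ s, g.1ᵀ * M * g.1.map σ := by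
    intro M x hx
    rw [Finset.mul_sum, Finset.sum_mul]
    apply Finset.sum_equiv (Equiv.mulRight x)
    · intro g
      rw [hs, hs]
      constructor
      · intro hg
        exact L.mul_mem hg hx
      · intro hg
        have h1 := L.mul_mem hg (L.inv_mem hx)
        rwa [Equiv.coe_mulRight, mul_inv_cancel_right] at h1
    · intro g _
      rw [Equiv.coe_mulRight, Units.val_mul, Matrix.transpose_mul, Matrix.map_mul]
      simp only [Matrix.mul_assoc]
  by_contra hcon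
  push Not at hcon
  have hall : ∀ i j : Fin n, ∑ g ∈ s, g.1ᵀ * Matrix.single i j (1 : F) * g.1.map σ = 0 := by
    intro i j
    by_contra hne
    obtain ⟨x, hx, hxne⟩ := hcon _ hne
    exact hxne (hinv _ x hx)
  apply hsum
  have h1 : ∀ i j : Fin n, ∑ g ∈ s, g.1 i i * σ (g.1 j j) = 0 := by
    intro i j
    have h2 := congrFun (congrFun (hall i j) i) j
    rw [Matrix.sum_apply, Matrix.zero_apply] at h2
    rw [← h2]
    apply Finset.sum_congr rfl
    intro g _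
    rw [mul_single_mul_apply]
    rfl
  calc ∑ g ∈ s, Matrix.trace g.1 * σ (Matrix.trace g.1)
      = ∑ g ∈ s, ∑ i, ∑ j, g.1 i i * σ (g.1 j j) := by
        apply Finset.sum_congr rfl
        intro g _
        unfold Matrix.trace
        rw [map_sum, Finset.sum_mul]
        apply Finset.sum_congr rfl
        intro i _
        rw [Finset.mul_sum]
        rfl
    _ = ∑ i, ∑ j, ∑ g ∈ s, g.1 i i * σ (g.1 j j) := by
        rw [Finset.sum_comm]
        apply Finset.sum_congr rfl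
        intro i _
        rw [Finset.sum_comm]
    _ = 0 := by
        apply Finset.sum_eq_zero
        intro i _
        apply Finset.sum_eq_zero
        intro j _
        exact h1 i j

/-- AVGinv -/
theorem AVGinv (L : Subgroup (GL (Fin n) F)) (hirr : ActsIrreducibly (matrixSet L))
    (σ : F ≃+* F) (S : Matrix (Fin n) (Fin n) F) (hS : S ≠ 0)
    (hinv : ∀ x ∈ L, x.1ᵀ * S * x.1.map σ = S) : IsUnit S := by
  classical
  have hK := hirr (LinearMap.ker (Matrix.toLin' Sᵀ)) (by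
    rintro _ ⟨x, hx, rfl⟩
    rintro _ ⟨v, hv, rfl⟩
    rw [SetLike.mem_coe, LinearMap.mem_ker, Matrix.toLin'_apply] at hv
    rw [LinearMap.mem_ker, Matrix.toLin'_apply, Matrix.toLin'_apply]
    have h1 : (x.1.map σ)ᵀ * Sᵀ * x.1 = Sᵀ := by
      have h2 := congrArg Matrix.transpose (hinv x hx)
      rw [Matrix.transpose_mul, Matrix.transpose_mul, Matrix.transpose_transpose,
        ← Matrix.mul_assoc] at h2
      exact h2
    have h3 : ((x⁻¹ : GL (Fin n) F).1.map σ)ᵀ * (x.1.map σ)ᵀ = 1 := by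
      rw [← Matrix.transpose_mul, ← Matrix.map_mul, ← Units.val_mul, mul_inv_cancel,
        Units.val_one, Matrix.map_one _ (map_zero σ) (map_one σ), Matrix.transpose_one]
    have h4 : (x.1.map σ)ᵀ *ᵥ (Sᵀ *ᵥ (x.1 *ᵥ v)) = 0 := by
      rw [Matrix.mulVec_mulVec, Matrix.mulVec_mulVec, h1, hv]
    have h5 := congrArg (fun w => ((x⁻¹ : GL (Fin n) F).1.map σ)ᵀ *ᵥ w) h4
    simp only [Matrix.mulVec_zero] at h5
    rw [Matrix.mulVec_mulVec, h3, Matrix.one_mulVec] at h5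
    exact h5)
  rcases hK with h | h
  · rw [← Matrix.isUnit_transpose, ← Matrix.mulVec_injective_iff_isUnit]
    intro v w hvw
    have h1 : v - w ∈ LinearMap.ker (Matrix.toLin' Sᵀ) := by
      rw [LinearMap.mem_ker, Matrix.toLin'_apply, Matrix.mulVec_sub, hvw, sub_self]
    rw [h, Submodule.mem_bot] at h1
    exact sub_eq_zero.mp h1
  · exfalso
    apply hS
    have h1 : Sᵀ = 0 := by
      ext i j
      have h2 : Pi.single j (1 : F) ∈ LinearMap.ker (Matrix.toLin' Sᵀ) := by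
        rw [h]
        exact Submodule.mem_top
      rw [LinearMap.mem_ker, Matrix.toLin'_apply] at h2
      have h3 := congrFun h2 i
      rw [Matrix.mulVec_single_one] at h3
      exact h3
    rw [← Matrix.transpose_transpose S, h1, Matrix.transpose_zero]

/-! ### Forms with a Gram matrix -/

theorem gram_bilinear (S : Matrix (Fin n) (Fin n) F) (c : F) :
    IsBilinearForm (fun u v : Fin n → F => c * (u ⬝ᵥ (S *ᵥ v))) := by
  refine ⟨fun x y v => ?_, fun a x v => ?_, fun v x y => ?_, fun a v x => ?_⟩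
  · show c * ((x + y) ⬝ᵥ (S *ᵥ v)) = c * (x ⬝ᵥ (S *ᵥ v)) + c * (y ⬝ᵥ (S *ᵥ v))
    rw [add_dotProduct, mul_add]
  · show c * ((a • x) ⬝ᵥ (S *ᵥ v)) = a * (c * (x ⬝ᵥ (S *ᵥ v)))
    rw [smul_dotProduct, smul_eq_mul]
    ring
  · show c * (v ⬝ᵥ (S *ᵥ (x + y))) = c * (v ⬝ᵥ (S *ᵥ x)) + c * (v ⬝ᵥ (S *ᵥ y))
    rw [Matrix.mulVec_add, dotProduct_add, mul_add]
  · show c * (v ⬝ᵥ (S *ᵥ (a • x))) = a * (c * (v ⬝ᵥ (S *ᵥ x)))
    rw [Matrix.mulVec_smul, dotProduct_smul, smul_eq_mul]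
    ring

theorem gram_exists_ne (S : Matrix (Fin n) (Fin n) F) (hS : IsUnit S) (v : Fin n → F)
    (hv : v ≠ 0) : ∃ x : Fin n → F, x ⬝ᵥ (S *ᵥ v) ≠ 0 := by
  have h1 : S *ᵥ v ≠ 0 := by
    intro h0
    apply hv
    apply Matrix.mulVec_injective_iff_isUnit.mpr hS
    rw [h0, Matrix.mulVec_zero]
  obtain ⟨i, hi⟩ := Function.ne_iff.mp h1
  refine ⟨Pi.single i 1, ?_⟩
  rw [single_one_dotProduct]
  exact hi

theorem gram_swap (S : Matrix (Fin n) (Fin n) F) (ε : F) (hST : Sᵀ = ε • S) (u v : Fin n → F) :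
    v ⬝ᵥ (S *ᵥ u) = ε * (u ⬝ᵥ (S *ᵥ v)) := by
  rw [Matrix.dotProduct_mulVec, ← Matrix.mulVec_transpose, hST, Matrix.smul_mulVec,
    smul_dotProduct, smul_eq_mul, dotProduct_comm]

variable [Fintype F]

/-- SK -/
theorem SK (hn : 3 ≤ n) (H L : Subgroup (GL (Fin n) F)) (h : SymT H L) (h2 : (2 : F) ≠ 0)
    (hn0 : (n : F) ≠ 0) (htr : ∀ x ∈ L, x ∉ scalars (Fin n) F → Matrix.trace x.1 = 0)
    (hz : Nat.card ↥(L ⊓ scalars (Fin n) F) = 2) : InCls H := by
  classical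
  obtain ⟨s, hsdef⟩ : ∃ s : Finset (GL (Fin n) F), s = Finset.univ.filter (fun g => g ∈ L) :=
    ⟨_, rfl⟩
  have hs : ∀ g, g ∈ s ↔ g ∈ L := by
    intro g
    rw [hsdef, Finset.mem_filter]
    exact ⟨fun hg => hg.2, fun hg => ⟨Finset.mem_univ g, hg⟩⟩
  -- the sum of the squares of the traces
  have hcard : (s.filter (fun g => g ∈ scalars (Fin n) F)).card = 2 := by
    rw [← hz, Nat.card_eq_fintype_card]
    symm
    apply Fintype.card_of_subtype
    intro g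
    rw [Finset.mem_filter, hs]
    rfl
  have hterm : ∀ g ∈ s.filter (fun g => g ∈ scalars (Fin n) F),
      Matrix.trace g.1 * Matrix.trace g.1 = (n : F) * n := by
    intro g hg
    rw [Finset.mem_filter, hs] at hg
    obtain ⟨c, hc⟩ := (mem_scalars_iff g).mp hg.2
    have hg2 : g ^ 2 = 1 := by
      have h1 : (⟨g, hg⟩ : ↥(L ⊓ scalars (Fin n) F)) ^ 2 = 1 := by
        rw [← hz]
        exact pow_card_eq_one'
      have h3 := congrArg Subtype.val h1
      exact h3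
    have hcc : (c : F) * c = 1 := by
      have h1 : (g ^ 2 : GL (Fin n) F).1 = 1 := by rw [hg2, Units.val_one]
      rw [pow_two, Units.val_mul, hc, Matrix.smul_mul, Matrix.mul_smul, one_mul, smul_smul] at h1
      have h3 := congrFun (congrFun h1 ⟨0, by omega⟩) ⟨0, by omega⟩
      rw [Matrix.smul_apply, Matrix.one_apply_eq, smul_eq_mul, mul_one] at h3
      exact h3
    rw [hc, Matrix.trace_smul, Matrix.trace_one, Fintype.card_fin, smul_eq_mul]
    calc (c : F) * n * (c * n) = (c * c) * (n * n) := by ring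
      _ = n * n := by rw [hcc, one_mul]
  have hsum : ∑ g ∈ s, Matrix.trace g.1 * (RingHom.id F) (Matrix.trace g.1) ≠ 0 := by
    have h1 : ∑ g ∈ s, Matrix.trace g.1 * (RingHom.id F) (Matrix.trace g.1) =
        ∑ g ∈ s.filter (fun g => g ∈ scalars (Fin n) F), Matrix.trace g.1 * Matrix.trace g.1 := by
      rw [Finset.sum_filter]
      apply Finset.sum_congr rfl
      intro g hg
      by_cases hgs : g ∈ scalars (Fin n) F
      · rw [if_pos hgs]
        rfl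
      · rw [if_neg hgs, htr g ((hs g).mp hg) hgs, zero_mul]
    rw [h1, Finset.sum_congr rfl hterm, Finset.sum_const, hcard, nsmul_eq_mul]
    have h3 : ((2 : ℕ) : F) = 2 := by norm_num
    rw [h3]
    exact mul_ne_zero h2 (mul_ne_zero hn0 hn0)
  obtain ⟨S, hS0, hSinv⟩ := AVG L (RingHom.id F) s hs hsum
  have hSinv' : ∀ x ∈ L, x.1ᵀ * S * x.1 = S := by
    intro x hx
    have h1 := hSinv x hx
    have h3 : x.1.map (RingHom.id F) = x.1 := by
      ext i j
      rfl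
    rw [h3] at h1
    exact h1
  have hSu : IsUnit S := by
    apply AVGinv L h.abs.1 (RingEquiv.refl F) S hS0
    intro x hx
    have h3 : x.1.map (RingEquiv.refl F) = x.1 := by
      ext i j
      rfl
    rw [h3]
    exact hSinv' x hx
  obtain ⟨Su, hSuS⟩ := hSu
  have hSiS : (Su⁻¹ : (Matrix (Fin n) (Fin n) F)ˣ).1 * S = 1 := by
    rw [← hSuS, ← Units.val_mul, inv_mul_cancel, Units.val_one]
  have hSSi : S * (Su⁻¹ : (Matrix (Fin n) (Fin n) F)ˣ).1 = 1 := by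
    rw [← hSuS, ← Units.val_mul, mul_inv_cancel, Units.val_one]
  have hSTinv : ∀ x ∈ L, x.1ᵀ * Sᵀ * x.1 = Sᵀ := by
    intro x hx
    have h1 := congrArg Matrix.transpose (hSinv' x hx)
    rw [Matrix.transpose_mul, Matrix.transpose_mul, Matrix.transpose_transpose,
      ← Matrix.mul_assoc] at h1
    exact h1
  have hA : ∀ (M : Matrix (Fin n) (Fin n) F), (∀ x ∈ L, x.1ᵀ * M * x.1 = M) →
      ∀ x ∈ L, M * x.1 = (x⁻¹ : GL (Fin n) F).1ᵀ * M := by
    intro M hM x hx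
    calc M * x.1 = ((x⁻¹ : GL (Fin n) F).1ᵀ * M * (x⁻¹ : GL (Fin n) F).1) * x.1 := by
          rw [hM x⁻¹ (L.inv_mem hx)]
      _ = (x⁻¹ : GL (Fin n) F).1ᵀ * M * ((x⁻¹ : GL (Fin n) F).1 * x.1) := by
          rw [Matrix.mul_assoc]
      _ = (x⁻¹ : GL (Fin n) F).1ᵀ * M := by
          rw [← Units.val_mul, inv_mul_cancel, Units.val_one, Matrix.mul_one]
  -- `T = S⁻¹ Sᵀ` commutes with `L`
  obtain ⟨ε, hε⟩ := h.abs.2 ((Su⁻¹ : (Matrix (Fin n) (Fin n) F)ˣ).1 * Sᵀ) (by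
    rintro _ ⟨x, hx, rfl⟩
    show (Su⁻¹ : (Matrix (Fin n) (Fin n) F)ˣ).1 * Sᵀ * x.1 =
      x.1 * ((Su⁻¹ : (Matrix (Fin n) (Fin n) F)ˣ).1 * Sᵀ)
    have e1 : x.1 * (Su⁻¹ : (Matrix (Fin n) (Fin n) F)ˣ).1 =
        (Su⁻¹ : (Matrix (Fin n) (Fin n) F)ˣ).1 * (x⁻¹ : GL (Fin n) F).1ᵀ := by
      calc x.1 * (Su⁻¹ : (Matrix (Fin n) (Fin n) F)ˣ).1
          = ((Su⁻¹ : (Matrix (Fin n) (Fin n) F)ˣ).1 * S) * x.1 *
              (Su⁻¹ : (Matrix (Fin n) (Fin n) F)ˣ).1 := by rw [hSiS, Matrix.one_mul]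
        _ = (Su⁻¹ : (Matrix (Fin n) (Fin n) F)ˣ).1 * (S * x.1) *
              (Su⁻¹ : (Matrix (Fin n) (Fin n) F)ˣ).1 := by rw [Matrix.mul_assoc _ S]
        _ = (Su⁻¹ : (Matrix (Fin n) (Fin n) F)ˣ).1 * ((x⁻¹ : GL (Fin n) F).1ᵀ * S) *
              (Su⁻¹ : (Matrix (Fin n) (Fin n) F)ˣ).1 := by rw [hA S hSinv' x hx]
        _ = (Su⁻¹ : (Matrix (Fin n) (Fin n) F)ˣ).1 * (x⁻¹ : GL (Fin n) F).1ᵀ *
              (S * (Su⁻¹ : (Matrix (Fin n) (Fin n) F)ˣ).1) := by
            simp only [Matrix.mul_assoc]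
        _ = (Su⁻¹ : (Matrix (Fin n) (Fin n) F)ˣ).1 * (x⁻¹ : GL (Fin n) F).1ᵀ := by
            rw [hSSi, Matrix.mul_one]
    rw [Matrix.mul_assoc, hA Sᵀ hSTinv x hx, ← Matrix.mul_assoc x.1, e1, Matrix.mul_assoc])
  have hST : Sᵀ = ε • S := by
    calc Sᵀ = (S * (Su⁻¹ : (Matrix (Fin n) (Fin n) F)ˣ).1) * Sᵀ := by rw [hSSi, Matrix.one_mul]
      _ = S * ((Su⁻¹ : (Matrix (Fin n) (Fin n) F)ˣ).1 * Sᵀ) := by rw [Matrix.mul_assoc]
      _ = ε • S := by rw [hε, Matrix.mul_smul, Matrix.mul_one]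
  have hεε : ε * ε = 1 := by
    have h1 : S = (ε * ε) • S := by
      calc S = (Sᵀ)ᵀ := (Matrix.transpose_transpose S).symm
        _ = (ε • S)ᵀ := by rw [hST]
        _ = ε • Sᵀ := Matrix.transpose_smul _ _
        _ = (ε * ε) • S := by rw [hST, smul_smul]
    have h3 : (ε * ε - 1) • S = 0 := by
      rw [sub_smul, one_smul, ← h1, sub_self]
    rcases smul_eq_zero.mp h3 with h4 | h4
    · exact sub_eq_zero.mp h4
    · exact absurd h4 hS0
  have hε1 : ε = 1 ∨ ε = -1 := by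
    have h1 : (ε - 1) * (ε + 1) = 0 := by
      calc (ε - 1) * (ε + 1) = ε * ε - 1 := by ring
        _ = 0 := by rw [hεε, sub_self]
    rcases mul_eq_zero.mp h1 with h3 | h3
    · exact Or.inl (sub_eq_zero.mp h3)
    · exact Or.inr (eq_neg_of_add_eq_zero_left h3)
  have hSunit : IsUnit S := ⟨Su, hSuS⟩
  have hfixB : ∀ x ∈ L, ∀ u v : Fin n → F,
      (x.1 *ᵥ u) ⬝ᵥ (S *ᵥ (x.1 *ᵥ v)) = u ⬝ᵥ (S *ᵥ v) := by
    intro x hx u v
    rw [Cfsg.Agent.Lib.Helper28.ASUFQ.dot_conj, hSinv' x hx]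
  rcases hε1 with hε1 | hε1
  · -- symmetric: a quadratic form
    rw [hε1] at hST
    have hswap : ∀ u v : Fin n → F, v ⬝ᵥ (S *ᵥ u) = u ⬝ᵥ (S *ᵥ v) := by
      intro u v
      rw [gram_swap S 1 hST u v, one_mul]
    have hpolar : QuadraticMap.polar (fun v : Fin n → F => v ⬝ᵥ (S *ᵥ v)) =
        fun u v : Fin n → F => 2 * (u ⬝ᵥ (S *ᵥ v)) := by
      funext u v
      show (u + v) ⬝ᵥ (S *ᵥ (u + v)) - u ⬝ᵥ (S *ᵥ u) - v ⬝ᵥ (S *ᵥ v) = 2 * (u ⬝ᵥ (S *ᵥ v))
      rw [Matrix.mulVec_add, add_dotProduct, dotProduct_add, dotProduct_add, hswap u v]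
      ring
    apply Cfsg.Agent.Lib.Helper28.ASUFQ.UFQ hn H L h.min.nrm h.abs
      (fun v : Fin n → F => v ⬝ᵥ (S *ᵥ v))
    · refine ⟨fun c v => ?_, ?_, ?_⟩
      · show (c • v) ⬝ᵥ (S *ᵥ (c • v)) = c ^ 2 * (v ⬝ᵥ (S *ᵥ v))
        rw [Matrix.mulVec_smul, smul_dotProduct, dotProduct_smul, smul_eq_mul, smul_eq_mul]
        ring
      · rw [hpolar]
        exact gram_bilinear S 2
      · rw [hpolar]
        intro v hv
        obtain ⟨x, hx⟩ := gram_exists_ne S hSunit v hv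
        refine ⟨⟨x, mul_ne_zero h2 hx⟩, ⟨x, ?_⟩⟩
        show 2 * (v ⬝ᵥ (S *ᵥ x)) ≠ 0
        rw [hswap x v]
        exact mul_ne_zero h2 hx
    · rintro _ ⟨x, hx, rfl⟩ v
      exact hfixB x hx v v
  · -- skew: a symplectic form
    rw [hε1] at hST
    have hswap : ∀ u v : Fin n → F, v ⬝ᵥ (S *ᵥ u) = - (u ⬝ᵥ (S *ᵥ v)) := by
      intro u v
      rw [gram_swap S (-1) hST u v, neg_one_mul]
    apply Cfsg.Agent.Lib.Helper19.ASUFS.UFS hn H L h.min.nrm h.abs
      (fun u v : Fin n → F => u ⬝ᵥ (S *ᵥ v))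
    · refine ⟨?_, fun v w => ?_, fun v => ?_, fun v hv => ?_⟩
      · have h1 := gram_bilinear S 1
        simp only [one_mul] at h1
        exact h1
      · exact hswap w v
      · have h1 := hswap v v
        have h3 : (2 : F) * (v ⬝ᵥ (S *ᵥ v)) = 0 := by
          calc (2 : F) * (v ⬝ᵥ (S *ᵥ v)) = v ⬝ᵥ (S *ᵥ v) + v ⬝ᵥ (S *ᵥ v) := by ring
            _ = 0 := by
              nth_rewrite 1 [h1]
              rw [neg_add_cancel]
        rcases mul_eq_zero.mp h3 with h4 | h4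
        · exact absurd h4 h2
        · exact h4
      · obtain ⟨x, hx⟩ := gram_exists_ne S hSunit v hv
        refine ⟨⟨x, hx⟩, ⟨x, ?_⟩⟩
        show v ⬝ᵥ (S *ᵥ x) ≠ 0
        rw [hswap x v]
        exact neg_ne_zero.mpr hx
    · rintro _ ⟨x, hx, rfl⟩ u v
      exact hfixB x hx u v

end Cfsg.Agent.Lib.Helper97.ASSK
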