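import Mathlib
import Cfsg.Prelude.Def_GeometricClasses
import Cfsg.Agent.Lib.Helper71.Asch0
import Cfsg.Agent.Lib.Helper71.Asch5

/-!
# S5630, piece SL3 (helper97 for helper71): the Lagrangian count

For `L` of symplectic type and a maximal abelian subgroup `A` of `L`, the commutator pairing
between `L/A` and `A/Z(L)` is non-degenerate on both sides, so `|L| * |Z(L)| = |A|²`.
(Dedekind's independence of characters; the prime `r` is not needed.)
-/

set_option autoImplicit false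

namespace Cfsg.Agent.Lib.Helper97.ASSL3

open Matrix Cfsg.Geo Cfsg.Agent.Lib.Helper71.Asch
open scoped Kronecker commutatorElement

variable {n : ℕ} {F : Type*} [Field F]

/-- pairwise different characters of a finite group `G` that are invariant under right
multiplication by a subgroup `K`: there are at most `|G : K|` of them -/
theorem card_le_of_chars {G : Type*} [Group G] [Finite G] (K : Subgroup G) {ι : Type*} [Finite ι]
    (φ : ι → (G →* F)) (hinj : Function.Injective φ)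
    (hK : ∀ i, ∀ g : G, ∀ k ∈ K, φ i (g * k) = φ i g) : Nat.card ι ≤ Nat.card (G ⧸ K) := by
  classical
  haveI := Fintype.ofFinite ι
  haveI := Fintype.ofFinite (G ⧸ K)
  obtain ⟨ψ, hψdef⟩ : ∃ ψ : ι → (G ⧸ K → F), ∀ i g, ψ i (QuotientGroup.mk g) = φ i g := by
    refine ⟨fun i => Quotient.lift (fun g => φ i g) ?_, fun i g => rfl⟩
    intro a b hab
    have h1 : a⁻¹ * b ∈ K := QuotientGroup.leftRel_apply.mp hab
    have h2 := hK i a (a⁻¹ * b) h1
    rw [mul_inv_cancel_left] at h2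
    exact h2.symm
  have hli : LinearIndependent F (fun i => (φ i : G → F)) :=
    (linearIndependent_monoidHom G F).comp φ hinj
  have hψ : LinearIndependent F ψ := by
    apply LinearIndependent.of_comp (LinearMap.funLeft F F (QuotientGroup.mk : G → G ⧸ K))
    have e : (LinearMap.funLeft F F (QuotientGroup.mk : G → G ⧸ K)) ∘ ψ =
        fun i => (φ i : G → F) := by
      funext i g
      exact hψdef i g
    rw [e]
    exact hli
  have h3 := hψ.fintype_card_le_finrank
  rw [Module.finrank_fintype_fun_eq_card] at h3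
  rw [Nat.card_eq_fintype_card, Nat.card_eq_fintype_card]
  exact h3

variable [Fintype F]

/-- SL3 -/
theorem SL3 (hn : 1 ≤ n) (H L : Subgroup (GL (Fin n) F)) (h : SymT H L) (r : ℕ) (hr : r.Prime)
    (hx : ∀ x ∈ L, x ^ r ∈ scalars (Fin n) F) (A : Subgroup (GL (Fin n) F)) (hAL : A ≤ L)
    (hAc : ∀ a ∈ A, ∀ b ∈ A, a * b = b * a)
    (hAm : ∀ x ∈ L, (∀ a ∈ A, x * a = a * x) → x ∈ A) :
    Nat.card ↥L * Nat.card ↥(L ⊓ scalars (Fin n) F) = Nat.card ↥A ^ 2 := by
  classical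
  obtain ⟨sc, hsc⟩ : ∃ sc : GL (Fin n) F → F, sc = fun g => g.1 ⟨0, hn⟩ ⟨0, hn⟩ := ⟨_, rfl⟩
  have hsc1 : sc 1 = 1 := by
    rw [hsc]
    simp
  have hscmul : ∀ s ∈ scalars (Fin n) F, ∀ t : GL (Fin n) F, sc (s * t) = sc s * sc t := by
    intro s hs t
    obtain ⟨c, hc⟩ := (mem_scalars_iff s).mp hs
    rw [hsc]
    show (s * t).1 _ _ = s.1 _ _ * t.1 _ _
    rw [Units.val_mul, hc]
    simp
  have hscinj : ∀ s ∈ scalars (Fin n) F, ∀ t ∈ scalars (Fin n) F, sc s = sc t → s = t := by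
    intro s hs t ht hst
    obtain ⟨c, hc⟩ := (mem_scalars_iff s).mp hs
    obtain ⟨d, hd⟩ := (mem_scalars_iff t).mp ht
    apply Units.ext
    rw [hsc] at hst
    have hcd : (c : F) = d := by
      have h1 : s.1 ⟨0, hn⟩ ⟨0, hn⟩ = t.1 ⟨0, hn⟩ ⟨0, hn⟩ := hst
      rw [hc, hd] at h1
      simpa using h1
    rw [hc, hd, hcd]
  have hscal : ∀ s ∈ scalars (Fin n) F, ∀ b : GL (Fin n) F, s * b = b * s := by
    intro s hs b
    obtain ⟨c, hc⟩ := (mem_scalars_iff s).mp hs
    apply Units.ext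
    rw [Units.val_mul, Units.val_mul, hc, Matrix.smul_mul, Matrix.mul_smul, one_mul, mul_one]
  have hcomm : ∀ x ∈ L, ∀ y ∈ L, ⁅x, y⁆ ∈ scalars (Fin n) F := fun x hx y hy =>
    h.comm (Subgroup.commutator_mem_commutator hx hy)
  have hZA : L ⊓ scalars (Fin n) F ≤ A := by
    intro s hs
    exact hAm s hs.1 (fun a _ => hscal s hs.2 a)
  have hmulR : ∀ x ∈ L, ∀ a ∈ L, ∀ b ∈ L, ⁅x, a * b⁆ = ⁅x, a⁆ * ⁅x, b⁆ := by
    intro x hx a ha b hb
    have h1 := hscal _ (hcomm x hx b hb) (a⁻¹)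
    calc ⁅x, a * b⁆ = x * a * x⁻¹ * (⁅x, b⁆ * a⁻¹) := by
          rw [commutatorElement_def, commutatorElement_def]
          group
      _ = x * a * x⁻¹ * (a⁻¹ * ⁅x, b⁆) := by rw [h1]
      _ = ⁅x, a⁆ * ⁅x, b⁆ := by
          rw [commutatorElement_def x a]
          group
  have hmulL : ∀ x ∈ L, ∀ y ∈ L, ∀ a ∈ L, ⁅x * y, a⁆ = ⁅x, a⁆ * ⁅y, a⁆ := by
    intro x hx y hy a ha
    have h1 := hscal _ (hcomm y hy a ha) (a * x⁻¹ * a⁻¹)
    calc ⁅x * y, a⁆ = x * (⁅y, a⁆ * (a * x⁻¹ * a⁻¹)) := by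
          rw [commutatorElement_def, commutatorElement_def]
          group
      _ = x * ((a * x⁻¹ * a⁻¹) * ⁅y, a⁆) := by rw [h1]
      _ = ⁅x, a⁆ * ⁅y, a⁆ := by
          rw [commutatorElement_def x a]
          group
  -- the characters `a ↦ ⁅x, a⁆` of `A`
  obtain ⟨φ, hφ⟩ : ∃ φ : ↥L → (↥A →* F), ∀ (x : ↥L) (a : ↥A),
      φ x a = sc ⁅(x : GL (Fin n) F), (a : GL (Fin n) F)⁆ := by
    refine ⟨fun x => ⟨⟨fun a => sc ⁅(x : GL (Fin n) F), (a : GL (Fin n) F)⁆, ?_⟩, ?_⟩,
      fun x a => rfl⟩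
    · show sc ⁅(x : GL (Fin n) F), ((1 : ↥A) : GL (Fin n) F)⁆ = 1
      rw [Subgroup.coe_one, commutatorElement_one_right, hsc1]
    · intro a b
      show sc ⁅(x : GL (Fin n) F), ((a * b : ↥A) : GL (Fin n) F)⁆ =
        sc ⁅(x : GL (Fin n) F), (a : GL (Fin n) F)⁆ * sc ⁅(x : GL (Fin n) F), (b : GL (Fin n) F)⁆
      rw [Subgroup.coe_mul, hmulR _ x.2 _ (hAL a.2) _ (hAL b.2),
        hscmul _ (hcomm _ x.2 _ (hAL a.2))]
  -- the characters `x ↦ ⁅x, a⁆` of `L`
  obtain ⟨χ, hχ⟩ : ∃ χ : ↥A → (↥L →* F), ∀ (a : ↥A) (x : ↥L),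
      χ a x = sc ⁅(x : GL (Fin n) F), (a : GL (Fin n) F)⁆ := by
    refine ⟨fun a => ⟨⟨fun x => sc ⁅(x : GL (Fin n) F), (a : GL (Fin n) F)⁆, ?_⟩, ?_⟩,
      fun a x => rfl⟩
    · show sc ⁅((1 : ↥L) : GL (Fin n) F), (a : GL (Fin n) F)⁆ = 1
      rw [Subgroup.coe_one, commutatorElement_one_left, hsc1]
    · intro x y
      show sc ⁅((x * y : ↥L) : GL (Fin n) F), (a : GL (Fin n) F)⁆ =
        sc ⁅(x : GL (Fin n) F), (a : GL (Fin n) F)⁆ * sc ⁅(y : GL (Fin n) F), (a : GL (Fin n) F)⁆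
      rw [Subgroup.coe_mul, hmulL _ x.2 _ y.2 _ (hAL a.2),
        hscmul _ (hcomm _ x.2 _ (hAL a.2))]
  -- first inequality
  have hI : Nat.card (↥L ⧸ A.subgroupOf L) ≤
      Nat.card (↥A ⧸ (L ⊓ scalars (Fin n) F).subgroupOf A) := by
    apply card_le_of_chars ((L ⊓ scalars (Fin n) F).subgroupOf A)
      (fun q : ↥L ⧸ A.subgroupOf L => φ (Quotient.out q))
    · intro q q' hqq
      have hqq' : φ (Quotient.out q) = φ (Quotient.out q') := hqq
      have hmem : ((Quotient.out q : ↥L) : GL (Fin n) F)⁻¹ * ((Quotient.out q' : ↥L) : GL (Fin n) F)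
          ∈ A := by
        apply hAm _ (L.mul_mem (L.inv_mem (Quotient.out q).2) (Quotient.out q').2)
        intro a ha
        have h1 := DFunLike.congr_fun hqq' ⟨a, ha⟩
        rw [hφ, hφ] at h1
        have h2 := hscinj _ (hcomm _ (Quotient.out q).2 _ (hAL ha)) _
          (hcomm _ (Quotient.out q').2 _ (hAL ha)) h1
        rw [commutatorElement_def, commutatorElement_def] at h2
        have h3 := mul_right_cancel h2
        obtain ⟨x, hxdef⟩ : ∃ x : GL (Fin n) F, x = ((Quotient.out q : ↥L) : GL (Fin n) F) :=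
          ⟨_, rfl⟩
        obtain ⟨x', hx'def⟩ : ∃ x' : GL (Fin n) F,
          x' = ((Quotient.out q' : ↥L) : GL (Fin n) F) := ⟨_, rfl⟩
        rw [← hxdef, ← hx'def] at h3 ⊢
        have h4 : x * a * x⁻¹ = x' * a * x'⁻¹ := h3
        calc x⁻¹ * x' * a = x⁻¹ * (x' * a * x'⁻¹) * x' := by group
          _ = x⁻¹ * (x * a * x⁻¹) * x' := by rw [h4]
          _ = a * (x⁻¹ * x') := by group
      calc q = QuotientGroup.mk (Quotient.out q) := (QuotientGroup.out_eq' q).symm
        _ = QuotientGroup.mk (Quotient.out q') := by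
          rw [QuotientGroup.eq, Subgroup.mem_subgroupOf]
          exact hmem
        _ = q' := QuotientGroup.out_eq' q'
    · intro q a k hk
      rw [map_mul]
      have hk' : (k : GL (Fin n) F) ∈ L ⊓ scalars (Fin n) F := Subgroup.mem_subgroupOf.mp hk
      have h1 : φ (Quotient.out q) k = 1 := by
        rw [hφ]
        have h2 : ⁅((Quotient.out q : ↥L) : GL (Fin n) F), (k : GL (Fin n) F)⁆ = 1 := by
          rw [commutatorElement_eq_one_iff_mul_comm]
          exact (hscal _ hk'.2 _).symm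
        rw [h2, hsc1]
      rw [h1, mul_one]
  -- second inequality
  have hII : Nat.card (↥A ⧸ (L ⊓ scalars (Fin n) F).subgroupOf A) ≤
      Nat.card (↥L ⧸ A.subgroupOf L) := by
    apply card_le_of_chars (A.subgroupOf L)
      (fun p : ↥A ⧸ (L ⊓ scalars (Fin n) F).subgroupOf A => χ (Quotient.out p))
    · intro p p' hpp
      have hpp' : χ (Quotient.out p) = χ (Quotient.out p') := hpp
      obtain ⟨a, hadef⟩ : ∃ a : GL (Fin n) F, a = ((Quotient.out p : ↥A) : GL (Fin n) F) :=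
        ⟨_, rfl⟩
      obtain ⟨a', ha'def⟩ : ∃ a' : GL (Fin n) F,
        a' = ((Quotient.out p' : ↥A) : GL (Fin n) F) := ⟨_, rfl⟩
      have haA : a ∈ A := by
        rw [hadef]
        exact (Quotient.out p).2
      have ha'A : a' ∈ A := by
        rw [ha'def]
        exact (Quotient.out p').2
      have hcen : ∀ x ∈ L, a⁻¹ * a' * x = x * (a⁻¹ * a') := by
        intro x hxL
        have h1 := DFunLike.congr_fun hpp' ⟨x, hxL⟩
        rw [hχ, hχ] at h1
        have h2 := hscinj _ (hcomm _ hxL _ (hAL (Quotient.out p).2)) _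
          (hcomm _ hxL _ (hAL (Quotient.out p').2)) h1
        rw [commutatorElement_def, commutatorElement_def, ← hadef, ← ha'def] at h2
        have h4 : a * x⁻¹ * a⁻¹ = a' * x⁻¹ * a'⁻¹ := by
          have h5 : x * (a * x⁻¹ * a⁻¹) = x * (a' * x⁻¹ * a'⁻¹) := by
            rw [← mul_assoc, ← mul_assoc, ← mul_assoc, ← mul_assoc]
            exact h2
          exact mul_left_cancel h5
        calc a⁻¹ * a' * x = x * a⁻¹ * (a * x⁻¹ * a⁻¹) * a' * x := by group
          _ = x * a⁻¹ * (a' * x⁻¹ * a'⁻¹) * a' * x := by rw [h4]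
          _ = x * (a⁻¹ * a') := by group
      have hmemL : a⁻¹ * a' ∈ L := L.mul_mem (L.inv_mem (hAL haA)) (hAL ha'A)
      have hmemS : a⁻¹ * a' ∈ scalars (Fin n) F := by
        obtain ⟨d, hd⟩ := h.abs.2 (a⁻¹ * a').1 (by
          rintro _ ⟨x, hxL, rfl⟩
          show (a⁻¹ * a').1 * x.1 = x.1 * (a⁻¹ * a').1
          rw [← Units.val_mul, ← Units.val_mul, hcen x hxL])
        have hd0 : d ≠ 0 := by
          intro h0
          rw [h0, zero_smul] at hd
          have h1 : ((a⁻¹ * a') * (a⁻¹ * a')⁻¹ : GL (Fin n) F).1 = 0 := by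
            rw [Units.val_mul, hd, zero_mul]
          rw [mul_inv_cancel, Units.val_one] at h1
          have h2 := congrFun (congrFun h1 ⟨0, hn⟩) ⟨0, hn⟩
          simp at h2
        exact (mem_scalars_iff _).mpr ⟨Units.mk0 d hd0, hd⟩
      calc p = QuotientGroup.mk (Quotient.out p) := (QuotientGroup.out_eq' p).symm
        _ = QuotientGroup.mk (Quotient.out p') := by
          rw [QuotientGroup.eq, Subgroup.mem_subgroupOf]
          show ((Quotient.out p : ↥A) : GL (Fin n) F)⁻¹ * ((Quotient.out p' : ↥A) : GL (Fin n) F)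
            ∈ L ⊓ scalars (Fin n) F
          rw [← hadef, ← ha'def]
          exact ⟨hmemL, hmemS⟩
        _ = p' := QuotientGroup.out_eq' p'
    · intro p x b hb
      rw [map_mul]
      have hb' : (b : GL (Fin n) F) ∈ A := Subgroup.mem_subgroupOf.mp hb
      have h1 : χ (Quotient.out p) b = 1 := by
        rw [hχ]
        have h2 : ⁅(b : GL (Fin n) F), ((Quotient.out p : ↥A) : GL (Fin n) F)⁆ = 1 := by
          rw [commutatorElement_eq_one_iff_mul_comm]
          exact hAc _ hb' _ (Quotient.out p).2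
        rw [h2, hsc1]
      rw [h1, mul_one]
  have hm := le_antisymm hI hII
  have h1 := Subgroup.card_eq_card_quotient_mul_card_subgroup (A.subgroupOf L)
  have h2 := Subgroup.card_eq_card_quotient_mul_card_subgroup
    ((L ⊓ scalars (Fin n) F).subgroupOf A)
  rw [Nat.card_congr (Subgroup.subgroupOfEquivOfLe hAL).toEquiv] at h1
  rw [Nat.card_congr (Subgroup.subgroupOfEquivOfLe hZA).toEquiv, ← hm] at h2
  rw [h1, sq]
  nth_rewrite 3 [h2]
  ring

end Cfsg.Agent.Lib.Helper97.ASSL3
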