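import Cfsg.Agent.Lib.Helper47.QuadDefs
import Cfsg.Agent.Lib.Helper47.SpPrime
import Cfsg.Agent.Lib.Helper47.SpCount

/-!
# S2674/S2675, piece MODELK (helper97 for helper47): the quadratic space of a self-dual
cyclotomic factor.
-/

set_option autoImplicit false
set_option linter.unusedSectionVars false
set_option linter.style.haveILetI false

namespace Cfsg.Agent.Lib.Helper97.QuadMODELK

open Polynomial Module
open Cfsg.Agent.Lib.Helper47

universe u

section Model

variable {F : Type*} [Field F] {K : Type*} [Field K] [Algebra F K] [FiniteDimensional F K]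
  (τ : K ≃ₐ[F] K) (θ : K)

/-- the quadratic form `Tr(θ u τ(u))` -/
noncomputable def mQ (u : K) : F := Algebra.trace F K (θ * u * τ u)

/-- its polar form `Tr(u τ(v))` -/
noncomputable def mB (u v : K) : F := Algebra.trace F K (u * τ v)

lemma mB_symm (hττ : ∀ u, τ (τ u) = u) (u v : K) : mB τ v u = mB τ u v := by
  unfold mB
  rw [← Algebra.trace_eq_of_algEquiv τ (v * τ u), map_mul τ, hττ, mul_comm]

lemma mQ_isQuad (hττ : ∀ u, τ (τ u) = u) (hθ : θ + τ θ = 1) : IsQuad (mQ τ θ) (mB τ) where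
  form :=
    { add_left := fun x y z => by
        unfold mB
        rw [add_mul, map_add]
      smul_left := fun c x y => by
        unfold mB
        rw [smul_mul_assoc, map_smul, smul_eq_mul]
      symm := fun x y => by
        rw [RingHom.id_apply, one_mul]
        exact mB_symm τ hττ x y }
  smul c v := by
    unfold mQ
    have h1 : θ * (c • v) * τ (c • v) = (c ^ 2) • (θ * v * τ v) := by
      rw [map_smul, Algebra.smul_def, Algebra.smul_def, Algebra.smul_def, map_pow]
      ring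
    rw [h1, map_smul, smul_eq_mul]
  polar u v := by
    unfold mQ mB
    have h1 : Algebra.trace F K (θ * v * τ u) = Algebra.trace F K (τ θ * u * τ v) := by
      rw [← Algebra.trace_eq_of_algEquiv τ (θ * v * τ u), map_mul τ, map_mul τ, hττ]
      congr 1
      ring
    have h2 : θ * (u + v) * τ (u + v) =
        θ * u * τ u + θ * v * τ v + θ * u * τ v + θ * v * τ u := by
      rw [map_add]
      ring
    have h3 : u * τ v = θ * u * τ v + τ θ * u * τ v := by
      have : u * τ v = (θ + τ θ) * (u * τ v) := by rw [hθ, one_mul]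
      rw [this]
      ring
    rw [h2, map_add, map_add, map_add, h1, h3, map_add]
    ring

lemma mB_nondeg [Algebra.IsSeparable F K] (hττ : ∀ u, τ (τ u) = u) :
    Nondeg (mB τ (F := F)) := by
  intro x hx
  apply (traceForm_nondegenerate F K).1 x
  intro w
  have h1 := hx (τ w)
  unfold mB at h1
  rw [hττ] at h1
  rw [Algebra.traceForm_apply]
  exact h1

lemma mQ_mul (ζ : K) (hζ : ζ * τ ζ = 1) (v : K) : mQ τ θ (ζ * v) = mQ τ θ v := by
  unfold mQ
  congr 1
  rw [map_mul]
  calc θ * (ζ * v) * (τ ζ * τ v) = (ζ * τ ζ) * (θ * v * τ v) := by ring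
    _ = θ * v * τ v := by rw [hζ, one_mul]

end Model

/-- a free action of a cyclic group of prime order on the non-zero singular vectors -/
lemma card_singular {F : Type*} {K : Type*} [Field K] [Fintype K] (Q : K → F) [Zero F]
    (hQ0 : Q 0 = 0) (ζ : K) (r : ℕ) (hr : r.Prime) (hζr : ζ ^ r = 1) (hζ1 : ζ ≠ 1)
    (hQζ : ∀ v, Q (ζ * v) = Q v) :
    ∃ n : ℕ, Nat.card {v : K // Q v = 0} = r * n + 1 := by
  classical
  have hfact : Fact r.Prime := ⟨hr⟩
  have hζ0 : ζ ≠ 0 := by
    rintro rfl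
    rw [zero_pow hr.ne_zero] at hζr
    exact zero_ne_one hζr
  let f : Function.End {v : K // v ≠ 0 ∧ Q v = 0} :=
    fun v => ⟨ζ * v.1, mul_ne_zero hζ0 v.2.1, by rw [hQζ]; exact v.2.2⟩
  have hfpow : ∀ (n : ℕ) (v : {v : K // v ≠ 0 ∧ Q v = 0}), ((f ^ n) v).1 = ζ ^ n * v.1 := by
    intro n
    induction n with
    | zero => intro v; rw [pow_zero, pow_zero, one_mul]; rfl
    | succ n ih =>
      intro v
      have h1 : (f ^ (n + 1)) v = (f ^ n) (f v) := by rw [pow_succ]; rfl
      rw [h1, ih, pow_succ, mul_assoc]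
  have hf : f ^ r ^ 1 = 1 := by
    funext v
    apply Subtype.ext
    rw [pow_one, hfpow, hζr, one_mul]
    rfl
  have h1 := Equiv.Perm.card_fixedPoints_modEq (f := f) (p := r) (n := 1) hf
  have hemp : IsEmpty (Function.fixedPoints f) := by
    constructor
    rintro ⟨v, hv⟩
    have h2 : ζ * v.1 = v.1 := congrArg Subtype.val hv
    have h3 : (ζ - 1) * v.1 = 0 := by rw [sub_mul, h2, one_mul, sub_self]
    rcases mul_eq_zero.mp h3 with h4 | h4
    · exact hζ1 (sub_eq_zero.mp h4)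
    · exact v.2.1 h4
  rw [Fintype.card_eq_nat_card, Fintype.card_eq_nat_card,
    @Nat.card_of_isEmpty (Function.fixedPoints f) hemp, Nat.modEq_zero_iff_dvd] at h1
  obtain ⟨n, hn⟩ := h1
  refine ⟨n, ?_⟩
  have h5 : (Finset.univ.filter fun v : K => Q v = 0) =
      insert 0 (Finset.univ.filter fun v : K => v ≠ 0 ∧ Q v = 0) := by
    ext v
    simp only [Finset.mem_filter, Finset.mem_univ, true_and, Finset.mem_insert]
    constructor
    · intro h
      by_cases hv : v = 0
      · exact Or.inl hv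
      · exact Or.inr ⟨hv, h⟩
    · rintro (h | h)
      · rw [h]; exact hQ0
      · exact h.2
  have h6 : Nat.card {v : K // Q v = 0} = Nat.card {v : K // v ≠ 0 ∧ Q v = 0} + 1 := by
    rw [Nat.card_eq_fintype_card, Nat.card_eq_fintype_card, Fintype.card_subtype,
      Fintype.card_subtype, h5, Finset.card_insert_of_notMem (by simp)]
  rw [h6, hn]

/-- the model over a field `K ⊇ F` of degree `2m` with an element `ζ` of order `r` -/
theorem model_of_field {F : Type u} [Field F] [Fintype F]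
    (htyp : ∀ (k : ℕ) (V : Type u) [AddCommGroup V] [Module F V] [FiniteDimensional F V]
      (Q : V → F) (B : V → V → F), IsQuad Q B → Nondeg B → finrank F V = 2 * k + 2 →
      IsTyp Q k 1 ∨ IsTyp Q k (-1))
    (r : ℕ) (hr : r.Prime) (hr2 : r ≠ 2)
    (K : Type u) [Field K] [Algebra F K] [FiniteDimensional F K] (ζ : K) (hζr : ζ ^ r = 1)
    (hζ1 : ζ ≠ 1) (m : ℕ) (hm : 0 < m) (hfin : finrank F K = m + m)
    (hqm : ((Fintype.card F : ℕ) : ZMod r) ^ m = -1)
    (hq1 : ((Fintype.card F : ℕ) : ZMod r) ≠ 1) :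
    ∃ (Q : K → F) (B : K → K → F), IsQuad Q B ∧ Nondeg B ∧ (∀ v, Q (ζ * v) = Q v) ∧
      IsTyp Q (m - 1) (-1) := by
  classical
  have hfact : Fact r.Prime := ⟨hr⟩
  have hfact2 : Fact (2 < r) := ⟨lt_of_le_of_ne hr.two_le (Ne.symm hr2)⟩
  haveI : Finite K := Module.finite_of_finite F
  haveI : Fintype K := Fintype.ofFinite K
  have hcardK : Fintype.card K = Fintype.card F ^ (m + m) := by
    rw [← hfin]
    exact Module.card_eq_pow_finrank
  have hζ0 : ζ ≠ 0 := by
    rintro rfl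
    rw [zero_pow hr.ne_zero] at hζr
    exact zero_ne_one hζr
  -- the involution
  obtain ⟨τ, hτ⟩ : ∃ τ : K ≃ₐ[F] K, ∀ x, τ x = x ^ (Fintype.card F ^ m) := by
    refine ⟨(FiniteField.frobeniusAlgEquivOfAlgebraic F K) ^ m, fun x => ?_⟩
    rw [AlgEquiv.coe_pow, FiniteField.coe_frobeniusAlgEquivOfAlgebraic_iterate]
  have hττ : ∀ x, τ (τ x) = x := by
    intro x
    rw [hτ, hτ, ← pow_mul, ← pow_add, ← hcardK, FiniteField.pow_card]
  have hτζ : τ ζ = ζ⁻¹ := by
    rw [hτ]
    apply eq_inv_of_mul_eq_one_left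
    rw [← pow_succ]
    have h1 : ((Fintype.card F ^ m + 1 : ℕ) : ZMod r) = 0 := by
      rw [Nat.cast_add, Nat.cast_pow, hqm, Nat.cast_one, neg_add_cancel]
    obtain ⟨c, hc⟩ := (ZMod.natCast_eq_zero_iff _ _).mp h1
    rw [hc, pow_mul, hζr, one_pow]
  have hζτ : ζ * τ ζ = 1 := by rw [hτζ, mul_inv_cancel₀ hζ0]
  -- θ
  have hsum : ζ + ζ⁻¹ ≠ 0 := by
    intro h
    have h1 : ζ ^ 2 = -1 := by
      have h2 : ζ * (ζ + ζ⁻¹) = 0 := by rw [h, mul_zero]
      rw [mul_add, mul_inv_cancel₀ hζ0] at h2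
      linear_combination h2
    have h3 : ζ ^ 4 = 1 := by
      have : ζ ^ 4 = (ζ ^ 2) ^ 2 := by ring
      rw [this, h1]
      ring
    have hord : orderOf ζ = r := orderOf_eq_prime hζr hζ1
    have h4 : r ∣ 4 := by
      rw [← hord]
      exact orderOf_dvd_of_pow_eq_one h3
    have h5 : r ∣ 2 := by
      have h6 : r ∣ 2 ^ 2 := by norm_num; exact h4
      exact hr.dvd_of_dvd_pow h6
    exact hr2 ((Nat.prime_dvd_prime_iff_eq hr Nat.prime_two).mp h5)
  obtain ⟨θ, hθdef⟩ : ∃ θ : K, θ = ζ * (ζ + ζ⁻¹)⁻¹ := ⟨_, rfl⟩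
  have hθ : θ + τ θ = 1 := by
    rw [hθdef, map_mul, map_inv₀, map_add, map_inv₀, hτζ, inv_inv, add_comm ζ⁻¹ ζ, ← add_mul,
      mul_inv_cancel₀ hsum]
  have hquad := mQ_isQuad τ θ hττ hθ
  have hnd := mB_nondeg (F := F) τ hττ
  have hinv := mQ_mul τ θ ζ hζτ
  refine ⟨mQ τ θ, mB τ, hquad, hnd, hinv, ?_⟩
  have hfin' : finrank F K = 2 * (m - 1) + 2 := by rw [hfin]; omega
  rcases htyp (m - 1) K (mQ τ θ) (mB τ) hquad hnd hfin' with hT | hT
  · exfalso
    obtain ⟨n, hn⟩ := card_singular (mQ τ θ) hquad.map_zero ζ r hr hζr hζ1 hinv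
    have h1 := hT.1
    rw [hn] at h1
    obtain ⟨m', rfl⟩ : ∃ m', m = m' + 1 := ⟨m - 1, by omega⟩
    rw [Nat.add_sub_cancel] at h1
    have h2 : ((r : ℤ)) * (n : ℤ) = ((Fintype.card F : ℤ) ^ (m' + 1) - 1) *
        ((Fintype.card F : ℤ) ^ m' + 1) := by
      push_cast at h1
      linear_combination h1
    have h3 : (((Fintype.card F : ℕ) : ZMod r) ^ (m' + 1) - 1) *
        (((Fintype.card F : ℕ) : ZMod r) ^ m' + 1) = 0 := by
      have h4 := congrArg (fun z : ℤ => (z : ZMod r)) h2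
      push_cast at h4
      have h5 : ((r : ℕ) : ZMod r) = 0 := ZMod.natCast_self r
      rw [h5, zero_mul] at h4
      exact h4.symm
    rcases mul_eq_zero.mp h3 with h4 | h4
    · have h5 : ((Fintype.card F : ℕ) : ZMod r) ^ (m' + 1) = 1 := by
        linear_combination h4
      rw [hqm] at h5
      exact ZMod.neg_one_ne_one h5
    · have h5 : ((Fintype.card F : ℕ) : ZMod r) ^ m' = -1 := by
        linear_combination h4
      apply hq1
      rw [pow_succ, h5] at hqm
      have h6 : (-1 : ZMod r) * ((Fintype.card F : ℕ) : ZMod r) = (-1) * 1 := by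
        rw [hqm, mul_one]
      exact mul_left_cancel₀ (by simp) h6
  · exact hT

theorem exists_selfdual_model {F : Type u} [Field F] [Fintype F]
    (htyp : ∀ (k : ℕ) (V : Type u) [AddCommGroup V] [Module F V] [FiniteDimensional F V]
      (Q : V → F) (B : V → V → F), IsQuad Q B → Nondeg B → finrank F V = 2 * k + 2 →
      IsTyp Q k 1 ∨ IsTyp Q k (-1))
    (p : ℕ) [Fact p.Prime] [CharP F p]
    (r : ℕ) (hr : r.Prime) (hr2 : r ≠ 2) (hrp : r ≠ p) (f : F[X]) (hf : IsCycFactor r f)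
    (hd : dualP (RingHom.id F) f = f) :
    ∃ (M : Type u) (_ : AddCommGroup M) (_ : Module F M) (_ : FiniteDimensional F M)
      (Q : M → F) (B : M → M → F) (x : Module.End F M),
      IsQuad Q B ∧ Nondeg B ∧ (∀ v, Q (x v) = Q v) ∧ x ^ r = 1 ∧ x.charpoly = f ∧
      ∃ j : ℕ, finrank F M = 2 * j + 2 ∧ IsTyp Q j (-1) := by
  classical
  have hfact : Fact r.Prime := ⟨hr⟩
  have hfact2 : Fact (2 < r) := ⟨lt_of_le_of_ne hr.two_le (Ne.symm hr2)⟩
  have hfi : Fact (Irreducible f) := ⟨hf.2.1⟩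
  haveI hfinK : Module.Finite F (AdjoinRoot f) := (AdjoinRoot.powerBasis hf.1.ne_zero).finite
  have hfinrank : finrank F (AdjoinRoot f) = f.natDegree := by
    rw [(AdjoinRoot.powerBasis hf.1.ne_zero).finrank, AdjoinRoot.powerBasis_dim]
  obtain ⟨lam, hlam⟩ : ∃ lam : AdjoinRoot f, lam = AdjoinRoot.root f := ⟨_, rfl⟩
  have hroot : aeval lam f = 0 := by rw [hlam, AdjoinRoot.aeval_eq, AdjoinRoot.mk_self]
  have hlam_r : lam ^ r = 1 := by
    obtain ⟨g, hg⟩ := hf.dvd_X_pow_sub_one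
    have h1 := congrArg (aeval lam) hg
    rw [map_mul, hroot, zero_mul, map_sub, map_pow, aeval_X, map_one, sub_eq_zero] at h1
    exact h1
  have hlam1 : lam ≠ 1 := by
    intro h1
    obtain ⟨g, hg⟩ := hf.2.2
    have h2 := congrArg (aeval lam) hg
    rw [map_mul, hroot, zero_mul, h1, aeval_def, ← eval_map, map_cyclotomic,
      eval_one_cyclotomic_prime] at h2
    have hcharL : CharP (AdjoinRoot f) p :=
      charP_of_injective_algebraMap (algebraMap F (AdjoinRoot f)).injective p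
    exact natCast_ne_zero_of_coprime p ((Nat.coprime_primes hr Fact.out).mpr hrp) h2
  -- the order of `q` modulo `r`
  obtain ⟨k, -, hk⟩ := FiniteField.card F p
  have hu : ((Fintype.card F : ℕ) : ZMod r) ≠ 0 := by
    rw [hk, Nat.cast_pow]
    apply pow_ne_zero
    rw [Ne, ZMod.natCast_eq_zero_iff]
    intro hdvd
    exact hrp ((Nat.prime_dvd_prime_iff_eq hr Fact.out).mp hdvd)
  have hdeg : f.natDegree = orderOf ((Fintype.card F : ℕ) : ZMod r) := hf.natDegree_eq rfl hr hrp
  have heven : Even (orderOf ((Fintype.card F : ℕ) : ZMod r)) :=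
    (dualP_id_eq_self_iff rfl hr hr2 hrp hf).mp hd
  obtain ⟨m, hm⟩ := heven
  have hpos : 0 < orderOf ((Fintype.card F : ℕ) : ZMod r) := by
    rw [orderOf_pos_iff, isOfFinOrder_iff_pow_eq_one]
    exact ⟨r - 1, by have := hr.two_le; omega, ZMod.pow_card_sub_one_eq_one hu⟩
  have hm0 : 0 < m := by omega
  have hqm : ((Fintype.card F : ℕ) : ZMod r) ^ m = -1 := by
    have h1 : ((Fintype.card F : ℕ) : ZMod r) ^ m ≠ 1 :=
      pow_ne_one_of_lt_orderOf (by omega) (by omega)
    have h2 : ((Fintype.card F : ℕ) : ZMod r) ^ m * ((Fintype.card F : ℕ) : ZMod r) ^ m = 1 := by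
      rw [← pow_add, ← hm, pow_orderOf_eq_one]
    exact (mul_self_eq_one_iff.mp h2).resolve_left h1
  have hq1 : ((Fintype.card F : ℕ) : ZMod r) ≠ 1 := by
    intro h
    rw [h, orderOf_one] at hm
    omega
  obtain ⟨Q, B, hquad, hnd, hinv, hT⟩ := model_of_field htyp r hr hr2 (AdjoinRoot f) lam hlam_r
    hlam1 m hm0 (by rw [hfinrank, hdeg, hm]) hqm hq1
  have hxpow : ∀ (n : ℕ) (v : AdjoinRoot f),
      ((LinearMap.mulLeft F lam) ^ n) v = lam ^ n * v := by
    intro n
    induction n with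
    | zero => intro v; rw [pow_zero, pow_zero, one_mul]; rfl
    | succ n ih =>
      intro v
      rw [pow_succ, Module.End.mul_apply, ih, LinearMap.mulLeft_apply, pow_succ, mul_assoc]
  refine ⟨AdjoinRoot f, inferInstance, inferInstance, hfinK, Q, B, LinearMap.mulLeft F lam,
    hquad, hnd, ?_, ?_, ?_, m - 1, ?_, hT⟩
  · intro v
    rw [LinearMap.mulLeft_apply]
    exact hinv v
  · apply LinearMap.ext
    intro v
    rw [hxpow, hlam_r, one_mul]
    rfl
  · rw [hlam]
    exact charpoly_mulLeft_root f hf.1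
  · rw [hfinrank, hdeg, hm]
    omega

end Cfsg.Agent.Lib.Helper97.QuadMODELK
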