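import Mathlib
import Cfsg.Prelude.Def_GeometricClasses
import Cfsg.Agent.Lib.Helper97.Transv
import Cfsg.Agent.Lib.Helper97.TransvM
import Cfsg.Agent.Lib.Helper97.SympMax

/-!
# Overgroups of the orthogonal group in characteristic two

Helper library (helper97): for a quadratic form `Q` in characteristic two with non-degenerate
polar form `f`, a subgroup `M` of `GL` containing all isometries of `Q` (preserving `f`) and some
`f`-isometry that is not a `Q`-isometry contains every transvection `x ↦ x + a f(x, y) y`.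
-/

set_option autoImplicit false

namespace Cfsg.Agent.Lib.Helper97

open Matrix

variable {ι : Type} [Fintype ι] [DecidableEq ι] {F : Type*} [Field F]
variable {f : (ι → F) → (ι → F) → F} {Q : (ι → F) → F}

lemma ext_dot {φ φ' : ι → F} (h : ∀ x : ι → F, φ ⬝ᵥ x = φ' ⬝ᵥ x) : φ = φ' := by
  funext j
  have h1 := h (Pi.single j 1)
  rwa [dotProduct_single_one, dotProduct_single_one] at h1

omit [Fintype ι] in
lemma tv_zero_left (ψ : ι → F) : tv (0 : ι → F) ψ = 1 := by
  rw [tv, Matrix.zero_vecMulVec, add_zero]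

/-- A quadratic form `Q` with polar form `f` over a perfect field of characteristic two,
`f` non-degenerate. -/
structure QData (f : (ι → F) → (ι → F) → F) (Q : (ι → F) → F) : Prop where
  two : (2 : F) = 0
  sq : ∀ a : F, ∃ s : F, s ^ 2 = a
  bil : Cfsg.Geo.IsBilinearForm f
  symm : ∀ u v, f u v = f v u
  alt : ∀ v, f v v = 0
  nd : ∀ v, v ≠ 0 → ∃ x, f x v ≠ 0
  add : ∀ u v, Q (u + v) = Q u + Q v + f u v
  smul : ∀ (c : F) (v : ι → F), Q (c • v) = c ^ 2 * Q v

section qdata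

variable (h : QData f Q)
include h

omit [Fintype ι] [DecidableEq ι] in
lemma Q_add_smul (x y : ι → F) (α : F) : Q (x + α • y) = Q x + α ^ 2 * Q y + α * f x y := by
  rw [h.add, h.smul, h.bil.smul_right]

lemma tau_dot0 (y : ι → F) (a : F) : (a • rho f y) ⬝ᵥ y = 0 := by
  rw [smul_dotProduct, rho_dot h.bil, h.alt, smul_zero]

lemma tau_mulVec (y : ι → F) (a : F) (h0 : (a • rho f y) ⬝ᵥ y = 0) (x : ι → F) :
    ((tvG y (a • rho f y) h0 : GL ι F) : Matrix ι ι F) *ᵥ x = x + (a * f x y) • y := by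
  rw [tvG_val, tv_mulVec, smul_dotProduct, rho_dot h.bil, smul_eq_mul]

lemma tau_pres_f (y : ι → F) (a : F) (h0 : (a • rho f y) ⬝ᵥ y = 0) (x₁ x₂ : ι → F) :
    f (((tvG y (a • rho f y) h0 : GL ι F) : Matrix ι ι F) *ᵥ x₁)
      (((tvG y (a • rho f y) h0 : GL ι F) : Matrix ι ι F) *ᵥ x₂) = f x₁ x₂ := by
  rw [tau_mulVec h, tau_mulVec h, form_expand h.bil, h.alt, h.symm y x₂]
  linear_combination (a * f x₁ y * f x₂ y) * h.two

lemma tau_Q (y : ι → F) (a : F) (h0 : (a • rho f y) ⬝ᵥ y = 0) (x : ι → F) :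
    Q (((tvG y (a • rho f y) h0 : GL ι F) : Matrix ι ι F) *ᵥ x) =
      Q x + a * f x y ^ 2 * (a * Q y + 1) := by
  rw [tau_mulVec h, Q_add_smul h]
  ring

omit [Fintype ι] [DecidableEq ι] in
lemma exists_both' {u x : ι → F} (hu : u ≠ 0) (hx : x ≠ 0) : ∃ z, f z u ≠ 0 ∧ f z x ≠ 0 := by
  obtain ⟨z₁, hz₁⟩ := h.nd u hu
  obtain ⟨z₂, hz₂⟩ := h.nd x hx
  by_cases h1 : f z₁ x = 0
  · by_cases h2 : f z₂ u = 0
    · refine ⟨z₁ + z₂, ?_, ?_⟩
      · rw [h.bil.add_left, h2, add_zero]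
        exact hz₁
      · rw [h.bil.add_left, h1, zero_add]
        exact hz₂
    · exact ⟨z₂, h2, hz₂⟩
  · exact ⟨z₁, hz₁, h1⟩

/-- A subgroup `M` of `GL` containing the isometries of `Q` and an `f`-isometry which is not a
`Q`-isometry contains all transvections `x ↦ x + a f(x, y) y`. -/
theorem orth_overgroup (M : Subgroup (GL ι F))
    (hM : ∀ t : GL ι F, (∀ x, Q ((t : Matrix ι ι F) *ᵥ x) = Q x) →
      (∀ x y, f ((t : Matrix ι ι F) *ᵥ x) ((t : Matrix ι ι F) *ᵥ y) = f x y) → t ∈ M)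
    (g : GL ι F) (hgM : g ∈ M)
    (hgf : ∀ x y, f ((g : Matrix ι ι F) *ᵥ x) ((g : Matrix ι ι F) *ᵥ y) = f x y)
    (hgQ : ¬ ∀ x, Q ((g : Matrix ι ι F) *ᵥ x) = Q x)
    (hsing : ∃ u : ι → F, u ≠ 0 ∧ Q u = 0) :
    ∀ (y : ι → F) (a : F), TM M y (a • rho f y) := by
  have hadd2 : ∀ a : F, a + a = 0 := fun a => by linear_combination a * h.two
  have hvadd : ∀ v : ι → F, v + v = 0 := fun v => by rw [← two_smul F v, h.two, zero_smul]
  have hQ0 : Q 0 = 0 := by
    have h1 := h.smul 0 0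
    simpa using h1
  have horth : ∀ y : ι → F, Q y ≠ 0 → TM M y ((Q y)⁻¹ • rho f y) := by
    intro y hy
    refine TM_of_mem (tau_dot0 h y _)
      (hM _ (fun x => ?_) (fun x₁ x₂ => tau_pres_f h y _ _ x₁ x₂))
    rw [tau_Q h, inv_mul_cancel₀ hy]
    linear_combination ((Q y)⁻¹ * f x y ^ 2) * h.two
  have hconj : ∀ (k : GL ι F), k ∈ M →
      (∀ x y, f ((k : Matrix ι ι F) *ᵥ x) ((k : Matrix ι ι F) *ᵥ y) = f x y) →
      ∀ (y : ι → F) (a : F), TM M y (a • rho f y) →
        TM M ((k : Matrix ι ι F) *ᵥ y) (a • rho f ((k : Matrix ι ι F) *ᵥ y)) := by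
    intro k hkM hk y a hP
    have h1 := TM_conj hP (M.inv_mem hkM)
    rw [inv_inv] at h1
    have h2 : (a • rho f y) ᵥ* ((k⁻¹ : GL ι F) : Matrix ι ι F) =
        a • rho f ((k : Matrix ι ι F) *ᵥ y) := by
      apply ext_dot
      intro x
      rw [← Matrix.dotProduct_mulVec, smul_dotProduct, smul_dotProduct, rho_dot h.bil,
        rho_dot h.bil]
      have h3 := hk (((k⁻¹ : GL ι F) : Matrix ι ι F) *ᵥ x) y
      rw [Matrix.mulVec_mulVec, ← Units.val_mul, mul_inv_cancel, Units.val_one,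
        Matrix.one_mulVec] at h3
      rw [h3]
    rw [h2] at h1
    exact h1
  have hmove : ∀ (z : ι → F) (b : F) (y : ι → F) (a : F), TM M z (b • rho f z) →
      TM M y (a • rho f y) →
      TM M (y + (b * f y z) • z) (a • rho f (y + (b * f y z) • z)) := by
    intro z b y a hz hy
    have h1 := hconj _ hz.mem (tau_pres_f h z b hz.1) y a hy
    rwa [tau_mulVec h] at h1
  have hzero : ∀ y : ι → F, TM M y ((0 : F) • rho f y) := by
    intro y
    refine ⟨tau_dot0 h y 0, fun t ht => ?_⟩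
    have h1 : t = 1 := by
      apply Units.ext
      rw [ht, zero_smul, tv_zero_right]
      rfl
    rw [h1]
    exact M.one_mem
  have hsmul : ∀ (μ : F) (y : ι → F) (a : F), TM M (μ • y) (a • rho f (μ • y)) →
      TM M y ((μ ^ 2 * a) • rho f y) := by
    intro μ y a hP
    refine ⟨tau_dot0 h y _, fun t ht => hP.2 t ?_⟩
    rw [ht]
    simp only [tv, rho_smul h.bil, Matrix.smul_vecMulVec, Matrix.vecMulVec_smul, smul_smul]
    congr 2
    ring
  obtain ⟨u₀, hu₀, hQu₀⟩ := hsing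
  have h1 : ∃ v, Q v = 0 ∧ Q ((g : Matrix ι ι F) *ᵥ v) ≠ 0 := by
    by_contra hcon
    push Not at hcon
    apply hgQ
    have key : ∀ v, f v u₀ ≠ 0 → Q ((g : Matrix ι ι F) *ᵥ v) = Q v := by
      intro v hv
      have e1 : Q (v + (Q v / f v u₀) • u₀) = 0 := by
        rw [Q_add_smul h, hQu₀, mul_zero, add_zero, div_mul_cancel₀ _ hv]
        exact hadd2 _
      have e2 := hcon _ e1
      rw [Matrix.mulVec_add, Matrix.mulVec_smul, Q_add_smul h, hcon u₀ hQu₀, mul_zero, add_zero,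
        hgf, div_mul_cancel₀ _ hv] at e2
      linear_combination e2 - Q v * h.two
    intro v
    by_cases hv : f v u₀ = 0
    · obtain ⟨z, hz⟩ := h.nd u₀ hu₀
      have e1 := key (v + z) (by rw [h.bil.add_left, hv, zero_add]; exact hz)
      rw [Matrix.mulVec_add, h.add, h.add, key z hz, hgf] at e1
      linear_combination e1
    · exact key v hv
  obtain ⟨v₀, hv₀, hgv₀⟩ := h1
  have hv₀ne : v₀ ≠ 0 := by
    rintro rfl
    apply hgv₀
    rw [Matrix.mulVec_zero]
    exact hQ0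
  have hgf_inv : ∀ x y, f (((g⁻¹ : GL ι F) : Matrix ι ι F) *ᵥ x)
      (((g⁻¹ : GL ι F) : Matrix ι ι F) *ᵥ y) = f x y := by
    intro x y
    have h3 := hgf (((g⁻¹ : GL ι F) : Matrix ι ι F) *ᵥ x) (((g⁻¹ : GL ι F) : Matrix ι ι F) *ᵥ y)
    rw [Matrix.mulVec_mulVec, Matrix.mulVec_mulVec, ← Units.val_mul, mul_inv_cancel,
      Units.val_one, Matrix.one_mulVec, Matrix.one_mulVec] at h3
    exact h3.symm
  have hP0 : TM M v₀ ((Q ((g : Matrix ι ι F) *ᵥ v₀))⁻¹ • rho f v₀) := by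
    have e := hconj g⁻¹ (M.inv_mem hgM) hgf_inv _ _ (horth _ hgv₀)
    rw [Matrix.mulVec_mulVec, ← Units.val_mul, inv_mul_cancel, Units.val_one,
      Matrix.one_mulVec] at e
    exact e
  have h2 : ∀ u : ι → F, u ≠ 0 → Q u = 0 → ∀ a₀ : F, a₀ ≠ 0 → TM M u (a₀ • rho f u) →
      ∀ a : F, TM M u (a • rho f u) := by
    intro u hu hQu a₀ ha₀ hP a
    obtain ⟨x, hx⟩ := h.nd u hu
    have hyu : f ((f x u)⁻¹ • x) u = 1 := by rw [h.bil.smul_left, inv_mul_cancel₀ hx]
    obtain ⟨d, hdu, hQd⟩ : ∃ d : ι → F, f d u = 1 ∧ Q d = 0 := by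
      refine ⟨(f x u)⁻¹ • x + Q ((f x u)⁻¹ • x) • u, ?_, ?_⟩
      · rw [h.bil.add_left, h.bil.smul_left (Q ((f x u)⁻¹ • x)), h.alt, mul_zero, add_zero, hyu]
      · rw [Q_add_smul h, hQu, mul_zero, add_zero, hyu, mul_one]
        exact hadd2 _
    have hud : f u d = 1 := by rw [h.symm]; exact hdu
    have hQw : ∀ μ : F, Q (u + μ • d) = μ := by
      intro μ
      rw [Q_add_smul h, hQu, hQd, mul_zero, add_zero, zero_add, hud, mul_one]
    have hμ : ∀ μ : F, μ ≠ 0 → TM M u ((μ ^ 2 * a₀) • rho f u) := by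
      intro μ hμ0
      have hw := horth (u + μ • d) (by rw [hQw]; exact hμ0)
      rw [hQw] at hw
      have e1 := hmove _ _ _ _ hw hP
      have e2 : u + (μ⁻¹ * f u (u + μ • d)) • (u + μ • d) = μ • d := by
        rw [h.bil.add_right, h.bil.smul_right, h.alt, hud, zero_add, mul_one,
          inv_mul_cancel₀ hμ0, one_smul, ← add_assoc, hvadd, zero_add]
      rw [e2] at e1
      have hw1 := horth (u + (1 : F) • d) (by rw [hQw]; exact one_ne_zero)
      rw [hQw, inv_one, one_smul] at hw1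
      have e3 := hmove _ _ _ _ hw1 e1
      have e4 : μ • d + (1 * f (μ • d) (u + d)) • (u + d) = μ • u := by
        rw [h.bil.smul_left, h.bil.add_right, hdu, h.alt, add_zero, mul_one, one_mul, smul_add,
          add_left_comm, hvadd, add_zero]
      rw [e4] at e3
      exact hsmul μ u a₀ e3
    by_cases ha : a = 0
    · subst ha
      exact hzero u
    · obtain ⟨s, hs⟩ := h.sq (a / a₀)
      have hs0 : s ≠ 0 := by
        rintro rfl
        rw [zero_pow two_ne_zero] at hs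
        exact ha ((div_eq_zero_iff.mp hs.symm).resolve_right ha₀)
      have h3 := hμ s hs0
      rw [hs, div_mul_cancel₀ _ ha₀] at h3
      exact h3
  have h3 : ∀ u : ι → F, Q u = 0 → (∀ a : F, TM M u (a • rho f u)) → ∀ y : ι → F, f y u ≠ 0 →
      ∀ a : F, TM M y (a • rho f y) := by
    intro u hQu hPu y hyu a
    by_cases ha : a = 0
    · subst ha
      exact hzero y
    · have hQc : Q (y + ((a⁻¹ - Q y) / f y u) • u) = a⁻¹ := by
        rw [Q_add_smul h, hQu, mul_zero, add_zero, div_mul_cancel₀ _ hyu]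
        ring
      have hP1 := horth (y + ((a⁻¹ - Q y) / f y u) • u) (by rw [hQc]; exact inv_ne_zero ha)
      rw [hQc, inv_inv] at hP1
      have e1 := hmove u (((a⁻¹ - Q y) / f y u) / f y u) (y + ((a⁻¹ - Q y) / f y u) • u) a
        (hPu _) hP1
      have e2 : y + ((a⁻¹ - Q y) / f y u) • u +
          (((a⁻¹ - Q y) / f y u) / f y u * f (y + ((a⁻¹ - Q y) / f y u) • u) u) • u = y := by
        rw [h.bil.add_left, h.bil.smul_left, h.alt, mul_zero, add_zero, div_mul_cancel₀ _ hyu,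
          add_assoc, hvadd, add_zero]
      rw [e2] at e1
      exact e1
  have hu : ∀ a : F, TM M v₀ (a • rho f v₀) := h2 v₀ hv₀ne hv₀ _ (inv_ne_zero hgv₀) hP0
  intro y a
  by_cases hy0 : y = 0
  · subst hy0
    refine ⟨tau_dot0 h 0 a, fun t ht => ?_⟩
    have h4 : t = 1 := by
      apply Units.ext
      rw [ht, tv_zero_left]
      rfl
    rw [h4]
    exact M.one_mem
  by_cases hyu : f y v₀ = 0
  · obtain ⟨z, hz1, hz2⟩ := exists_both' h hv₀ne hy0
    have hQz' : Q (z + (Q z / f z v₀) • v₀) = 0 := by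
      rw [Q_add_smul h, hv₀, mul_zero, add_zero, div_mul_cancel₀ _ hz1]
      exact hadd2 _
    have hz'u : f (z + (Q z / f z v₀) • v₀) v₀ ≠ 0 := by
      rw [h.bil.add_left, h.bil.smul_left, h.alt, mul_zero, add_zero]
      exact hz1
    have hPz' := h3 v₀ hv₀ hu (z + (Q z / f z v₀) • v₀) hz'u
    have hyz' : f y (z + (Q z / f z v₀) • v₀) ≠ 0 := by
      rw [h.bil.add_right, h.bil.smul_right, hyu, mul_zero, add_zero, h.symm]
      exact hz2
    exact h3 (z + (Q z / f z v₀) • v₀) hQz' hPz' y hyz' a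
  · exact h3 v₀ hv₀ hu y hyu a

end qdata

end Cfsg.Agent.Lib.Helper97
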