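import Mathlib
import Cfsg.Prelude.Def_GeometricClasses
import Cfsg.Agent.Lib.Helper97.Transv
import Cfsg.Agent.Lib.Helper97.TransvM
import Cfsg.Agent.Lib.Helper97.SympMax
import Cfsg.Agent.Lib.Helper97.OrthChar2

/-!
# Overgroups in symplectic groups via transvection centres

Helper library (helper97). For a symplectic form `f` (as a function, `Cfsg.Geo.IsSymplecticForm`)
and a subgroup `M` of `GL`, `InS f M v` says that every symplectic transvection
`x ↦ x + a f(x, v) v` lies in `M`. The set of such `v` is closed under scalars, under isometries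
in `M`, and under `v, u ↦ v + u` when `f v u ≠ 0`. The `edge_lemma` shows that two orthogonal
non-degenerate subspaces inside this set, together with one vector of the set having non-zero
components in both, force their sum to lie in the set.
-/

set_option autoImplicit false

namespace Cfsg.Agent.Lib.Helper97

open Matrix

variable {ι : Type} [Fintype ι] [DecidableEq ι] {F : Type*} [Field F]
variable {f : (ι → F) → (ι → F) → F}

/-- `InS f M v`: every symplectic transvection `x ↦ x + a f(x, v) v` lies in `M`. -/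
def InS (f : (ι → F) → (ι → F) → F) (M : Subgroup (GL ι F)) (v : ι → F) : Prop :=
  ∀ a : F, TM M v (a • rho f v)

/-- One-sided non-degeneracy of `f` on a submodule. -/
def NdOn (f : (ι → F) → (ι → F) → F) (A : Submodule F (ι → F)) : Prop :=
  ∀ a ∈ A, a ≠ 0 → ∃ x ∈ A, f x a ≠ 0

omit [Fintype ι] [DecidableEq ι] in
lemma form_neg_right (hb : Cfsg.Geo.IsBilinearForm f) (v u : ι → F) : f v (-u) = - f v u := by
  have h := hb.smul_right (-1) v u
  rwa [neg_one_smul, neg_one_mul] at h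

omit [Fintype ι] [DecidableEq ι] in
lemma form_neg_left (hb : Cfsg.Geo.IsBilinearForm f) (v u : ι → F) : f (-v) u = - f v u := by
  have h := hb.smul_left (-1) v u
  rwa [neg_one_smul, neg_one_mul] at h

omit [Fintype ι] [DecidableEq ι] in
lemma form_sub_left (hb : Cfsg.Geo.IsBilinearForm f) (x y v : ι → F) :
    f (x - y) v = f x v - f y v := by
  rw [sub_eq_add_neg, hb.add_left, form_neg_left hb, sub_eq_add_neg]

section symp

variable (hf : Cfsg.Geo.IsSymplecticForm f)
include hf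

lemma stv_mulVec (v : ι → F) (a : F) (x : ι → F) :
    ((tvG v (a • rho f v) (symp_dot0 hf v a) : GL ι F) : Matrix ι ι F) *ᵥ x =
      x + (a * f x v) • v := by
  rw [tvG_val, tv_mulVec, smul_dotProduct, rho_dot hf.bilinear, smul_eq_mul]

lemma stv_pres (v : ι → F) (a : F) (x y : ι → F) :
    f (((tvG v (a • rho f v) (symp_dot0 hf v a) : GL ι F) : Matrix ι ι F) *ᵥ x)
      (((tvG v (a • rho f v) (symp_dot0 hf v a) : GL ι F) : Matrix ι ι F) *ᵥ y) = f x y := by
  rw [stv_mulVec hf, stv_mulVec hf, form_expand hf.bilinear, hf.alternating v, hf.skew v y]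
  ring

lemma InS_of_mem {M : Subgroup (GL ι F)} {v : ι → F}
    (h : ∀ a : F, tvG v (a • rho f v) (symp_dot0 hf v a) ∈ M) : InS f M v :=
  fun a => TM_of_mem (symp_dot0 hf v a) (h a)

lemma InS_zero (M : Subgroup (GL ι F)) : InS f M 0 := by
  intro a
  refine ⟨symp_dot0 hf 0 a, fun t ht => ?_⟩
  have h1 : t = 1 := by
    apply Units.ext
    rw [ht, tv_zero_left]
    rfl
  rw [h1]
  exact M.one_mem

lemma InS_conj {M : Subgroup (GL ι F)} {k : GL ι F} (hkM : k ∈ M)
    (hk : ∀ x y, f ((k : Matrix ι ι F) *ᵥ x) ((k : Matrix ι ι F) *ᵥ y) = f x y)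
    {v : ι → F} (hv : InS f M v) : InS f M ((k : Matrix ι ι F) *ᵥ v) := by
  intro a
  have h1 := TM_conj (hv a) (M.inv_mem hkM)
  rw [inv_inv] at h1
  have h2 : (a • rho f v) ᵥ* ((k⁻¹ : GL ι F) : Matrix ι ι F) =
      a • rho f ((k : Matrix ι ι F) *ᵥ v) := by
    apply ext_dot
    intro x
    rw [← Matrix.dotProduct_mulVec, smul_dotProduct, smul_dotProduct, rho_dot hf.bilinear,
      rho_dot hf.bilinear]
    have h3 := hk (((k⁻¹ : GL ι F) : Matrix ι ι F) *ᵥ x) v
    rw [Matrix.mulVec_mulVec, ← Units.val_mul, mul_inv_cancel, Units.val_one,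
      Matrix.one_mulVec] at h3
    rw [h3]
  rw [h2] at h1
  exact h1

lemma InS_move {M : Subgroup (GL ι F)} {u v : ι → F} (hu : InS f M u) (hv : InS f M v) (c : F) :
    InS f M (v + (c * f v u) • u) := by
  have h1 := InS_conj hf (hu c).mem (stv_pres hf u c) hv
  rwa [stv_mulVec hf] at h1

/-- Closure under hyperbolic lines. -/
lemma InS_add {M : Subgroup (GL ι F)} {u v : ι → F} (hu : InS f M u) (hv : InS f M v)
    (h : f v u ≠ 0) : InS f M (v + u) := by
  have h1 := InS_move hf hu hv (f v u)⁻¹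
  rwa [inv_mul_cancel₀ h, one_smul] at h1

lemma InS_smul {M : Subgroup (GL ι F)} {v : ι → F} (hv : InS f M v) (c : F) :
    InS f M (c • v) := by
  intro a
  refine ⟨symp_dot0 hf _ a, fun t ht => (hv (a * c ^ 2)).2 t ?_⟩
  rw [ht]
  simp only [tv, rho_smul hf.bilinear, Matrix.smul_vecMulVec, Matrix.vecMulVec_smul, smul_smul]
  congr 2
  ring

lemma InS_neg {M : Subgroup (GL ι F)} {v : ι → F} (hv : InS f M v) : InS f M (-v) := by
  have h := InS_smul hf hv (-1)
  rwa [neg_one_smul] at h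

lemma InS_sub {M : Subgroup (GL ι F)} {u v : ι → F} (hu : InS f M u) (hv : InS f M v)
    (h : f v u ≠ 0) : InS f M (v - u) := by
  rw [sub_eq_add_neg]
  refine InS_add hf (InS_neg hf hu) hv ?_
  rw [form_neg_right hf.bilinear]
  exact neg_ne_zero.mpr h

/-- If `a + c`, `b - c`, `a`, `b` are centres and `f (a + b) c ≠ 0`, then `a + b` is a centre. -/
lemma InS_decomp {M : Subgroup (GL ι F)} {a b c : ι → F} (ha : InS f M a) (hb : InS f M b)
    (hac : InS f M (a + c)) (hbc : InS f M (b - c)) (h : f (a + b) c ≠ 0) :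
    InS f M (a + b) := by
  by_cases h0 : f a b = 0
  · have e : f (a + c) (b - c) = - f (a + b) c := by
      rw [form_sub_right hf.bilinear, hf.bilinear.add_left, hf.bilinear.add_left,
        hf.bilinear.add_left, h0, hf.alternating, hf.skew c b]
      ring
    have h1 := InS_add hf hbc hac (by rw [e]; exact neg_ne_zero.mpr h)
    have e2 : a + c + (b - c) = a + b := by abel
    rwa [e2] at h1
  · exact InS_add hf hb ha h0

omit [Fintype ι] [DecidableEq ι] in
lemma exists_both_on {A : Submodule F (ι → F)} (hA : NdOn f A) {u x : ι → F}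
    (hu : u ∈ A) (hx : x ∈ A) (hu0 : u ≠ 0) (hx0 : x ≠ 0) :
    ∃ z ∈ A, f z u ≠ 0 ∧ f z x ≠ 0 := by
  obtain ⟨z₁, hz₁A, hz₁⟩ := hA u hu hu0
  obtain ⟨z₂, hz₂A, hz₂⟩ := hA x hx hx0
  by_cases h1 : f z₁ x = 0
  · by_cases h2 : f z₂ u = 0
    · refine ⟨z₁ + z₂, A.add_mem hz₁A hz₂A, ?_, ?_⟩
      · rw [hf.bilinear.add_left, h2, add_zero]
        exact hz₁
      · rw [hf.bilinear.add_left, h1, zero_add]
        exact hz₂
    · exact ⟨z₂, hz₂A, h2, hz₂⟩
  · exact ⟨z₁, hz₁A, hz₁, h1⟩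

omit [Fintype ι] [DecidableEq ι] in
lemma bil_nondegenerate : (bil hf.bilinear).Nondegenerate := by
  constructor
  · intro x hx
    by_contra hx0
    obtain ⟨y, hy⟩ := (hf.nondegenerate x hx0).2
    exact hy (hx y)
  · intro y hy
    by_contra hy0
    obtain ⟨x, hx⟩ := (hf.nondegenerate y hy0).1
    exact hx (hy x)

omit [Fintype ι] [DecidableEq ι] in
lemma bil_isRefl : LinearMap.BilinForm.IsRefl (bil hf.bilinear) := by
  intro x y h
  have h1 : f x y = 0 := h
  show f y x = 0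
  rw [hf.skew, h1, neg_zero]

/-- The orthogonal complement `{x | ∀ w ∈ W, f w x = 0}`. -/
def perp (W : Submodule F (ι → F)) : Submodule F (ι → F) :=
  LinearMap.BilinForm.orthogonal (bil hf.bilinear) W

omit [Fintype ι] [DecidableEq ι] in
lemma mem_perp {W : Submodule F (ι → F)} {x : ι → F} :
    x ∈ perp hf W ↔ ∀ w ∈ W, f w x = 0 := Iff.rfl

omit [Fintype ι] [DecidableEq ι] in
lemma mem_perp' {W : Submodule F (ι → F)} {x : ι → F} :
    x ∈ perp hf W ↔ ∀ w ∈ W, f x w = 0 := by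
  rw [mem_perp]
  constructor
  · intro h w hw
    rw [hf.skew, h w hw, neg_zero]
  · intro h w hw
    rw [hf.skew, h w hw, neg_zero]

omit [DecidableEq ι] in
lemma perp_isCompl {W : Submodule F (ι → F)} (ndW : NdOn f W) : IsCompl W (perp hf W) := by
  rw [perp, LinearMap.BilinForm.isCompl_orthogonal_iff_disjoint (bil_isRefl hf)]
  rw [Submodule.disjoint_def]
  intro x hxW hx
  by_contra hx0
  obtain ⟨y, hyW, hy⟩ := ndW x hxW hx0
  exact hy (hx y hyW)

omit [DecidableEq ι] in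
lemma exists_decomp {W : Submodule F (ι → F)} (ndW : NdOn f W) (x : ι → F) :
    ∃ a ∈ W, ∃ b ∈ perp hf W, x = a + b := by
  have h : x ∈ W ⊔ perp hf W := by
    rw [(perp_isCompl hf ndW).sup_eq_top]
    exact Submodule.mem_top
  obtain ⟨a, ha, b, hb, hab⟩ := Submodule.mem_sup.mp h
  exact ⟨a, ha, b, hb, hab.symm⟩

omit [DecidableEq ι] in
lemma NdOn_perp {W : Submodule F (ι → F)} (ndW : NdOn f W) : NdOn f (perp hf W) := by
  intro b hb hb0
  obtain ⟨y, hy⟩ := (hf.nondegenerate b hb0).1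
  obtain ⟨w, hw, y', hy', rfl⟩ := exists_decomp hf ndW y
  refine ⟨y', hy', ?_⟩
  rw [hf.bilinear.add_left, (mem_perp hf).mp hb w hw, zero_add] at hy
  exact hy

omit [DecidableEq ι] in
lemma finrank_perp (W : Submodule F (ι → F)) :
    Module.finrank F (perp hf W) = Fintype.card ι - Module.finrank F W := by
  rw [perp, LinearMap.BilinForm.finrank_orthogonal (bil_nondegenerate hf),
    Module.finrank_fintype_fun_eq_card]

omit [Fintype ι] [DecidableEq ι] in
/-- A non-degenerate subspace of dimension at least three has room. -/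
lemma room_of_finrank {B : Submodule F (ι → F)} (ndB : NdOn f B)
    (h3 : 3 ≤ Module.finrank F B) :
    ∀ x ∈ B, x ≠ 0 → ∃ z ∈ B, z ≠ 0 ∧ z ≠ x ∧ f z x = 0 := by
  classical
  intro x hx hx0
  obtain ⟨y, hy, hyx⟩ := ndB x hx hx0
  have hex : ∃ u ∈ B, u ∉ Submodule.span F ({x, y} : Set (ι → F)) := by
    by_contra hcon
    push Not at hcon
    have hle : B ≤ Submodule.span F ({x, y} : Set (ι → F)) := hcon
    have hfin : Module.Finite F (Submodule.span F ({x, y} : Set (ι → F))) :=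
      Module.Finite.span_of_finite F (Set.toFinite _)
    have h1 := Submodule.finrank_mono hle
    have h2 : Module.finrank F (Submodule.span F ({x, y} : Set (ι → F))) ≤ 2 := by
      have h4 := finrank_span_finset_le_card (R := F) ({x, y} : Finset (ι → F))
      rw [Finset.coe_pair] at h4
      exact h4.trans Finset.card_le_two
    omega
  obtain ⟨u, hu, hun⟩ := hex
  refine ⟨u - (f u x / f y x) • y, B.sub_mem hu (B.smul_mem _ hy), ?_, ?_, ?_⟩
  · intro h0
    apply hun
    have e : u = (f u x / f y x) • y := sub_eq_zero.mp h0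
    rw [e]
    exact Submodule.smul_mem _ _ (Submodule.subset_span (by simp))
  · intro h0
    apply hun
    have e : u = x + (f u x / f y x) • y := sub_eq_iff_eq_add.mp h0
    rw [e]
    exact Submodule.add_mem _ (Submodule.subset_span (by simp))
      (Submodule.smul_mem _ _ (Submodule.subset_span (by simp)))
  · rw [form_sub_smul_left hf.bilinear, div_mul_cancel₀ _ hyx, sub_self]

/-- The edge lemma. -/
theorem edge_lemma {M : Subgroup (GL ι F)} {A B : Submodule F (ι → F)}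
    (hAB : ∀ a ∈ A, ∀ b ∈ B, f a b = 0) (ndA : NdOn f A) (ndB : NdOn f B)
    (hA : ∀ a ∈ A, InS f M a) (hB : ∀ b ∈ B, InS f M b)
    (room : ∀ x ∈ B, x ≠ 0 → ∃ z ∈ B, z ≠ 0 ∧ z ≠ x ∧ f z x = 0)
    {wa wb r : ι → F} (hwa : wa ∈ A) (hwa0 : wa ≠ 0) (hwb : wb ∈ B) (hwb0 : wb ≠ 0)
    (hrA : ∀ a ∈ A, f r a = 0) (hrB : ∀ b ∈ B, f r b = 0) (hw : InS f M (wa + wb + r)) :
    ∀ x₁ ∈ A, ∀ x₂ ∈ B, InS f M (x₁ + x₂) := by
  have hb := hf.bilinear
  have hBA : ∀ b ∈ B, ∀ a ∈ A, f b a = 0 := by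
    intro b hb' a ha
    rw [hf.skew, hAB a ha b hb', neg_zero]
  have hAr : ∀ a ∈ A, f a r = 0 := by
    intro a ha
    rw [hf.skew, hrA a ha, neg_zero]
  have hBr : ∀ b ∈ B, f b r = 0 := by
    intro b hb'
    rw [hf.skew, hrB b hb', neg_zero]
  have key : ∀ a ∈ A, ∀ b ∈ B, ∀ a' ∈ A, ∀ b' ∈ B,
      f (a + b + r) (a' + b' + r) = f a a' + f b b' := by
    intro a ha b hb' a' ha' b' hb''
    simp only [hb.add_left, hb.add_right]
    rw [hAB a ha b' hb'', hAr a ha, hBA b hb' a' ha', hBr b hb', hrA a' ha', hrB b' hb'',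
      hf.alternating r]
    ring
  have key1 : ∀ a ∈ A, ∀ b ∈ B, ∀ y ∈ A, f (a + b + r) y = f a y := by
    intro a ha b hb' y hy
    rw [hb.add_left, hb.add_left, hBA b hb' y hy, hrA y hy, add_zero, add_zero]
  have key2 : ∀ a ∈ A, ∀ b ∈ B, ∀ y ∈ B, f (a + b + r) y = f b y := by
    intro a ha b hb' y hy
    rw [hb.add_left, hb.add_left, hAB a ha y hy, hrB y hy, add_zero, zero_add]
  have mvA : ∀ s ∈ A, ∀ z' ∈ A, ∀ b ∈ B, InS f M (s + b + r) → f s z' ≠ 0 →
      InS f M (z' + b + r) := by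
    intro s hs z' hz' b hb' hP hne
    have h1 := InS_add hf (hA (z' - s) (A.sub_mem hz' hs)) hP (by
      rw [key1 s hs b hb' _ (A.sub_mem hz' hs), form_sub_right hb, hf.alternating, sub_zero]
      exact hne)
    have e : s + b + r + (z' - s) = z' + b + r := by abel
    rwa [e] at h1
  have mvB : ∀ s ∈ B, ∀ z' ∈ B, ∀ a ∈ A, InS f M (a + s + r) → f s z' ≠ 0 →
      InS f M (a + z' + r) := by
    intro s hs z' hz' a ha hP hne
    have h1 := InS_add hf (hB (z' - s) (B.sub_mem hz' hs)) hP (by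
      rw [key2 a ha s hs _ (B.sub_mem hz' hs), form_sub_right hb, hf.alternating, sub_zero]
      exact hne)
    have e : a + s + r + (z' - s) = a + z' + r := by abel
    rwa [e] at h1
  have step1 : ∀ z ∈ A, z ≠ 0 → InS f M (z + wb + r) := by
    intro z hz hz0
    obtain ⟨z', hz', h1, h2⟩ := exists_both_on hf ndA hwa hz hwa0 hz0
    have h3 : f wa z' ≠ 0 := by
      rw [hf.skew]
      exact neg_ne_zero.mpr h1
    exact mvA z' hz' z hz wb hwb (mvA wa hwa z' hz' wb hwb hw h3) h2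
  have step2 : ∀ z ∈ A, z ≠ 0 → ∀ z₂ ∈ B, z₂ ≠ 0 → InS f M (z + z₂ + r) := by
    intro z hz hz0 z₂ hz₂ hz₂0
    obtain ⟨z', hz', h1, h2⟩ := exists_both_on hf ndB hwb hz₂ hwb0 hz₂0
    have h3 : f wb z' ≠ 0 := by
      rw [hf.skew]
      exact neg_ne_zero.mpr h1
    exact mvB z' hz' z₂ hz₂ z hz (mvB wb hwb z' hz' z hz (step1 z hz hz0) h3) h2
  intro x₁ hx₁ x₂ hx₂
  by_cases hx₁0 : x₁ = 0
  · rw [hx₁0, zero_add]
    exact hB x₂ hx₂
  by_cases hx₂0 : x₂ = 0
  · rw [hx₂0, add_zero]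
    exact hA x₁ hx₁
  obtain ⟨z, hz, hzx⟩ := ndA x₁ hx₁ hx₁0
  obtain ⟨z₂, hz₂, hz₂0, hz₂x, hz₂f⟩ := room x₂ hx₂ hx₂0
  have hz0 : z ≠ 0 := by
    rintro rfl
    exact hzx (form_zero_left hb _)
  have hzx0 : z - x₁ ≠ 0 := by
    intro h0
    have e : z = x₁ := sub_eq_zero.mp h0
    rw [e, hf.alternating] at hzx
    exact hzx rfl
  have hz₂x0 : z₂ - x₂ ≠ 0 := fun h0 => hz₂x (sub_eq_zero.mp h0)
  have hp := step2 z hz hz0 z₂ hz₂ hz₂0
  have hq := step2 (z - x₁) (A.sub_mem hz hx₁) hzx0 (z₂ - x₂) (B.sub_mem hz₂ hx₂) hz₂x0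
  have e : f (z + z₂ + r) (z - x₁ + (z₂ - x₂) + r) = - f z x₁ := by
    rw [key z hz z₂ hz₂ _ (A.sub_mem hz hx₁) _ (B.sub_mem hz₂ hx₂), form_sub_right hb,
      form_sub_right hb, hf.alternating, hf.alternating, hz₂f]
    ring
  have h1 := InS_sub hf hq hp (by rw [e]; exact neg_ne_zero.mpr hzx)
  have e2 : z + z₂ + r - (z - x₁ + (z₂ - x₂) + r) = x₁ + x₂ := by abel
  rwa [e2] at h1

end symp

end Cfsg.Agent.Lib.Helper97
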