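import Mathlib
import Cfsg.Agent.Lib.Helper15.FH0

/-!
# Feit–Higman (S1142), piece R3: the braid relation for the 2 × 2 matrices (helper97)
-/

set_option autoImplicit false

namespace Cfsg.Agent.Lib.Helper97.FHR3

open Cfsg Cfsg.Agent.Lib.Helper8 Cfsg.Agent.Lib.Helper15.FH

/-- Cayley–Hamilton for 2 × 2 matrices -/
theorem cayley_two (Z : Matrix (Fin 2) (Fin 2) ℝ) :
    Z * Z = Z.trace • Z - Z.det • (1 : Matrix (Fin 2) (Fin 2) ℝ) := by
  ext i j
  fin_cases i <;> fin_cases j <;>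
    simp [Matrix.mul_apply, Fin.sum_univ_two, Matrix.trace, Matrix.det_fin_two] <;> ring

/-- Chebyshev recursion for the powers of a 2 × 2 matrix -/
theorem cheb_pow (Z : Matrix (Fin 2) (Fin 2) ℝ) (r θ : ℝ)
    (hZ : Z * Z = (2 * r * Real.cos θ) • Z - (r ^ 2) • (1 : Matrix (Fin 2) (Fin 2) ℝ)) (k : ℕ) :
    (Real.sin θ * r) • Z ^ k =
      r ^ k • (Real.sin (k * θ) • Z -
        (r * Real.sin ((k - 1 : ℝ) * θ)) • (1 : Matrix (Fin 2) (Fin 2) ℝ)) := by
  induction k with
  | zero =>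
    have h1 : Real.sin (((0 : ℕ) : ℝ) * θ) = 0 := by simp
    have h2 : Real.sin ((((0 : ℕ) : ℝ) - 1) * θ) = - Real.sin θ := by
      rw [Nat.cast_zero, zero_sub, neg_one_mul, Real.sin_neg]
    rw [h1, h2, pow_zero, pow_zero, one_smul, zero_smul, zero_sub, ← neg_smul]
    congr 1
    ring
  | succ k ih =>
    have hs : Real.sin (((k + 1 : ℕ) : ℝ) * θ)
        = 2 * Real.cos θ * Real.sin (k * θ) - Real.sin ((k - 1 : ℝ) * θ) := by
      have e1 : ((k + 1 : ℕ) : ℝ) * θ = k * θ + θ := by push_cast; ring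
      have e2 : ((k : ℝ) - 1) * θ = k * θ - θ := by ring
      rw [e1, e2, Real.sin_add, Real.sin_sub]
      ring
    have hs' : (((k + 1 : ℕ) : ℝ) - 1) * θ = k * θ := by push_cast; ring
    rw [pow_succ, ← smul_mul_assoc, ih, smul_mul_assoc, sub_mul, smul_mul_assoc, smul_mul_assoc,
      one_mul, hZ, hs, hs', pow_succ]
    module

theorem matAB_sq (u v θ : ℝ) (hu : 0 < u) (hv : 0 < v) :
    (matA u * matB u v θ) * (matA u * matB u v θ)
      = (2 * Real.sqrt (u * v) * Real.cos θ) • (matA u * matB u v θ)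
        - (Real.sqrt (u * v) ^ 2) • (1 : Matrix (Fin 2) (Fin 2) ℝ) := by
  have hr : Real.sqrt (u * v) ^ 2 = u * v := Real.sq_sqrt (mul_pos hu hv).le
  have hu1 : u + 1 ≠ 0 := by positivity
  rw [cayley_two]
  have htr : (matA u * matB u v θ).trace = 2 * Real.sqrt (u * v) * Real.cos θ := by
    rw [matA_def, matB_def, fhA_def]
    simp [Matrix.trace, Fin.sum_univ_two]
    field_simp
    ring
  have hdet : (matA u * matB u v θ).det = Real.sqrt (u * v) ^ 2 := by
    rw [Matrix.det_mul, matA_def, matB_def, Matrix.det_fin_two, Matrix.det_fin_two, hr]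
    simp
  rw [htr, hdet]

theorem matBA_sq (u v θ : ℝ) (hu : 0 < u) (hv : 0 < v) :
    (matB u v θ * matA u) * (matB u v θ * matA u)
      = (2 * Real.sqrt (u * v) * Real.cos θ) • (matB u v θ * matA u)
        - (Real.sqrt (u * v) ^ 2) • (1 : Matrix (Fin 2) (Fin 2) ℝ) := by
  have hr : Real.sqrt (u * v) ^ 2 = u * v := Real.sq_sqrt (mul_pos hu hv).le
  have hu1 : u + 1 ≠ 0 := by positivity
  rw [cayley_two]
  have htr : (matB u v θ * matA u).trace = 2 * Real.sqrt (u * v) * Real.cos θ := by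
    rw [matA_def, matB_def, fhA_def]
    simp [Matrix.trace, Fin.sum_univ_two]
    field_simp
    ring
  have hdet : (matB u v θ * matA u).det = Real.sqrt (u * v) ^ 2 := by
    rw [Matrix.det_mul, matA_def, matB_def, Matrix.det_fin_two, Matrix.det_fin_two, hr]
    simp
    ring
  rw [htr, hdet]

/-- the key 2 × 2 identity `A B A - B A B = ((u+1) a + 1) (A - B)` when `u = v` -/
theorem aba_sub_bab (u a : ℝ) :
    (!![u, 0; 0, -1] : Matrix (Fin 2) (Fin 2) ℝ) * !![a, 1; a * (u - 1 - a) + u, u - 1 - a]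
        * !![u, 0; 0, -1]
      - !![a, 1; a * (u - 1 - a) + u, u - 1 - a] * !![u, 0; 0, -1]
        * !![a, 1; a * (u - 1 - a) + u, u - 1 - a]
      = ((u + 1) * a + 1) • ((!![u, 0; 0, -1] : Matrix (Fin 2) (Fin 2) ℝ)
        - !![a, 1; a * (u - 1 - a) + u, u - 1 - a]) := by
  ext i j
  fin_cases i <;> fin_cases j <;> simp <;> ring

theorem mat_braid (m j : ℕ) (u v : ℝ) (hu : 0 < u) (hv : 0 < v) (hj : 0 < j) (hjm : 2 * j < m)
    (hodd : Odd m → u = v) :
    altP (matA u) (matB u v (fhθ m j)) m = altP (matB u v (fhθ m j)) (matA u) m := by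
  have hm0 : (0 : ℝ) < m := by
    have : 0 < m := by omega
    exact_mod_cast this
  have hj' : (0 : ℝ) < j := by exact_mod_cast hj
  have hjm' : (2 : ℝ) * j < m := by exact_mod_cast hjm
  have hsin : 0 < Real.sin (fhθ m j) := by
    apply Real.sin_pos_of_pos_of_lt_pi
    · rw [fhθ_def]
      have := Real.pi_pos
      positivity
    · rw [fhθ_def, div_lt_iff₀ hm0]
      have := Real.pi_pos
      nlinarith
  have hr : 0 < Real.sqrt (u * v) := Real.sqrt_pos.2 (mul_pos hu hv)
  have hne : Real.sin (fhθ m j) * Real.sqrt (u * v) ≠ 0 := (mul_pos hsin hr).ne'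
  have hX := cheb_pow (matA u * matB u v (fhθ m j)) (Real.sqrt (u * v)) (fhθ m j)
    (matAB_sq u v _ hu hv)
  have hY := cheb_pow (matB u v (fhθ m j) * matA u) (Real.sqrt (u * v)) (fhθ m j)
    (matBA_sq u v _ hu hv)
  apply smul_right_injective _ hne
  show (Real.sin (fhθ m j) * Real.sqrt (u * v)) • altP (matA u) (matB u v (fhθ m j)) m
    = (Real.sin (fhθ m j) * Real.sqrt (u * v)) • altP (matB u v (fhθ m j)) (matA u) m
  rcases Nat.even_or_odd' m with ⟨n, rfl | rfl⟩
  · -- even case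
    rw [altP_two_mul, altP_two_mul, hX n, hY n]
    have hn0 : (n : ℝ) ≠ 0 := by
      have : n ≠ 0 := by omega
      exact_mod_cast this
    have hs0 : Real.sin ((n : ℝ) * fhθ (2 * n) j) = 0 := by
      have e : (n : ℝ) * fhθ (2 * n) j = j * Real.pi := by
        rw [fhθ_def]
        push_cast
        field_simp
      rw [e, Real.sin_nat_mul_pi]
    rw [hs0, zero_smul, zero_smul]
  · -- odd case
    have huv : u = v := hodd ⟨n, rfl⟩
    subst huv
    have hru : Real.sqrt (u * u) = u := Real.sqrt_mul_self hu.le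
    rw [hru] at hX hY ⊢
    rw [altP_two_mul_add_one, altP_two_mul_add_one, ← smul_mul_assoc, ← smul_mul_assoc, hX n,
      hY n]
    obtain ⟨θ, hθ⟩ : ∃ θ, θ = fhθ (2 * n + 1) j := ⟨_, rfl⟩
    rw [← hθ]
    obtain ⟨a, ha⟩ : ∃ a, a = fhA u u θ := ⟨_, rfl⟩
    have hu1 : u + 1 ≠ 0 := by positivity
    have ha' : (u + 1) * a = u - 1 + 2 * u * Real.cos θ := by
      rw [ha, fhA_def, hru]
      field_simp
    have hA : matA u = !![u, 0; 0, -1] := matA_def u
    have hB : matB u u θ = !![a, 1; a * (u - 1 - a) + u, u - 1 - a] := by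
      rw [matB_def, ← ha]
    have hkey := aba_sub_bab u a
    rw [← hA, ← hB] at hkey
    have hsum : Real.sin ((n : ℝ) * θ) * ((u + 1) * a + 1)
        - u * Real.sin (((n : ℝ) - 1) * θ) = 0 := by
      have e1 : ((n : ℝ) - 1) * θ = n * θ - θ := by ring
      have e2 : Real.sin ((n : ℝ) * θ + θ) = - Real.sin ((n : ℝ) * θ) := by
        have e3 : (n : ℝ) * θ + θ = j * (2 * Real.pi) - n * θ := by
          rw [hθ, fhθ_def]
          push_cast
          field_simp
          ring
        rw [e3, Real.sin_nat_mul_two_pi_sub]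
      rw [Real.sin_add] at e2
      rw [e1, Real.sin_sub, ha']
      linear_combination u * e2
    -- the difference of the two sides vanishes
    rw [← sub_eq_zero]
    have hexp : u ^ n • (Real.sin ((n : ℝ) * θ) • (matA u * matB u u θ)
          - (u * Real.sin (((n : ℝ) - 1) * θ)) • (1 : Matrix (Fin 2) (Fin 2) ℝ)) * matA u
        - u ^ n • (Real.sin ((n : ℝ) * θ) • (matB u u θ * matA u)
          - (u * Real.sin (((n : ℝ) - 1) * θ)) • (1 : Matrix (Fin 2) (Fin 2) ℝ)) * matB u u θ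
        = (u ^ n * (Real.sin ((n : ℝ) * θ) * ((u + 1) * a + 1)
            - u * Real.sin (((n : ℝ) - 1) * θ))) • (matA u - matB u u θ) := by
      have h1 : u ^ n • (Real.sin ((n : ℝ) * θ) • (matA u * matB u u θ)
          - (u * Real.sin (((n : ℝ) - 1) * θ)) • (1 : Matrix (Fin 2) (Fin 2) ℝ)) * matA u
        - u ^ n • (Real.sin ((n : ℝ) * θ) • (matB u u θ * matA u)
          - (u * Real.sin (((n : ℝ) - 1) * θ)) • (1 : Matrix (Fin 2) (Fin 2) ℝ)) * matB u u θ
        = (u ^ n * Real.sin ((n : ℝ) * θ)) • (matA u * matB u u θ * matA u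
            - matB u u θ * matA u * matB u u θ)
          - (u ^ n * (u * Real.sin (((n : ℝ) - 1) * θ))) • (matA u - matB u u θ) := by
        simp only [smul_mul_assoc, sub_mul, one_mul, smul_sub, smul_smul]
        abel
      rw [h1, hkey, smul_smul, ← sub_smul]
      congr 1
      ring
    rw [hexp, hsum, mul_zero, zero_smul]

end Cfsg.Agent.Lib.Helper97.FHR3
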