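import Mathlib

/-!
# Piece HB-QIRR for S0633 (Hall-Higman Theorem B), helper97

A group `Q` acting with scalar commutators and scalar "centre" on `V`; if `V` is irreducible under
`Q` together with a normalising element `x`, then `V` is irreducible under `Q` alone.
-/

set_option autoImplicit false

namespace Cfsg.Agent.Lib.Helper97.HBQirr

open Module

section aux

variable {K : Type*} [Field K] {G : Type*} [Group G]
  {V : Type*} [AddCommGroup V] [Module K V]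

theorem rho_mul_inv (ρ : G →* Module.End K V) (g : G) : ρ g * ρ g⁻¹ = 1 := by
  rw [← map_mul, mul_inv_cancel, map_one]

theorem rho_inv_mul (ρ : G →* Module.End K V) (g : G) : ρ g⁻¹ * ρ g = 1 := by
  rw [← map_mul, inv_mul_cancel, map_one]

/-- a non-central element has vanishing class average -/
theorem avg_eq_zero (ρ : G →* Module.End K V) (Q : Subgroup G) [Fintype Q]
    (hsc : ∀ g ∈ Q, ∀ h ∈ Q, ∃ μ : K, ρ g * ρ h = μ • (ρ h * ρ g))
    (u : G) (hu : u ∈ Q) (h₁ : G) (hh₁ : h₁ ∈ Q) (hne : ρ u * ρ h₁ ≠ ρ h₁ * ρ u) :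
    ∑ h : Q, ρ (h : G) * ρ u * ρ (h : G)⁻¹ = 0 := by
  obtain ⟨A, hA⟩ : ∃ A : Module.End K V, A = ∑ h : Q, ρ (h : G) * ρ u * ρ (h : G)⁻¹ := ⟨_, rfl⟩
  rw [← hA]
  -- A is a multiple of ρ u
  have h1 : A ∈ Submodule.span K ({ρ u} : Set (Module.End K V)) := by
    rw [hA]
    refine Submodule.sum_mem _ (fun h _ => ?_)
    obtain ⟨μ, hμ⟩ := hsc h h.2 u hu
    rw [hμ, smul_mul_assoc, mul_assoc, rho_mul_inv, mul_one]
    exact Submodule.smul_mem _ _ (Submodule.mem_span_singleton_self _)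
  obtain ⟨b, hb⟩ := Submodule.mem_span_singleton.1 h1
  -- conjugation invariance
  have h2 : ρ h₁ * A * ρ h₁⁻¹ = A := by
    rw [hA, Finset.mul_sum, Finset.sum_mul]
    rw [← Equiv.sum_comp (Equiv.mulLeft (⟨h₁, hh₁⟩ : Q))
      (fun h : Q => ρ (h : G) * ρ u * ρ (h : G)⁻¹)]
    refine Finset.sum_congr rfl (fun h _ => ?_)
    simp only [Equiv.coe_mulLeft, Subgroup.coe_mul, map_mul, mul_inv_rev, mul_assoc]
  obtain ⟨β, hβ⟩ := hsc h₁ hh₁ u hu
  have h3 : ρ h₁ * A * ρ h₁⁻¹ = β • A := by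
    rw [← hb, mul_smul_comm, smul_mul_assoc, hβ, smul_mul_assoc, mul_assoc, rho_mul_inv, mul_one,
      smul_comm]
  have hβ1 : β ≠ 1 := by
    intro h
    rw [h, one_smul] at hβ
    exact hne hβ.symm
  have h4 : (1 - β) • A = 0 := by
    rw [sub_smul, one_smul, ← h3, h2, sub_self]
  rcases smul_eq_zero.1 h4 with h | h
  · exact absurd (sub_eq_zero.1 h).symm hβ1
  · exact h

/-- a central element has class average `|Q|` times itself -/
theorem avg_central (ρ : G →* Module.End K V) (Q : Subgroup G) [Fintype Q]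
    (u : G) (hc : ∀ h ∈ Q, ρ u * ρ h = ρ h * ρ u) :
    ∑ h : Q, ρ (h : G) * ρ u * ρ (h : G)⁻¹ = (Fintype.card Q : K) • ρ u := by
  have : ∀ h : Q, ρ (h : G) * ρ u * ρ (h : G)⁻¹ = ρ u := by
    intro h
    rw [← hc h h.2, mul_assoc, rho_mul_inv, mul_one]
  rw [Finset.sum_congr rfl (fun h _ => this h), Finset.sum_const, Finset.card_univ,
    Nat.cast_smul_eq_nsmul]

/-- the twisted averaging operator -/
noncomputable def twist (ρ : G →* Module.End K V) (Q : Subgroup G) [Fintype Q] (x : G)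
    (ℓ : Module.Dual K V) (s₀ : V) : V →ₗ[K] V :=
  ∑ u : Q, (ℓ.comp (ρ (x * (u : G)⁻¹ * x⁻¹))).smulRight (ρ (u : G) s₀)

theorem twist_apply (ρ : G →* Module.End K V) (Q : Subgroup G) [Fintype Q] (x : G)
    (ℓ : Module.Dual K V) (s₀ v : V) :
    twist ρ Q x ℓ s₀ v = ∑ u : Q, ℓ (ρ (x * (u : G)⁻¹ * x⁻¹) v) • ρ (u : G) s₀ := by
  simp [twist, LinearMap.sum_apply]

theorem twist_mem (ρ : G →* Module.End K V) (Q : Subgroup G) [Fintype Q] (x : G)
    (ℓ : Module.Dual K V) (S : Submodule K V) (hS : ∀ g ∈ Q, ∀ v ∈ S, ρ g v ∈ S)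
    {s₀ : V} (hs₀ : s₀ ∈ S) (v : V) : twist ρ Q x ℓ s₀ v ∈ S := by
  rw [twist_apply]
  exact S.sum_mem (fun u _ => S.smul_mem _ (hS u u.2 _ hs₀))

theorem twist_equiv (ρ : G →* Module.End K V) (Q : Subgroup G) [Fintype Q] (x : G)
    (hx : x ∈ Subgroup.normalizer (Q : Set G))
    (ℓ : Module.Dual K V) (s₀ : V) (h : G) (hh : h ∈ Q) (v : V) :
    twist ρ Q x ℓ s₀ (ρ h v) = ρ (x⁻¹ * h * x) (twist ρ Q x ℓ s₀ v) := by
  have hh' : x⁻¹ * h * x ∈ Q := (Subgroup.mem_normalizer_iff''.1 hx h).1 hh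
  rw [twist_apply, twist_apply, map_sum]
  rw [← Equiv.sum_comp (Equiv.mulLeft (⟨x⁻¹ * h * x, hh'⟩ : Q))
    (fun u : Q => ℓ (ρ (x * (u : G)⁻¹ * x⁻¹) (ρ h v)) • ρ (u : G) s₀)]
  refine Finset.sum_congr rfl (fun u _ => ?_)
  simp only [Equiv.coe_mulLeft, Subgroup.coe_mul, map_smul]
  have e1 : ρ (x * (x⁻¹ * h * x * (u : G))⁻¹ * x⁻¹) (ρ h v) = ρ (x * (u : G)⁻¹ * x⁻¹) v := by
    rw [← Module.End.mul_apply, ← map_mul]
    congr 2
    group
  rw [e1, map_mul ρ (x⁻¹ * h * x) (u : G), Module.End.mul_apply]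

end aux

section main

variable {K : Type*} [Field K] {G : Type*} [Group G] [Finite G]
  {V : Type*} [AddCommGroup V] [Module K V]

/-- key nonvanishing: some twisted average is nonzero on a nonzero invariant subspace -/
theorem twist_ne_zero (ρ : G →* Module.End K V) (Q : Subgroup G) [Fintype Q]
    (hcard : (Fintype.card Q : K) ≠ 0) (x : G)
    (hsc : ∀ g ∈ Q, ∀ h ∈ Q, ∃ μ : K, ρ g * ρ h = μ • (ρ h * ρ g))
    (hz : ∀ g ∈ Q, (∀ h ∈ Q, ρ g * ρ h = ρ h * ρ g) → ∃ μ : K, ρ g = μ • 1)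
    (S : Submodule K V) (hS : ∀ g ∈ Q, ∀ v ∈ S, ρ g v ∈ S) (hSne : S ≠ ⊥) :
    ∃ ℓ : Module.Dual K V, ∃ s₀ ∈ S, ∃ v ∈ S, twist ρ Q x ℓ s₀ v ≠ 0 := by
  classical
  by_contra hcon
  push Not at hcon
  obtain ⟨v, hvS, hv0⟩ := Submodule.exists_mem_ne_zero_of_ne_bot hSne
  obtain ⟨ℓ, hℓ⟩ := Module.Projective.exists_dual_ne_zero K hv0
  obtain ⟨c, hc⟩ : ∃ c : Q → K, c = fun u : Q => ℓ (ρ (x * (u : G)⁻¹ * x⁻¹) v) := ⟨_, rfl⟩
  obtain ⟨T, hT⟩ : ∃ T : Module.End K V, T = ∑ u : Q, c u • ρ (u : G) := ⟨_, rfl⟩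
  have hTS : ∀ s₀ ∈ S, T s₀ = 0 := by
    intro s₀ hs₀
    have := hcon ℓ s₀ hs₀ v hvS
    rw [twist_apply] at this
    rw [hT, LinearMap.sum_apply, ← this]
    refine Finset.sum_congr rfl (fun u _ => ?_)
    rw [LinearMap.smul_apply, hc]
  obtain ⟨P, hP⟩ : ∃ P : Module.End K V, P = ∑ h : Q, ρ (h : G) * T * ρ (h : G)⁻¹ := ⟨_, rfl⟩
  have hPS : ∀ s ∈ S, P s = 0 := by
    intro s hs
    rw [hP, LinearMap.sum_apply]
    refine Finset.sum_eq_zero (fun h _ => ?_)
    rw [Module.End.mul_apply, Module.End.mul_apply, hTS _ (hS _ (Q.inv_mem h.2) s hs), map_zero]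
  have hP2 : P = ∑ u : Q, c u • ∑ h : Q, ρ (h : G) * ρ (u : G) * ρ (h : G)⁻¹ := by
    rw [hP, hT]
    simp only [Finset.mul_sum, Finset.sum_mul, Finset.smul_sum, mul_smul_comm, smul_mul_assoc]
    rw [Finset.sum_comm]
  -- the "centre"
  let Z : Subgroup Q :=
    { carrier := {u | ∀ h ∈ Q, ρ (u : G) * ρ h = ρ h * ρ (u : G)}
      mul_mem' := by
        intro a b ha hb h hh
        simp only [Set.mem_ofPred_eq] at ha hb
        rw [Subgroup.coe_mul, map_mul, mul_assoc, hb h hh, ← mul_assoc, ha h hh, mul_assoc]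
      one_mem' := by
        intro h _
        simp
      inv_mem' := by
        intro a ha h hh
        simp only [Set.mem_ofPred_eq] at ha
        have h1 : ρ ((a : G)⁻¹) * (ρ (a : G) * ρ h) * ρ ((a : G)⁻¹)
            = ρ ((a : G)⁻¹) * (ρ h * ρ (a : G)) * ρ ((a : G)⁻¹) := by rw [ha h hh]
        rw [← mul_assoc, rho_inv_mul, one_mul, mul_assoc, mul_assoc, rho_mul_inv, mul_one] at h1
        rw [Subgroup.coe_inv]
        exact h1.symm }
  have hZmem : ∀ u : Q, u ∈ Z ↔ ∀ h ∈ Q, ρ (u : G) * ρ h = ρ h * ρ (u : G) := fun u => Iff.rfl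
  have hterm : ∀ u : Q, c u • ∑ h : Q, ρ (h : G) * ρ (u : G) * ρ (h : G)⁻¹
      = if u ∈ Z then ((Fintype.card Q : K) * ℓ v) • (1 : Module.End K V) else 0 := by
    intro u
    by_cases huZ : u ∈ Z
    · rw [if_pos huZ, avg_central ρ Q u ((hZmem u).1 huZ)]
      obtain ⟨ζ, hζ⟩ := hz u u.2 ((hZmem u).1 huZ)
      have h1 : ζ • ρ (x * (u : G)⁻¹ * x⁻¹) = 1 := by
        rw [map_mul, map_mul, ← smul_mul_assoc, ← mul_smul_comm]
        have : ζ • ρ ((u : G)⁻¹) = 1 := by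
          rw [← rho_mul_inv ρ (u : G), hζ, smul_mul_assoc, one_mul]
        rw [this, mul_one, rho_mul_inv]
      have h2 : ζ * c u = ℓ v := by
        rw [hc]
        simp only
        rw [← smul_eq_mul, ← map_smul, ← LinearMap.smul_apply, h1, Module.End.one_apply]
      rw [hζ, smul_smul, smul_smul, mul_comm (c u), mul_assoc, mul_comm (c u), h2]
    · rw [if_neg huZ]
      rw [hZmem] at huZ
      push Not at huZ
      obtain ⟨h₁, hh₁, hne⟩ := huZ
      rw [avg_eq_zero ρ Q hsc u u.2 h₁ hh₁ hne, smul_zero]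
  have hP3 : P = (Fintype.card Z : K) • (((Fintype.card Q : K) * ℓ v) • (1 : Module.End K V)) := by
    have hZc : (Finset.univ.filter (fun u : Q => u ∈ Z)).card = Fintype.card Z :=
      (Fintype.card_subtype _).symm
    rw [hP2, Finset.sum_congr rfl (fun u _ => hterm u), ← Finset.sum_filter, Finset.sum_const,
      hZc, Nat.cast_smul_eq_nsmul]
  have hZcard : (Fintype.card Z : K) ≠ 0 := by
    have hdvd : Fintype.card Z ∣ Fintype.card Q := by
      have := Subgroup.card_subgroup_dvd_card Z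
      rwa [Nat.card_eq_fintype_card, Nat.card_eq_fintype_card] at this
    obtain ⟨k, hk⟩ := hdvd
    intro h0
    apply hcard
    rw [hk, Nat.cast_mul, h0, zero_mul]
  have hfin := hPS v hvS
  rw [hP3, LinearMap.smul_apply, LinearMap.smul_apply, Module.End.one_apply, smul_smul] at hfin
  rcases smul_eq_zero.1 hfin with h | h
  · rcases mul_eq_zero.1 h with h | h
    · exact hZcard h
    · rcases mul_eq_zero.1 h with h | h
      · exact hcard h
      · exact hℓ h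
  · exact hv0 h

/-- minimal nonzero subspaces with a property -/
theorem exists_minimal_inv [FiniteDimensional K V]
    (P : Submodule K V → Prop) (U₀ : Submodule K V) (h₀ : P U₀) (hne : U₀ ≠ ⊥) :
    ∃ S : Submodule K V, P S ∧ S ≠ ⊥ ∧ S ≤ U₀ ∧
      ∀ W : Submodule K V, P W → W ≤ S → W ≠ ⊥ → W = S := by
  induction' hn : Module.finrank K U₀ using Nat.strong_induction_on with n ih generalizing U₀
  by_cases hmin : ∀ W : Submodule K V, P W → W ≤ U₀ → W ≠ ⊥ → W = U₀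
  · exact ⟨U₀, h₀, hne, le_rfl, hmin⟩
  · push Not at hmin
    obtain ⟨W, hPW, hWle, hWne, hWU⟩ := hmin
    have hlt : Module.finrank K W < Module.finrank K U₀ :=
      Submodule.finrank_lt_finrank_of_lt (lt_of_le_of_ne hWle hWU)
    obtain ⟨S, h1, h2, h3, h4⟩ := ih _ (hn ▸ hlt) W hPW hWne rfl
    exact ⟨S, h1, h2, h3.trans hWle, h4⟩

end main

theorem hb_qirr {K : Type*} [Field K] [IsAlgClosed K] {G : Type*} [Group G] [Finite G]
    {V : Type*} [AddCommGroup V] [Module K V] [FiniteDimensional K V]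
    (ρ : G →* Module.End K V) (Q : Subgroup G) (hcard : (Nat.card Q : K) ≠ 0) (x : G)
    (hx : x ∈ Subgroup.normalizer (Q : Set G))
    (hsc : ∀ g ∈ Q, ∀ h ∈ Q, ∃ μ : K, ρ g * ρ h = μ • (ρ h * ρ g))
    (hz : ∀ g ∈ Q, (∀ h ∈ Q, ρ g * ρ h = ρ h * ρ g) → ∃ μ : K, ρ g = μ • 1)
    (hirr : ∀ U : Submodule K V, (∀ g ∈ Q, ∀ v ∈ U, ρ g v ∈ U) → (∀ v ∈ U, ρ x v ∈ U) →
      U = ⊥ ∨ U = ⊤) :
    ∀ U : Submodule K V, (∀ g ∈ Q, ∀ v ∈ U, ρ g v ∈ U) → U = ⊥ ∨ U = ⊤ := by
  classical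
  intro U hU
  by_contra hcon
  push Not at hcon
  obtain ⟨hUb, hUt⟩ := hcon
  haveI : Fintype Q := Fintype.ofFinite Q
  have hcardQ : (Fintype.card Q : K) ≠ 0 := by rwa [← Nat.card_eq_fintype_card]
  obtain ⟨S, hSinv, hSne, hSU, hSmin⟩ :=
    exists_minimal_inv (fun W : Submodule K V => ∀ g ∈ Q, ∀ v ∈ W, ρ g v ∈ W) U hU hUb
  suffices hS : S = ⊤ by
    apply hUt
    rw [eq_top_iff, ← hS]
    exact hSU
  obtain ⟨ℓ, s₀, hs₀, v, hv, hne⟩ := twist_ne_zero ρ Q hcardQ x hsc hz S hSinv hSne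
  -- the twisted intertwiner on S
  let φ : S →ₗ[K] S := LinearMap.codRestrict S ((twist ρ Q x ℓ s₀).comp S.subtype)
    (fun s => twist_mem ρ Q x ℓ S hSinv hs₀ _)
  have hφc : ∀ s : S, (φ s : V) = twist ρ Q x ℓ s₀ (s : V) := fun s => rfl
  have hφeq : ∀ g (hg : g ∈ Q) (s : S),
      (φ ⟨ρ g s, hSinv g hg s s.2⟩ : V) = ρ (x⁻¹ * g * x) (φ s : V) := by
    intro g hg s
    rw [hφc, hφc]
    exact twist_equiv ρ Q x hx ℓ s₀ g hg s
  have hφinj : Function.Injective φ := by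
    rw [← LinearMap.ker_eq_bot]
    have hW : (LinearMap.ker φ).map S.subtype ≠ S := by
      intro hW
      have hvW : v ∈ (LinearMap.ker φ).map S.subtype := by rw [hW]; exact hv
      obtain ⟨s, hs, hsv⟩ := Submodule.mem_map.1 hvW
      have h1 : (φ s : V) = 0 := by rw [LinearMap.mem_ker.1 hs]; rfl
      rw [hφc] at h1
      have h2 : (s : V) = v := hsv
      rw [h2] at h1
      exact hne h1
    have hWinv : ∀ g ∈ Q, ∀ w ∈ (LinearMap.ker φ).map S.subtype,
        ρ g w ∈ (LinearMap.ker φ).map S.subtype := by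
      intro g hg w hw
      obtain ⟨s, hs, hsw⟩ := Submodule.mem_map.1 hw
      refine Submodule.mem_map.2 ⟨⟨ρ g s, hSinv g hg s s.2⟩, ?_, ?_⟩
      · rw [LinearMap.mem_ker]
        apply Subtype.ext
        rw [hφeq g hg s, LinearMap.mem_ker.1 hs]
        simp
      · rw [← hsw]
        rfl
    have hWbot : (LinearMap.ker φ).map S.subtype = ⊥ := by
      by_contra hWb
      exact hW (hSmin _ hWinv (Submodule.map_subtype_le S _) hWb)
    rw [eq_bot_iff]
    intro s hs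
    have : (s : V) ∈ (LinearMap.ker φ).map S.subtype := Submodule.mem_map.2 ⟨s, hs, rfl⟩
    rw [hWbot, Submodule.mem_bot] at this
    rw [Submodule.mem_bot]
    exact Subtype.ext this
  have hφsurj : Function.Surjective φ := LinearMap.surjective_of_injective hφinj
  -- the multiplicity space
  let E : Submodule K (S →ₗ[K] V) :=
    { carrier := {f | ∀ g (hg : g ∈ Q) (s : S), f ⟨ρ g s, hSinv g hg s s.2⟩ = ρ g (f s)}
      add_mem' := by
        intro a b ha hb g hg s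
        simp only [Set.mem_ofPred_eq] at ha hb
        rw [LinearMap.add_apply, LinearMap.add_apply, ha g hg s, hb g hg s, map_add]
      zero_mem' := by
        intro g hg s
        simp
      smul_mem' := by
        intro c a ha g hg s
        simp only [Set.mem_ofPred_eq] at ha
        rw [LinearMap.smul_apply, LinearMap.smul_apply, ha g hg s, map_smul] }
  have hEmem : ∀ f : S →ₗ[K] V, f ∈ E ↔
      ∀ g (hg : g ∈ Q) (s : S), f ⟨ρ g s, hSinv g hg s s.2⟩ = ρ g (f s) := fun f => Iff.rfl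
  let T0 : (S →ₗ[K] V) →ₗ[K] (S →ₗ[K] V) :=
    { toFun := fun f => (ρ x).comp (f.comp φ)
      map_add' := by
        intro a b
        ext s
        simp
      map_smul' := by
        intro c a
        ext s
        simp }
  have hT0 : ∀ (f : S →ₗ[K] V) (s : S), T0 f s = ρ x (f (φ s)) := fun f s => rfl
  have hTE : ∀ f ∈ E, T0 f ∈ E := by
    intro f hf
    rw [hEmem] at hf ⊢
    intro g hg s
    have hg' : x⁻¹ * g * x ∈ Q := (Subgroup.mem_normalizer_iff''.1 hx g).1 hg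
    rw [hT0, hT0]
    have e1 : φ ⟨ρ g s, hSinv g hg s s.2⟩
        = ⟨ρ (x⁻¹ * g * x) (φ s : V), hSinv _ hg' _ (φ s).2⟩ := Subtype.ext (hφeq g hg s)
    rw [e1, hf _ hg' (φ s), ← Module.End.mul_apply, ← Module.End.mul_apply, ← map_mul, ← map_mul]
    congr 2
    group
  haveI : Nontrivial E := by
    obtain ⟨w, hwS, hw0⟩ := Submodule.exists_mem_ne_zero_of_ne_bot hSne
    have hsub : S.subtype ∈ E := by
      rw [hEmem]
      intro g hg s
      rfl
    refine ⟨⟨⟨S.subtype, hsub⟩, 0, ?_⟩⟩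
    intro h
    have h1 : S.subtype = 0 := congrArg Subtype.val h
    have h2 : S.subtype ⟨w, hwS⟩ = 0 := by rw [h1]; rfl
    exact hw0 h2
  obtain ⟨c, hc⟩ := Module.End.exists_eigenvalue (T0.restrict hTE)
  obtain ⟨f, hf⟩ := hc.exists_hasEigenvector
  have hf0 : (f : S →ₗ[K] V) ≠ 0 := by
    intro h
    exact hf.2 (Subtype.ext h)
  have hfT : T0 (f : S →ₗ[K] V) = c • (f : S →ₗ[K] V) := by
    have := hf.apply_eq_smul
    exact congrArg Subtype.val this
  have hfE : ∀ g (hg : g ∈ Q) (s : S),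
      (f : S →ₗ[K] V) ⟨ρ g s, hSinv g hg s s.2⟩ = ρ g ((f : S →ₗ[K] V) s) := (hEmem _).1 f.2
  -- the range of f is invariant under Q and x
  have hR := hirr (LinearMap.range (f : S →ₗ[K] V)) (by
    rintro g hg w ⟨s, rfl⟩
    exact ⟨⟨ρ g s, hSinv g hg s s.2⟩, hfE g hg s⟩) (by
    rintro w ⟨s, rfl⟩
    obtain ⟨s', rfl⟩ := hφsurj s
    refine ⟨c • s', ?_⟩
    rw [map_smul, ← LinearMap.smul_apply, ← hfT, hT0])
  rcases hR with hR | hR
  · exact absurd (LinearMap.range_eq_bot.1 hR) hf0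
  · apply Submodule.eq_top_of_finrank_eq
    apply le_antisymm (Submodule.finrank_le S)
    have h1 : Module.finrank K (LinearMap.range (f : S →ₗ[K] V)) = Module.finrank K V := by
      rw [hR, finrank_top]
    rw [← h1]
    exact LinearMap.finrank_range_le _

end Cfsg.Agent.Lib.Helper97.HBQirr
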