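import Mathlib
import Cfsg.Agent.Lib.Helper53.Hermitian
import Cfsg.Agent.Lib.Helper7.GUOrder

/-!
# Project U9 (helper44, S5832), piece NF3U (helper97)

Two non-degenerate hermitian Gram matrices of size 3 over `F_{q²}` are congruent (via
`Helper53.Herm.exists_factor`).
-/

set_option autoImplicit false

namespace Cfsg.Agent.Lib.Helper44.U9

open Matrix

variable {F : Type*} [Field F] [Fintype F] {q : ℕ}

/-- the `q`-power map as a ring homomorphism -/
def NF3U_hom (hF : Fintype.card F = q ^ 2) : F →+* F where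
  toFun x := x ^ q
  map_one' := one_pow q
  map_mul' x y := mul_pow x y q
  map_zero' := zero_pow (Cfsg.Agent.Lib.Helper7.herm_q_ne_zero hF)
  map_add' x y := Cfsg.Agent.Lib.Helper7.herm_add_pow hF x y

/-- the `q`-power map as a ring automorphism -/
noncomputable def NF3U_sig (hF : Fintype.card F = q ^ 2) : F ≃+* F :=
  RingEquiv.ofBijective (NF3U_hom hF)
    (Finite.injective_iff_bijective.mp (RingHom.injective _))

theorem NF3U_sig_apply (hF : Fintype.card F = q ^ 2) (x : F) : NF3U_sig hF x = x ^ q := rfl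

theorem NF3U_sig_ne_one (hF : Fintype.card F = q ^ 2) : NF3U_sig hF ≠ 1 := by
  classical
  intro h
  have hall : ∀ x : F, x ^ q = x := by
    intro x
    have := congrArg (fun s : F ≃+* F => s x) h
    simpa [NF3U_sig_apply] using this
  have hq2 : 2 ≤ q := by
    by_contra hlt
    have h1 : 1 < Fintype.card F := Fintype.one_lt_card
    rw [hF] at h1
    have h4 : q ≤ 1 := by omega
    have h5 : q ^ 2 ≤ 1 ^ 2 := Nat.pow_le_pow_left h4 2
    omega
  have hne : (Polynomial.X ^ q - Polynomial.X : Polynomial F) ≠ 0 :=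
    FiniteField.X_pow_card_sub_X_ne_zero F (by omega)
  have hdeg : (Polynomial.X ^ q - Polynomial.X : Polynomial F).natDegree = q :=
    FiniteField.X_pow_card_sub_X_natDegree_eq F (by omega)
  have hsub : (Finset.univ : Finset F) ⊆
      (Polynomial.X ^ q - Polynomial.X : Polynomial F).roots.toFinset := by
    intro x _
    rw [Multiset.mem_toFinset, Polynomial.mem_roots hne]
    simp [hall x]
  have h1 := Finset.card_le_card hsub
  have h2 := Multiset.toFinset_card_le (Polynomial.X ^ q - Polynomial.X : Polynomial F).roots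
  have h3 := Polynomial.card_roots' (Polynomial.X ^ q - Polynomial.X : Polynomial F)
  rw [Finset.card_univ, hF] at h1
  rw [hdeg] at h3
  have h4 : q ^ 2 ≤ q := by omega
  nlinarith

/-- NF3U: two non-degenerate hermitian Gram matrices of size 3 are congruent up to a scalar. -/
theorem NF3U (hF : Fintype.card F = q ^ 2) (G₁ G₂ : Matrix (Fin 3) (Fin 3) F)
    (hh1 : ∀ a b, G₁ a b = (G₁ b a) ^ q) (hh2 : ∀ a b, G₂ a b = (G₂ b a) ^ q)
    (hd1 : G₁.det ≠ 0) (hd2 : G₂.det ≠ 0) :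
    ∃ (A : GL (Fin 3) F) (c : F), c ≠ 0 ∧
      A.1ᵀ * G₂ * A.1.map (fun x : F => x ^ q) = c • G₁ := by
  classical
  have hσ2 : ∀ x, NF3U_sig hF (NF3U_sig hF x) = x := by
    intro x
    rw [NF3U_sig_apply, NF3U_sig_apply]
    exact Cfsg.Agent.Lib.Helper7.herm_pow_pow hF x
  obtain ⟨B₁, hB₁, hG₁⟩ := Cfsg.Agent.Lib.Helper53.Herm.exists_factor (NF3U_sig hF)
    (NF3U_sig_ne_one hF) hσ2 G₁ (fun i j => by rw [NF3U_sig_apply]; exact (hh1 i j).symm) hd1
  obtain ⟨B₂, hB₂, hG₂⟩ := Cfsg.Agent.Lib.Helper53.Herm.exists_factor (NF3U_sig hF)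
    (NF3U_sig_ne_one hF) hσ2 G₂ (fun i j => by rw [NF3U_sig_apply]; exact (hh2 i j).symm) hd2
  -- the inverse of `B₂`
  have hB₂' : B₂⁻¹ * B₂ = 1 := Matrix.nonsing_inv_mul B₂ hB₂
  have hdetA : IsUnit ((B₁ * B₂⁻¹)ᵀ).det := by
    rw [Matrix.det_transpose, Matrix.det_mul]
    exact hB₁.mul ((Matrix.isUnit_nonsing_inv_det_iff).mpr hB₂)
  refine ⟨Matrix.GeneralLinearGroup.mk'' ((B₁ * B₂⁻¹)ᵀ) hdetA, 1, one_ne_zero, ?_⟩
  have hmap : ((B₁ * B₂⁻¹)ᵀ).map (fun x : F => x ^ q) =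
      ((B₂⁻¹).map (NF3U_sig hF))ᵀ * (B₁.map (NF3U_sig hF))ᵀ := by
    have h1 : ((B₁ * B₂⁻¹)ᵀ).map (fun x : F => x ^ q) =
        ((B₁ * B₂⁻¹).map (NF3U_sig hF))ᵀ := by
      ext i j
      simp only [Matrix.map_apply, Matrix.transpose_apply, NF3U_sig_apply]
    rw [h1, Matrix.map_mul, Matrix.transpose_mul]
  have hval : (Matrix.GeneralLinearGroup.mk'' ((B₁ * B₂⁻¹)ᵀ) hdetA).1 = (B₁ * B₂⁻¹)ᵀ := rfl
  rw [hval, hmap, Matrix.transpose_transpose, one_smul]
  have hinv : (B₂.map (NF3U_sig hF))ᵀ * ((B₂⁻¹).map (NF3U_sig hF))ᵀ = 1 := by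
    rw [← Matrix.transpose_mul, ← Matrix.map_mul, hB₂']
    simp
  calc B₁ * B₂⁻¹ * G₂ * (((B₂⁻¹).map (NF3U_sig hF))ᵀ * (B₁.map (NF3U_sig hF))ᵀ)
      = B₁ * (B₂⁻¹ * B₂) * ((B₂.map (NF3U_sig hF))ᵀ * ((B₂⁻¹).map (NF3U_sig hF))ᵀ) *
          (B₁.map (NF3U_sig hF))ᵀ := by
        rw [hG₂]
        simp only [Matrix.mul_assoc]
    _ = G₁ := by
        rw [hB₂', hinv, Matrix.mul_one, Matrix.mul_one, ← hG₁]

end Cfsg.Agent.Lib.Helper44.U9
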