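import Cfsg.Agent.Lib.Helper20.RI1

/-!
# S5046, piece SCOMM (helper97): root involutions with the same odd partners commute
-/

set_option autoImplicit false

namespace Cfsg.Agent.Lib.Helper97.RI

open Cfsg Cfsg.Agent.Lib.Helper12.RootInv Cfsg.Agent.Lib.Helper20.RI
open scoped commutatorElement

variable {G : Type*} [Group G]

/-- PIECE SCOMM: root involutions with the same odd partners commute. -/
theorem same_odd_commute [Finite G] {D : Set G} (hD : IsRootInvolutionSet D)
    (hconj : ∀ a ∈ D, ∀ b ∈ D, ∃ g : G, b = g * a * g⁻¹) {s t : G} (hs : s ∈ D) (ht : t ∈ D)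
    (h : oddPartners D s = oddPartners D t) : s * t = t * s := by
  have : Fact (Nat.Prime 2) := ⟨Nat.prime_two⟩
  obtain ⟨S, hS⟩ : ∃ S : Set G, S = {e | e ∈ D ∧ oddPartners D e = oddPartners D s} := ⟨_, rfl⟩
  have hSmem : ∀ e, e ∈ S ↔ e ∈ D ∧ oddPartners D e = oddPartners D s := by
    intro e; rw [hS]; rfl
  have hsS : s ∈ S := (hSmem s).mpr ⟨hs, rfl⟩
  have htS : t ∈ S := (hSmem t).mpr ⟨ht, h.symm⟩
  -- (a)
  have hodd : ∀ p ∈ S, ∀ r ∈ S, Odd (orderOf (p * r)) → r = p := by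
    intro p hp r hr ho
    by_contra hne
    have h1 : r ∈ oddPartners D p := ⟨((hSmem r).mp hr).1, hne, ho⟩
    rw [((hSmem p).mp hp).2, ← ((hSmem r).mp hr).2] at h1
    exact h1.2.1 rfl
  have hpow4 : ∀ p ∈ S, ∀ r ∈ S, (p * r) ^ 4 = 1 := by
    intro p hp r hr
    by_cases ho : Odd (orderOf (p * r))
    · rw [hodd p hp r hr ho, ri_sq hD ((hSmem p).mp hp).1, one_pow]
    · exact pow4_of_not_odd hD ((hSmem p).mp hp).1 ((hSmem r).mp hr).1 ho
  -- (b)
  have hnorm : ∀ g p, p ∈ S → g * p * g⁻¹ ∈ S → ∀ y ∈ S, g * y * g⁻¹ ∈ S := by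
    intro g p hp hgp y hy
    rw [hSmem] at hp hgp hy ⊢
    refine ⟨hD.conj_mem y hy.1 g, ?_⟩
    rw [oddPartners_conj_eq hD g (hy.2.trans hp.2.symm)]
    exact hgp.2
  have hnorm' : ∀ g p, p ∈ S → g * p * g⁻¹ ∈ S → ∀ y ∈ S, g⁻¹ * y * g ∈ S := by
    intro g p hp hgp y hy
    have h1 := hnorm g⁻¹ (g * p * g⁻¹) hgp (by rw [inv_inv]; simpa [mul_assoc] using hp) y hy
    rwa [inv_inv] at h1
  have hself : ∀ g ∈ S, ∀ y ∈ S, g * y * g⁻¹ ∈ S := by
    intro g hg y hy
    exact hnorm g g hg (by simpa using hg) y hy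
  obtain ⟨H, hH⟩ : ∃ H : Subgroup G, H = Subgroup.closure S := ⟨_, rfl⟩
  have hSH : S ⊆ H := by rw [hH]; exact Subgroup.subset_closure
  have hHnorm : ∀ g ∈ H, ∀ y ∈ S, g * y * g⁻¹ ∈ S := by
    intro g hg
    rw [hH] at hg
    induction hg using Subgroup.closure_induction with
    | mem x hx => exact hself x hx
    | one => intro y hy; simpa using hy
    | mul x z _ _ hx hz =>
      intro y hy
      have := hx _ (hz y hy)
      have e : x * z * y * (x * z)⁻¹ = x * (z * y * z⁻¹) * x⁻¹ := by group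
      rw [e]; exact this
    | inv x hx' hx =>
      intro y hy
      -- `x` normalizes `S`, so does `x⁻¹`
      have h1 : ∀ y ∈ S, x * y * x⁻¹ ∈ S := hx
      have h2 := hnorm' x s hsS (h1 s hsS) y hy
      simpa using h2
  -- (c) `H` is a 2-group
  have hH2 : IsPGroup 2 ↥H := by
    obtain ⟨N, -, hNp, hKN⟩ := Cfsg.Agent.Lib.Helper5.baer_suzuki_set (G := ↥H) (p := 2)
      {x : ↥H | (x : G) ∈ S}
      (fun x hx g => hHnorm g.1 g.2 x.1 hx)
      (fun x hx y hy => by
        have hP := pair_isPGroup hD ((hSmem _).mp hx).1 ((hSmem _).mp hy).1 (hpow4 _ hx _ hy)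
        intro z
        have hz : (z : ↥H).1 ∈ Subgroup.closure ({(x : G), (y : G)} : Set G) := by
          have h1 := Subgroup.mem_map_of_mem H.subtype z.2
          rw [MonoidHom.map_closure, Set.image_pair] at h1
          exact h1
        obtain ⟨k, hk⟩ := hP ⟨_, hz⟩
        refine ⟨k, ?_⟩
        apply Subtype.ext
        apply Subtype.ext
        have := congrArg Subtype.val hk
        simpa using this)
    have hNtop : N = ⊤ := by
      subst hH
      rw [eq_top_iff, ← Subgroup.closure_closure_coe_preimage (k := S), Subgroup.closure_le]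
      exact hKN
    intro x
    have hx : x ∈ N := by rw [hNtop]; trivial
    obtain ⟨k, hk⟩ := hNp ⟨x, hx⟩
    exact ⟨k, by simpa using congrArg Subtype.val hk⟩
  -- (d), (e), (f)
  by_contra hst
  have hno : ¬ Odd (orderOf (s * t)) := by
    intro ho
    have := hodd s hsS t htS ho
    rw [this] at hst
    exact hst rfl
  obtain ⟨h4, hzD⟩ := four_of_not hD hs ht hst hno
  have hs2 := ri_sq hD hs
  have ht2 := ri_sq hD ht
  have hp4 := four_pow h4
  have hszS : s * (s * t) ^ 2 ∈ S := by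
    rw [inv_sq_left hs2]
    have := hself t htS s hsS
    rwa [ri_inv hD ht] at this
  have hzS : (s * t) ^ 2 ∈ S := by
    rw [hSmem]
    refine ⟨hzD, ?_⟩
    have hsz := (hSmem _).mp hszS
    exact line_lemma hD hconj hs hzD (sq_comm_left hs2 ht2 hp4) hsz.1 hsz.2.symm
  have hzc : (s * t) ^ 2 ∈ ⁅H, H⁆ := by
    have e : (s * t) ^ 2 = ⁅s, t⁆ := by
      rw [commutatorElement_def, ri_inv hD hs, ri_inv hD ht, pow_two]
      simp only [mul_assoc]
    rw [e]
    exact Subgroup.commutator_mem_commutator (hSH hsS) (hSH htS)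
  have hSc : S ⊆ ((⁅H, H⁆ : Subgroup G) : Set G) := by
    intro t' ht'
    show t' ∈ ⁅H, H⁆
    obtain ⟨g, hg⟩ := hconj _ hzD t' ((hSmem t').mp ht').1
    have hgS : g * (s * t) ^ 2 * g⁻¹ ∈ S := by rw [← hg]; exact ht'
    have himg : (fun x => g * x * g⁻¹) '' S = S := by
      ext y
      constructor
      · rintro ⟨x, hx, rfl⟩
        exact hnorm g _ hzS hgS x hx
      · intro hy
        refine ⟨g⁻¹ * y * g, hnorm' g _ hzS hgS y hy, ?_⟩
        group
    have hmapH : H.map (MulAut.conj g).toMonoidHom = H := by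
      rw [hH, MonoidHom.map_closure]
      congr 1
    have hmapC : (⁅H, H⁆).map (MulAut.conj g).toMonoidHom = ⁅H, H⁆ := by
      rw [Subgroup.map_commutator, hmapH]
    rw [hg, ← hmapC]
    exact ⟨_, hzc, rfl⟩
  have hle : H ≤ ⁅H, H⁆ := by
    rw [hH, Subgroup.closure_le, ← hH]
    exact hSc
  have hcomm : _root_.commutator ↥H = ⊤ := by
    have h1 := Subgroup.map_subtype_commutator H
    rw [eq_top_iff]
    intro x _
    have hx : (x : G) ∈ ⁅H, H⁆ := hle x.2
    rw [← h1] at hx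
    obtain ⟨y, hy, hyx⟩ := hx
    have : y = x := Subtype.ext hyx
    rw [← this]
    exact hy
  have hnil : Group.IsNilpotent ↥H := hH2.isNilpotent
  have hnt : Nontrivial ↥H :=
    ⟨⟨⟨s, hSH hsS⟩, 1, fun e => ri_ne_one hD hs (congrArg Subtype.val e)⟩⟩
  have hlt := Group.IsSolvable.commutator_lt_top_of_nontrivial (G := ↥H)
  rw [hcomm] at hlt
  exact lt_irrefl _ hlt

end Cfsg.Agent.Lib.Helper97.RI
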