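import Mathlib
import Cfsg.Prelude.Def_GeometricClasses
import Cfsg.Agent.Lib.Helper18.Symp
import Cfsg.Agent.Lib.Helper97.Transv
import Cfsg.Agent.Lib.Helper97.TransvM
import Cfsg.Agent.Lib.Helper97.SympMax
import Cfsg.Agent.Lib.Helper97.OrthChar2

/-!
# Generation of `Cfsg.spGL` by symplectic transvections, in `GL`

Helper library (helper97): the standard symplectic form `Cfsg.sympForm` as an
`IsBilinearForm`, its row vectors, and the criterion: a subgroup of `GL` containing every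
element whose matrix is a `Cfsg.sympTransvection` contains `Cfsg.spGL` (from helper18's
generation theorem).
-/

set_option autoImplicit false

namespace Cfsg.Agent.Lib.Helper97

open Matrix

variable {F : Type*} [Field F] (m : ℕ)

lemma mem_spGL_iff (g : GL (Fin m ⊕ Fin m) F) :
    g ∈ Cfsg.spGL m F ↔ ∀ u v, Cfsg.sympForm m F ((g : Matrix _ _ F) *ᵥ u)
      ((g : Matrix _ _ F) *ᵥ v) = Cfsg.sympForm m F u v := Iff.rfl

lemma sympForm_bil : Cfsg.Geo.IsBilinearForm (Cfsg.sympForm m F) := by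
  constructor
  · intro x y v
    simp only [Cfsg.sympForm, add_dotProduct]
  · intro c x v
    simp only [Cfsg.sympForm, smul_dotProduct, smul_eq_mul]
  · intro v x y
    simp only [Cfsg.sympForm, Matrix.mulVec_add, dotProduct_add]
  · intro c v x
    simp only [Cfsg.sympForm, Matrix.mulVec_smul, dotProduct_smul, smul_eq_mul]

lemma rho_sympForm (w : Fin m ⊕ Fin m → F) :
    rho (Cfsg.sympForm m F) w = Matrix.J (Fin m) F *ᵥ w := by
  apply ext_dot
  intro x
  rw [rho_dot (sympForm_bil m), dotProduct_comm]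
  rfl

/-- A subgroup of `GL` containing all symplectic transvections contains `spGL`. -/
theorem spGL_le_of_transv (M : Subgroup (GL (Fin m ⊕ Fin m) F))
    (hM : ∀ (w : Fin m ⊕ Fin m → F) (c : F) (t : GL (Fin m ⊕ Fin m) F),
      (t : Matrix (Fin m ⊕ Fin m) (Fin m ⊕ Fin m) F) = Cfsg.sympTransvection m w c → t ∈ M) :
    Cfsg.spGL m F ≤ M := by
  have key : ∀ a ∈ Cfsg.Agent.Lib.Helper18.TP (Cfsg.Agent.Lib.Helper18.sympB (F := F) m),
      ∃ t : GL (Fin m ⊕ Fin m) F, t ∈ M ∧
        Matrix.toLin' (t : Matrix (Fin m ⊕ Fin m) (Fin m ⊕ Fin m) F) = a := by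
    intro a ha
    induction ha using Submonoid.closure_induction with
    | mem a ha =>
      obtain ⟨w, c, rfl⟩ := ha
      have hdet : IsUnit (Cfsg.sympTransvection m w c : Matrix (Fin m ⊕ Fin m) (Fin m ⊕ Fin m) F).det := by
        have h := Cfsg.Agent.Lib.Helper18.sympTransvection_mem (F := F) m w c
        exact SymplecticGroup.symplectic_det h
      obtain ⟨t, ht⟩ := (Matrix.isUnit_iff_isUnit_det _).mpr hdet
      refine ⟨t, hM w c t ht, ?_⟩
      rw [ht, Cfsg.Agent.Lib.Helper18.toLin'_sympTransvection]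
    | one =>
      refine ⟨1, M.one_mem, ?_⟩
      rw [Units.val_one, Matrix.toLin'_one]
      rfl
    | mul a b ha hb iha ihb =>
      obtain ⟨ta, hta, rfl⟩ := iha
      obtain ⟨tb, htb, rfl⟩ := ihb
      refine ⟨ta * tb, M.mul_mem hta htb, ?_⟩
      rw [Units.val_mul, Matrix.toLin'_mul]
      rfl
  intro g hg
  have hiso : ∀ x y : Fin m ⊕ Fin m → F, Cfsg.Agent.Lib.Helper18.sympB m
      (Matrix.toLin' (g : Matrix (Fin m ⊕ Fin m) (Fin m ⊕ Fin m) F) x)
      (Matrix.toLin' (g : Matrix (Fin m ⊕ Fin m) (Fin m ⊕ Fin m) F) y) =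
      Cfsg.Agent.Lib.Helper18.sympB m x y := by
    intro x y
    rw [Cfsg.Agent.Lib.Helper18.sympB_eq_sympForm, Cfsg.Agent.Lib.Helper18.sympB_eq_sympForm,
      Matrix.toLin'_apply, Matrix.toLin'_apply]
    exact hg x y
  have hmem : Matrix.toLin' (g : Matrix (Fin m ⊕ Fin m) (Fin m ⊕ Fin m) F) ∈
      Cfsg.Agent.Lib.Helper18.TP (Cfsg.Agent.Lib.Helper18.sympB (F := F) m) :=
    Cfsg.Agent.Lib.Helper18.isometry_mem_TP (Module.finrank F (Fin m ⊕ Fin m → F))
      (Cfsg.Agent.Lib.Helper18.sympB m)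
      (Cfsg.Agent.Lib.Helper18.sympB_isAlt m) (Cfsg.Agent.Lib.Helper18.sympB_nondegenerate m) rfl
      (Matrix.toLin' (g : Matrix (Fin m ⊕ Fin m) (Fin m ⊕ Fin m) F)) hiso
  obtain ⟨t, htM, ht⟩ := key _ hmem
  have h1 : t = g := by
    apply Units.ext
    exact Matrix.toLin'.injective ht
  rw [← h1]
  exact htM

end Cfsg.Agent.Lib.Helper97
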