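import Mathlib
import Cfsg.Prelude.Def_GeometricClasses
import Cfsg.Agent.Lib.Helper97.SpGen
import Cfsg.Agent.Lib.Helper97.SpOver

/-!
# Symplectic overgroups: the standard form, stabilisers of non-degenerate subspaces

Helper library (helper97): `Cfsg.sympForm` is an `IsSymplecticForm`; a subgroup of `GL` all of
whose vectors are transvection centres contains `Cfsg.spGL`; and the overgroup theorem for the
stabiliser of a non-degenerate subspace.
-/

set_option autoImplicit false

namespace Cfsg.Agent.Lib.Helper97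

open Matrix

section std

variable {F : Type*} [Field F] (m : ℕ)

lemma sympForm_symp : Cfsg.Geo.IsSymplecticForm (Cfsg.sympForm m F) := by
  have halt : ∀ v, Cfsg.sympForm m F v v = 0 :=
    fun v => Cfsg.Agent.Lib.Helper18.J_dotProduct_self m v
  have hb := sympForm_bil (F := F) m
  have hskew : ∀ v w, Cfsg.sympForm m F v w = - Cfsg.sympForm m F w v := by
    intro v w
    have h := halt (v + w)
    rw [hb.add_left, hb.add_right, hb.add_right, halt, halt] at h
    linear_combination h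
  refine ⟨hb, hskew, halt, ?_⟩
  intro v hv
  have h2 : ∃ x, Cfsg.sympForm m F v x ≠ 0 := by
    by_contra hcon
    push Not at hcon
    apply hv
    exact (Cfsg.Agent.Lib.Helper18.sympB_nondegenerate m).1 v
      (fun y => by rw [Cfsg.Agent.Lib.Helper18.sympB_eq_sympForm]; exact hcon y)
  obtain ⟨x, hx⟩ := h2
  exact ⟨⟨x, by rw [hskew]; exact neg_ne_zero.mpr hx⟩, ⟨x, hx⟩⟩

/-- A subgroup of `GL` for which every vector is a transvection centre contains `spGL`. -/
theorem spGL_le_of_InS (M : Subgroup (GL (Fin m ⊕ Fin m) F))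
    (h : ∀ v, InS (Cfsg.sympForm m F) M v) : Cfsg.spGL m F ≤ M := by
  apply spGL_le_of_transv
  intro w c t ht
  refine (h w c).2 t ?_
  rw [ht, Cfsg.sympTransvection, tv, rho_sympForm, Matrix.vecMulVec_smul]

end std

variable {ι : Type} [Fintype ι] [DecidableEq ι] {F : Type*} [Field F]
variable {f : (ι → F) → (ι → F) → F}

omit [Fintype ι] [DecidableEq ι] in
/-- A subspace whose image lies in the union of two subspaces has its image in one of them. -/
lemma two_cover {P A B : Submodule F (ι → F)} (φ : (ι → F) → (ι → F))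
    (hadd : ∀ x y, φ (x + y) = φ x + φ y)
    (h : ∀ v ∈ P, φ v ∈ A ∨ φ v ∈ B) : (∀ v ∈ P, φ v ∈ A) ∨ (∀ v ∈ P, φ v ∈ B) := by
  by_contra hcon
  push Not at hcon
  obtain ⟨⟨x, hx, hxA⟩, ⟨y, hy, hyB⟩⟩ := hcon
  have hxB : φ x ∈ B := (h x hx).resolve_left hxA
  have hyA : φ y ∈ A := (h y hy).resolve_right hyB
  rcases h (x + y) (P.add_mem hx hy) with h1 | h1
  · apply hxA
    have e : φ x = φ (x + y) - φ y := by rw [hadd]; abel
    rw [e]
    exact A.sub_mem h1 hyA
  · apply hyB
    have e : φ y = φ (x + y) - φ x := by rw [hadd]; abel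
    rw [e]
    exact B.sub_mem h1 hxB

lemma gl_mulVec_injective (g : GL ι F) {x y : ι → F}
    (h : (g : Matrix ι ι F) *ᵥ x = (g : Matrix ι ι F) *ᵥ y) : x = y := by
  have h1 := congrArg (fun z => ((g⁻¹ : GL ι F) : Matrix ι ι F) *ᵥ z) h
  simp only [Matrix.mulVec_mulVec, ← Units.val_mul, inv_mul_cancel, Units.val_one,
    Matrix.one_mulVec] at h1
  exact h1

lemma gl_mulVec_inv (g : GL ι F) (x : ι → F) :
    (g : Matrix ι ι F) *ᵥ (((g⁻¹ : GL ι F) : Matrix ι ι F) *ᵥ x) = x := by
  rw [Matrix.mulVec_mulVec, ← Units.val_mul, mul_inv_cancel, Units.val_one, Matrix.one_mulVec]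

/-- An invertible matrix mapping a subspace into itself stabilises it. -/
lemma stab_of_map_le (W : Submodule F (ι → F)) (g : GL ι F)
    (h : ∀ x ∈ W, (g : Matrix ι ι F) *ᵥ x ∈ W) : g ∈ Cfsg.Geo.subspaceStabilizer W := by
  rw [mem_subspaceStabilizer_iff]
  intro y
  refine ⟨h y, fun hy => ?_⟩
  have hres : ∀ x ∈ W, Matrix.toLin' (g : Matrix ι ι F) x ∈ W := by
    intro x hx
    rw [Matrix.toLin'_apply]
    exact h x hx
  have hinj : Function.Injective ((Matrix.toLin' (g : Matrix ι ι F)).restrict hres) := by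
    intro a b hab
    apply Subtype.ext
    have h1 := congrArg Subtype.val hab
    rw [LinearMap.restrict_apply, LinearMap.restrict_apply] at h1
    simp only [Matrix.toLin'_apply] at h1
    exact gl_mulVec_injective g h1
  obtain ⟨w, hw⟩ := (LinearMap.injective_iff_surjective.mp hinj) ⟨_, hy⟩
  have h1 := congrArg Subtype.val hw
  rw [LinearMap.restrict_apply] at h1
  simp only [Matrix.toLin'_apply] at h1
  rw [← gl_mulVec_injective g h1]
  exact w.2

/-- Injective maps between subspaces: dimension inequality. -/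
lemma finrank_le_of_map_le (P Q : Submodule F (ι → F)) (g : GL ι F)
    (h : ∀ x ∈ P, (g : Matrix ι ι F) *ᵥ x ∈ Q) : Module.finrank F P ≤ Module.finrank F Q := by
  have hres : ∀ x ∈ P, Matrix.toLin' (g : Matrix ι ι F) x ∈ Q := by
    intro x hx
    rw [Matrix.toLin'_apply]
    exact h x hx
  apply LinearMap.finrank_le_finrank_of_injective
    (f := (Matrix.toLin' (g : Matrix ι ι F)).restrict hres)
  intro a b hab
  apply Subtype.ext
  have h1 := congrArg Subtype.val hab
  rw [LinearMap.restrict_apply, LinearMap.restrict_apply] at h1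
  simp only [Matrix.toLin'_apply] at h1
  exact gl_mulVec_injective g h1

section symp

variable (hf : Cfsg.Geo.IsSymplecticForm f)
include hf

lemma stv_mem_stab_of_mem {W : Submodule F (ι → F)} {v : ι → F} (hv : v ∈ W) (a : F) :
    tvG v (a • rho f v) (symp_dot0 hf v a) ∈ Cfsg.Geo.subspaceStabilizer W := by
  apply stab_of_map_le
  intro x hx
  rw [stv_mulVec hf]
  exact W.add_mem hx (W.smul_mem _ hv)

lemma stv_mem_stab_of_perp {W : Submodule F (ι → F)} {v : ι → F} (hv : v ∈ perp hf W) (a : F) :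
    tvG v (a • rho f v) (symp_dot0 hf v a) ∈ Cfsg.Geo.subspaceStabilizer W := by
  apply stab_of_map_le
  intro x hx
  rw [stv_mulVec hf, (mem_perp hf).mp hv x hx, mul_zero, zero_smul, add_zero]
  exact hx

/-- Overgroups of the stabiliser of a non-degenerate subspace: every vector is a centre. -/
theorem nondeg_stab_overgroup (W : Submodule F (ι → F)) (ndW : NdOn f W) (hW0 : W ≠ ⊥)
    (hdim : 2 * Module.finrank F W < Fintype.card ι)
    (hroom : 3 ≤ Module.finrank F (perp hf W))
    (M : Subgroup (GL ι F))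
    (hHM : ∀ t : GL ι F, t ∈ Cfsg.Geo.subspaceStabilizer W →
      (∀ x y, f ((t : Matrix ι ι F) *ᵥ x) ((t : Matrix ι ι F) *ᵥ y) = f x y) → t ∈ M)
    (g : GL ι F) (hgM : g ∈ M)
    (hgf : ∀ x y, f ((g : Matrix ι ι F) *ᵥ x) ((g : Matrix ι ι F) *ᵥ y) = f x y)
    (hg : g ∉ Cfsg.Geo.subspaceStabilizer W) : ∀ v, InS f M v := by
  have hb := hf.bilinear
  have ndW' := NdOn_perp hf ndW
  have hSW : ∀ a ∈ W, InS f M a := fun a ha =>
    InS_of_mem hf (fun c => hHM _ (stv_mem_stab_of_mem hf ha c) (stv_pres hf a c))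
  have hSW' : ∀ b ∈ perp hf W, InS f M b := fun b hb' =>
    InS_of_mem hf (fun c => hHM _ (stv_mem_stab_of_perp hf hb' c) (stv_pres hf b c))
  have hex : ∃ v, InS f M v ∧ (g : Matrix ι ι F) *ᵥ v ∉ W ∧
      (g : Matrix ι ι F) *ᵥ v ∉ perp hf W := by
    by_contra hcon
    push Not at hcon
    have h1 : ∀ v ∈ W, (g : Matrix ι ι F) *ᵥ v ∈ W ∨ (g : Matrix ι ι F) *ᵥ v ∈ perp hf W := by
      intro v hv
      by_cases h : (g : Matrix ι ι F) *ᵥ v ∈ W
      · exact Or.inl h
      · exact Or.inr (hcon v (hSW v hv) h)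
    have h2 : ∀ v ∈ perp hf W,
        (g : Matrix ι ι F) *ᵥ v ∈ W ∨ (g : Matrix ι ι F) *ᵥ v ∈ perp hf W := by
      intro v hv
      by_cases h : (g : Matrix ι ι F) *ᵥ v ∈ W
      · exact Or.inl h
      · exact Or.inr (hcon v (hSW' v hv) h)
    rcases two_cover (fun v => (g : Matrix ι ι F) *ᵥ v) (fun x y => Matrix.mulVec_add _ x y) h1
      with h3 | h3
    · exact hg (stab_of_map_le W g h3)
    · rcases two_cover (fun v => (g : Matrix ι ι F) *ᵥ v) (fun x y => Matrix.mulVec_add _ x y) h2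
        with h4 | h4
      · have h5 := finrank_le_of_map_le _ _ g h4
        rw [finrank_perp hf] at h5
        omega
      · have hall : ∀ x, x ∈ perp hf W := by
          intro x
          obtain ⟨a, ha, b, hb', hab⟩ := exists_decomp hf ndW (((g⁻¹ : GL ι F) : Matrix ι ι F) *ᵥ x)
          have e : x = (g : Matrix ι ι F) *ᵥ a + (g : Matrix ι ι F) *ᵥ b := by
            rw [← Matrix.mulVec_add, ← hab, gl_mulVec_inv]
          rw [e]
          exact Submodule.add_mem _ (h3 a ha) (h4 b hb')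
        apply hW0
        rw [Submodule.eq_bot_iff]
        intro w hw
        by_contra hw0
        obtain ⟨x, hx, hxw⟩ := ndW w hw hw0
        exact hxw ((mem_perp hf).mp (hall w) x hx)
  obtain ⟨v, hv, hgv1, hgv2⟩ := hex
  have hw := InS_conj hf hgM hgf hv
  obtain ⟨a, ha, b, hb', hab⟩ := exists_decomp hf ndW ((g : Matrix ι ι F) *ᵥ v)
  have ha0 : a ≠ 0 := by
    rintro rfl
    apply hgv2
    rw [hab, zero_add]
    exact hb'
  have hb0 : b ≠ 0 := by
    rintro rfl
    apply hgv1
    rw [hab, add_zero]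
    exact ha
  rw [hab] at hw
  have hw' : InS f M (a + b + 0) := by rwa [add_zero]
  have hedge := edge_lemma hf (fun a ha b hb' => (mem_perp hf).mp hb' a ha) ndW ndW' hSW hSW'
    (room_of_finrank hf ndW' hroom) ha ha0 hb' hb0 (fun a _ => form_zero_left hb a)
    (fun b _ => form_zero_left hb b) hw'
  intro x
  obtain ⟨a', ha', b', hb'', rfl⟩ := exists_decomp hf ndW x
  exact hedge a' ha' b' hb''

/-- Some isometry does not stabilise a proper non-zero non-degenerate subspace. -/
theorem exists_isometry_not_stab (W : Submodule F (ι → F)) (ndW : NdOn f W) (hW0 : W ≠ ⊥)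
    (hW1 : W ≠ ⊤) : ∃ t : GL ι F,
      (∀ x y, f ((t : Matrix ι ι F) *ᵥ x) ((t : Matrix ι ι F) *ᵥ y) = f x y) ∧
      t ∉ Cfsg.Geo.subspaceStabilizer W := by
  have hb := hf.bilinear
  obtain ⟨w₁, hw₁, hw₁0⟩ := Submodule.exists_mem_ne_zero_of_ne_bot hW0
  have hy : ∃ y, y ∉ W := by
    by_contra hcon
    push Not at hcon
    exact hW1 ((Submodule.eq_top_iff').mpr hcon)
  obtain ⟨y, hy⟩ := hy
  obtain ⟨a, ha, w₂, hw₂, hab⟩ := exists_decomp hf ndW y
  have hw₂0 : w₂ ≠ 0 := by
    rintro rfl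
    apply hy
    rw [hab, add_zero]
    exact ha
  have hw₂W : w₂ ∉ W := by
    intro h
    obtain ⟨x, hx, hxw⟩ := ndW w₂ h hw₂0
    exact hxw ((mem_perp hf).mp hw₂ x hx)
  obtain ⟨x, hx, hxw⟩ := ndW w₁ hw₁ hw₁0
  refine ⟨tvG (w₁ + w₂) ((1 : F) • rho f (w₁ + w₂)) (symp_dot0 hf _ 1), stv_pres hf _ 1, ?_⟩
  intro hmem
  have h1 := ((mem_subspaceStabilizer_iff W _).mp hmem x).mp hx
  rw [stv_mulVec hf, hb.add_right, (mem_perp hf).mp hw₂ x hx, add_zero, one_mul] at h1
  have h2 : (f x w₁) • (w₁ + w₂) ∈ W := by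
    have e : (f x w₁) • (w₁ + w₂) = x + (f x w₁) • (w₁ + w₂) - x := by abel
    rw [e]
    exact W.sub_mem h1 hx
  have h3 : w₁ + w₂ ∈ W := by
    have e : w₁ + w₂ = (f x w₁)⁻¹ • ((f x w₁) • (w₁ + w₂)) := by
      rw [smul_smul, inv_mul_cancel₀ hxw, one_smul]
    rw [e]
    exact W.smul_mem _ h2
  apply hw₂W
  have e : w₂ = w₁ + w₂ - w₁ := by abel
  rw [e]
  exact W.sub_mem h3 hw₁

end symp

end Cfsg.Agent.Lib.Helper97
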