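import Mathlib
import Cfsg.Agent.Lib.Helper26.Gross2DefsC

/-!
# S3795 (Gross, `p = 2`; helper26's project): the class-two calculus for `GrossInv` groups
(helper97; shared by the pieces SETUP and LE2)
-/

set_option autoImplicit false
set_option linter.style.haveILetI false
set_option linter.unusedSectionVars false
open scoped commutatorElement

namespace Cfsg.Agent.Lib.Helper97.Gross2Inv

open Cfsg.Agent.Lib.Helper26 Cfsg.Agent.Lib.Helper26.Gross2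

section c2

variable {Γ : Type*} [Group Γ] {P : Subgroup Γ}

theorem comm_mem {x y : Γ} (hx : x ∈ P) (hy : y ∈ P) : ⁅x, y⁆ ∈ P :=
  P.mul_mem (P.mul_mem (P.mul_mem hx hy) (P.inv_mem hx)) (P.inv_mem hy)

theorem comm_mem_center (hc2 : ∀ x ∈ P, ∀ y ∈ P, ∀ w ∈ P, ⁅x, y⁆ * w = w * ⁅x, y⁆) {x y : Γ}
    (hx : x ∈ P) (hy : y ∈ P) : ⁅x, y⁆ ∈ P ⊓ Subgroup.centralizer (P : Set Γ) := by
  refine Subgroup.mem_inf.mpr ⟨comm_mem hx hy, ?_⟩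
  rw [Subgroup.mem_centralizer_iff]
  intro w hw
  exact (hc2 x hx y hy w hw).symm

theorem comm_mul_left (hc2 : ∀ x ∈ P, ∀ y ∈ P, ∀ w ∈ P, ⁅x, y⁆ * w = w * ⁅x, y⁆) {x x' y : Γ}
    (hx : x ∈ P) (hx' : x' ∈ P) (hy : y ∈ P) : ⁅x * x', y⁆ = ⁅x, y⁆ * ⁅x', y⁆ := by
  have e1 : ⁅x * x', y⁆ = x * ⁅x', y⁆ * x⁻¹ * ⁅x, y⁆ := by
    simp only [commutatorElement_def]
    group
  have e2 : x * ⁅x', y⁆ * x⁻¹ = ⁅x', y⁆ := by
    rw [← hc2 x' hx' y hy x hx, mul_inv_cancel_right]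
  rw [e1, e2]
  exact hc2 x' hx' y hy _ (comm_mem hx hy)

theorem comm_mul_right (hc2 : ∀ x ∈ P, ∀ y ∈ P, ∀ w ∈ P, ⁅x, y⁆ * w = w * ⁅x, y⁆) {x y y' : Γ}
    (hx : x ∈ P) (hy : y ∈ P) (hy' : y' ∈ P) : ⁅x, y * y'⁆ = ⁅x, y⁆ * ⁅x, y'⁆ := by
  have e1 : ⁅x, y * y'⁆ = ⁅x, y⁆ * (y * ⁅x, y'⁆ * y⁻¹) := by
    simp only [commutatorElement_def]
    group
  have e2 : y * ⁅x, y'⁆ * y⁻¹ = ⁅x, y'⁆ := by
    rw [← hc2 x hx y' hy' y hy, mul_inv_cancel_right]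
  rw [e1, e2]

theorem comm_pow_left (hc2 : ∀ x ∈ P, ∀ y ∈ P, ∀ w ∈ P, ⁅x, y⁆ * w = w * ⁅x, y⁆) {x y : Γ}
    (hx : x ∈ P) (hy : y ∈ P) (i : ℕ) : ⁅x ^ i, y⁆ = ⁅x, y⁆ ^ i := by
  induction i with
  | zero => rw [pow_zero, pow_zero, commutatorElement_one_left]
  | succ i ih =>
    rw [pow_succ, pow_succ, comm_mul_left hc2 (P.pow_mem hx i) hx hy, ih]

theorem comm_inv_left (hc2 : ∀ x ∈ P, ∀ y ∈ P, ∀ w ∈ P, ⁅x, y⁆ * w = w * ⁅x, y⁆) {x y : Γ}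
    (hx : x ∈ P) (hy : y ∈ P) : ⁅x⁻¹, y⁆ = ⁅x, y⁆⁻¹ := by
  have h1 := comm_mul_left hc2 hx (P.inv_mem hx) hy
  rw [mul_inv_cancel, commutatorElement_one_left] at h1
  exact eq_inv_of_mul_eq_one_right h1.symm

/-- the radical of the pairing `(x, y) ↦ χ ⁅x, y⁆` is a subgroup -/
theorem exists_R (hc2 : ∀ x ∈ P, ∀ y ∈ P, ∀ w ∈ P, ⁅x, y⁆ * w = w * ⁅x, y⁆) {k : Type*}
    [Field k] (χ : Γ → k) (h1 : χ 1 = 1)
    (hmul : ∀ z ∈ P ⊓ Subgroup.centralizer (P : Set Γ),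
      ∀ z' ∈ P ⊓ Subgroup.centralizer (P : Set Γ), χ (z * z') = χ z * χ z') :
    ∃ R : Subgroup Γ, GrossChi P χ R := by
  refine ⟨{ carrier := {x | x ∈ P ∧ ∀ y ∈ P, χ ⁅x, y⁆ = 1}
            mul_mem' := ?_
            one_mem' := ?_
            inv_mem' := ?_ }, h1, hmul, fun x => Iff.rfl⟩
  · intro a b ha hb
    refine ⟨P.mul_mem ha.1 hb.1, fun y hy => ?_⟩
    rw [comm_mul_left hc2 ha.1 hb.1 hy, hmul _ (comm_mem_center hc2 ha.1 hy) _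
      (comm_mem_center hc2 hb.1 hy), ha.2 y hy, hb.2 y hy, mul_one]
  · refine ⟨P.one_mem, fun y _ => ?_⟩
    rw [commutatorElement_one_left, h1]
  · intro a ha
    refine ⟨P.inv_mem ha.1, fun y hy => ?_⟩
    have h2 := hmul _ (comm_mem_center hc2 ha.1 hy) _
      (comm_mem_center hc2 (P.inv_mem ha.1) hy)
    rw [← comm_mul_left hc2 ha.1 (P.inv_mem ha.1) hy, mul_inv_cancel,
      commutatorElement_one_left, h1, ha.2 y hy, one_mul] at h2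
    exact h2.symm

end c2

section inv

variable {Γ : Type*} [Group Γ] {ℓ n : ℕ} {P : Subgroup Γ} {φ : Γ}

theorem inv_pow_norm (h : GrossInv ℓ n P φ) (i : ℕ) : ∀ x ∈ P, φ ^ i * x * (φ ^ i)⁻¹ ∈ P :=
  gross_pow_conj_mem P h.hnorm i

theorem inv_zpow_norm (h : GrossInv ℓ n P φ) {s : Γ} (hs : s ∈ Subgroup.zpowers φ) :
    ∀ x ∈ P, s * x * s⁻¹ ∈ P := by
  obtain ⟨i, rfl⟩ := gross_zpowers_nat (pow_pos two_pos (n + 1)) h.hφ hs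
  exact inv_pow_norm h i

theorem inv_zpow_norm' (h : GrossInv ℓ n P φ) {s : Γ} (hs : s ∈ Subgroup.zpowers φ) :
    ∀ x ∈ P, s⁻¹ * x * s ∈ P := by
  intro x hx
  have h1 := inv_zpow_norm h (Subgroup.inv_mem _ hs) x hx
  rwa [inv_inv] at h1

theorem inv_psi_pow (h : GrossInv ℓ n P φ) : (φ ^ 2 ^ n) ^ 2 = 1 := by
  rw [← pow_mul, ← pow_succ]
  exact h.hφ

/-- an element of `P` is a power of its square -/
theorem inv_sq_pow (h : GrossInv ℓ n P φ) {x : Γ} (hx : x ∈ P) : ∃ m : ℕ, x = (x * x) ^ m := by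
  obtain ⟨j, hj⟩ := h.hP ⟨x, hx⟩
  have hj' : x ^ ℓ ^ j = 1 := by
    have h1 := congrArg (fun z : ↥P => (z : Γ)) hj
    simpa using h1
  have hodd : Odd (ℓ ^ j) := (h.hℓ.odd_of_ne_two h.hℓ2).pow
  obtain ⟨m, hm⟩ := hodd
  refine ⟨m + 1, ?_⟩
  rw [← pow_two, ← pow_mul]
  have e : 2 * (m + 1) = ℓ ^ j + 1 := by omega
  rw [e, pow_succ, hj', one_mul]

theorem inv_mem_of_sq_mem (h : GrossInv ℓ n P φ) (K : Subgroup Γ) {x : Γ} (hx : x ∈ P)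
    (hxx : x * x ∈ K) : x ∈ K := by
  obtain ⟨m, hm⟩ := inv_sq_pow h hx
  rw [hm]
  exact K.pow_mem hxx m

theorem inv_psi_ne_one (h : GrossInv ℓ n P φ) : φ ^ 2 ^ n ≠ 1 := by
  intro h1
  obtain ⟨x, hx, y, hy, hxy⟩ := h.hnab
  apply hxy
  have h2 := h.hinv x hx y hy
  rw [h1, one_mul, inv_one, mul_one] at h2
  obtain ⟨m, hm⟩ := inv_sq_pow h hx
  have hc : Commute (x * x) y := h2
  have h3 := (hc.pow_left m).eq
  rw [← hm] at h3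
  exact h3

theorem inv_ord (h : GrossInv ℓ n P φ) : orderOf φ = 2 ^ (n + 1) := by
  have h1 : orderOf φ ∣ 2 ^ (n + 1) := orderOf_dvd_of_pow_eq_one h.hφ
  obtain ⟨j, hj, hj'⟩ := (Nat.dvd_prime_pow Nat.prime_two).mp h1
  rcases Nat.lt_or_ge j (n + 1) with hlt | hge
  · exfalso
    apply inv_psi_ne_one h
    have h2 : 2 ^ j ∣ 2 ^ n := pow_dvd_pow 2 (by omega)
    rw [← hj'] at h2
    exact orderOf_dvd_iff_pow_eq_one.mp h2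
  · rw [hj', le_antisymm hj hge]

theorem inv_psi_mem (h : GrossInv ℓ n P φ) {s : Γ} (hs : s ∈ Subgroup.zpowers φ) (hs1 : s ≠ 1) :
    ∃ l : ℕ, φ ^ 2 ^ n = s ^ l := by
  obtain ⟨i, rfl⟩ := gross_zpowers_nat (pow_pos two_pos (n + 1)) h.hφ hs
  have hi0 : i ≠ 0 := by
    rintro rfl
    exact hs1 (pow_zero φ)
  obtain ⟨e, i', hi', rfl⟩ := Nat.exists_eq_pow_mul_and_not_dvd hi0 2 (by norm_num)
  have he : e ≤ n := by
    by_contra hcon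
    push Not at hcon
    apply hs1
    have h1 : 2 ^ (n + 1) ∣ 2 ^ e * i' := Dvd.dvd.mul_right (pow_dvd_pow 2 hcon) i'
    obtain ⟨c, hc⟩ := h1
    rw [hc, pow_mul, h.hφ, one_pow]
  have hcop : Nat.Coprime i' 2 := ((Nat.Prime.coprime_iff_not_dvd Nat.prime_two).mpr hi').symm
  obtain ⟨l, -, hl⟩ := Nat.exists_mul_mod_eq_one_of_coprime hcop (by norm_num)
  refine ⟨2 ^ (n - e) * l, ?_⟩
  rw [← pow_mul]
  have e1 : 2 ^ e * i' * (2 ^ (n - e) * l) = 2 ^ n * (i' * l) := by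
    have h2 : 2 ^ n = 2 ^ e * 2 ^ (n - e) := by
      rw [← pow_add]
      congr 1
      omega
    rw [h2]
    ring
  rw [e1, pow_mul, pow_eq_pow_mod (i' * l) (inv_psi_pow h), hl, pow_one]

theorem sq_eq (x ψ : Γ) :
    x * x = (x * (ψ * x * ψ⁻¹)) * (x⁻¹ * (ψ * x * ψ⁻¹))⁻¹ := by
  group

theorem inv_fpf_mod (h : GrossInv ℓ n P φ) (R : Subgroup Γ)
    (hZR : ∀ z ∈ P, (∀ w ∈ P, z * w = w * z) → z ∈ R) {s : Γ} (hs : s ∈ Subgroup.zpowers φ)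
    (hs1 : s ≠ 1) (hsR : ∀ x ∈ R, s * x * s⁻¹ ∈ R) :
    ∀ x ∈ P, x⁻¹ * (s * x * s⁻¹) ∈ R → x ∈ R := by
  intro x hx hxs
  obtain ⟨l, hl⟩ := inv_psi_mem h hs hs1
  have hδx : x⁻¹ * (φ ^ 2 ^ n * x * (φ ^ 2 ^ n)⁻¹) ∈ R := by
    rw [hl]
    exact gross_sl_pow R hsR hxs l
  have hψx : φ ^ 2 ^ n * x * (φ ^ 2 ^ n)⁻¹ ∈ P :=
    inv_zpow_norm h (Subgroup.pow_mem _ (Subgroup.mem_zpowers φ) _) x hx
  have hc : x * (φ ^ 2 ^ n * x * (φ ^ 2 ^ n)⁻¹) ∈ R :=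
    hZR _ (P.mul_mem hx hψx) (fun w hw => h.hinv x hx w hw)
  apply inv_mem_of_sq_mem h R hx
  rw [sq_eq x (φ ^ 2 ^ n)]
  exact R.mul_mem hc (R.inv_mem hδx)

theorem chi_norm (h : GrossInv ℓ n P φ) {k : Type*} [Field k] {χ : Γ → k} {R : Subgroup Γ}
    (hχ : GrossChi P χ R) {g : Γ} (hg : g ∈ Subgroup.zpowers φ)
    (hinv : ∀ z ∈ P ⊓ Subgroup.centralizer (P : Set Γ), χ (g * z * g⁻¹) = χ z) :
    ∀ x ∈ R, g * x * g⁻¹ ∈ R := by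
  intro x hx
  obtain ⟨hxQ, hx'⟩ := (hχ.hR x).mp hx
  refine (hχ.hR _).mpr ⟨inv_zpow_norm h hg x hxQ, fun y hy => ?_⟩
  have hy' : g⁻¹ * y * g ∈ P := inv_zpow_norm' h hg y hy
  have e : ⁅g * x * g⁻¹, y⁆ = g * ⁅x, g⁻¹ * y * g⁆ * g⁻¹ := by
    simp only [commutatorElement_def]
    group
  rw [e, hinv _ (comm_mem_center h.hc2 hxQ hy'), hx' _ hy']

end inv

end Cfsg.Agent.Lib.Helper97.Gross2Inv
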