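import Mathlib
import Cfsg.Agent.Lib.Helper97.FCDefs
import Cfsg.Agent.Lib.Helper12.Ward2
import Cfsg.Agent.Lib.Helper88.GrpSyl

/-!
# S5115, piece EXTU: `U = (Q ∩ H) · C_{S ∩ H}(Q ∩ H)` is "normal in `F_S(G)`"
-/

set_option autoImplicit false

namespace Cfsg.Agent.Lib.Helper97.FC

open Cfsg.Agent.Lib.Helper12.Ward

universe u

section

variable {G : Type u} [Group G]

/-- `S` normalizes `Q` when `Q ≤ S` is "normal in `F_S(G)`". -/
theorem ext_le_normalizer {S Q : Subgroup G} (hQS : Q ≤ S) (h : Ext S Q) :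
    S ≤ Subgroup.normalizer (Q : Set G) := by
  have key : ∀ g ∈ S, ∀ x ∈ Q, g * x * g⁻¹ ∈ Q := by
    intro g hg x hx
    obtain ⟨n, hn, hnx⟩ := h S le_rfl g (fun x hx => S.mul_mem (S.mul_mem hg hx) (S.inv_mem hg))
    rw [← hnx x (hQS hx)]
    exact conj_mem_of_nz hn hx
  intro g hg
  apply nz_of_conj_mem (key g hg)
  intro x hx
  have := key g⁻¹ (S.inv_mem hg) x hx
  simpa using this

/-- the set of `p'`-elements of `C_G(Q)` is normalized by `N_G(Q)` -/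
theorem nz_pprime {p : ℕ} {Q K : Subgroup G}
    (hK : ∀ x : G, x ∈ K ↔ (x ∈ Subgroup.centralizer (Q : Set G) ∧ (orderOf x).Coprime p))
    {y : G} (hy : y ∈ Subgroup.normalizer (Q : Set G)) :
    y ∈ Subgroup.normalizer (K : Set G) := by
  have key : ∀ y ∈ Subgroup.normalizer (Q : Set G), ∀ x ∈ K, y * x * y⁻¹ ∈ K := by
    intro y hy x hx
    rw [hK] at hx ⊢
    refine ⟨centralizer_conj_aux (fun q hq => conj_mem_of_nz' hy hq) hx.1, ?_⟩
    have h1 : orderOf (y * x * y⁻¹) = orderOf x := by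
      have := (MulAut.conj y).orderOf_eq x
      rwa [MulAut.conj_apply] at this
    rw [h1]; exact hx.2
  apply nz_of_conj_mem (key y hy)
  intro x hx
  have := key y⁻¹ (Subgroup.inv_mem _ hy) x hx
  simpa using this

theorem nz_of_normal {H : Subgroup G} (hH : H.Normal) (y : G) :
    y ∈ Subgroup.normalizer (H : Set G) :=
  nz_of_conj_mem (fun x hx => hH.conj_mem x hx y)
    (fun x hx => by simpa using hH.conj_mem x hx y⁻¹)

end

theorem extU (b1 : B1Stmt.{u}) (b2 : B2Stmt.{u}) (b3 : B3Stmt.{u}) (sy : SylInfStmt.{u}) :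
    ExtUStmt.{u} := by
  intro G _ _ p _ S Q H hS hQ hH P hPS g hg
  obtain ⟨hQS, hExt, hCen⟩ := hQ
  have hSp : IsPGroup p S := by
    obtain ⟨R, rfl⟩ := hS
    exact R.isPGroup'
  have hSN : S ≤ Subgroup.normalizer (Q : Set G) := ext_le_normalizer hQS hExt
  obtain ⟨K, hK⟩ := b1 G p S Q hS ⟨hQS, hExt, hCen⟩
  have hHnz : ∀ y : G, y ∈ Subgroup.normalizer (H : Set G) := nz_of_normal hH
  obtain ⟨R, hR⟩ : ∃ R : Subgroup G, R = Q ⊓ H := ⟨_, rfl⟩
  obtain ⟨Y, hY⟩ : ∃ Y : Subgroup G,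
      Y = (H ⊓ Subgroup.centralizer (R : Set G)) ⊓ Subgroup.normalizer (Q : Set G) := ⟨_, rfl⟩
  obtain ⟨D0, hD0⟩ : ∃ D0 : Subgroup G,
      D0 = (S ⊓ H) ⊓ Subgroup.centralizer (R : Set G) := ⟨_, rfl⟩
  rw [← hR, ← hD0]
  have hRQ : R ≤ Q := by rw [hR]; exact inf_le_left
  -- elements of `N(Q)` normalize everything in sight
  have nzR : ∀ y ∈ Subgroup.normalizer (Q : Set G), y ∈ Subgroup.normalizer (R : Set G) := by
    intro y hy
    rw [hR]
    exact nz_inf hy (hHnz y)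
  have nzY : ∀ y ∈ Subgroup.normalizer (Q : Set G), y ∈ Subgroup.normalizer (Y : Set G) := by
    intro y hy
    rw [hY]
    exact nz_inf (nz_inf (hHnz y) (nz_centralizer (nzR y hy))) (Subgroup.le_normalizer hy)
  have nzD0 : ∀ s ∈ S, s ∈ Subgroup.normalizer (D0 : Set G) := by
    intro s hs
    rw [hD0]
    exact nz_inf (nz_inf (Subgroup.le_normalizer hs) (hHnz s)) (nz_centralizer (nzR s (hSN hs)))
  have hKcent : K ≤ Subgroup.centralizer (Q : Set G) := fun k hk => ((hK k).mp hk).1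
  have hKN : K ≤ Subgroup.normalizer (Q : Set G) :=
    hKcent.trans (Subgroup.centralizer_le_normalizer _)
  -- the fusion map
  obtain ⟨n, hn, hnx⟩ := hExt P hPS g hg
  obtain ⟨A, hA⟩ : ∃ A : Subgroup G, A = P.map (MulAut.conj n).toMonoidHom := ⟨_, rfl⟩
  obtain ⟨D2, hD2⟩ : ∃ D2 : Subgroup G, D2 = D0.map (MulAut.conj n).toMonoidHom := ⟨_, rfl⟩
  have hAmem : ∀ a, a ∈ A ↔ ∃ x ∈ P, n * x * n⁻¹ = a := by
    intro a
    rw [hA, Subgroup.mem_map]
    rfl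
  have hD2mem : ∀ a, a ∈ D2 ↔ ∃ x ∈ D0, n * x * n⁻¹ = a := by
    intro a
    rw [hD2, Subgroup.mem_map]
    rfl
  have hAS : A ≤ S := by
    intro a ha
    obtain ⟨x, hx, rfl⟩ := (hAmem a).mp ha
    rw [hnx x hx]
    exact hg x hx
  have hD0S : D0 ≤ S := by rw [hD0]; exact inf_le_left.trans inf_le_left
  have hD0Y : D0 ≤ Y := by
    intro d hd
    have hd' := hd
    rw [hD0] at hd'
    rw [hY]
    exact ⟨⟨hd'.1.2, hd'.2⟩, hSN hd'.1.1⟩
  have hD0eq : D0 = S ⊓ Y := by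
    apply le_antisymm (le_inf hD0S hD0Y)
    intro x hx
    have hx2 := hx.2
    rw [hY] at hx2
    rw [hD0]
    exact ⟨⟨hx.1, hx2.1.1⟩, hx2.1.2⟩
  have hD0p : IsPGroup p D0 := hSp.to_le hD0S
  -- hypotheses of B3
  have c1 : K ⊓ H ≤ Y := by
    intro k hk
    rw [hY]
    exact ⟨⟨hk.2, Subgroup.centralizer_le (by exact_mod_cast hRQ) (hKcent hk.1)⟩, hKN hk.1⟩
  have c2 : Y ≤ Subgroup.normalizer ((K ⊓ H : Subgroup G) : Set G) := by
    intro y hy
    rw [hY] at hy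
    exact nz_inf (nz_pprime hK hy.2) (hHnz y)
  have c3 : ∀ k ∈ K ⊓ H, (orderOf k).Coprime p := fun k hk => ((hK k).mp hk.1).2
  have c4 : ∀ y ∈ Y, (orderOf y).Coprime p → y ∈ K ⊓ H := by
    intro y hy hcop
    rw [hY] at hy
    obtain ⟨⟨hyH, hyC⟩, hyN⟩ := hy
    have h1 : ∀ q ∈ Q, y * q * y⁻¹ * q⁻¹ ∈ R := by
      intro q hq
      rw [hR]
      refine ⟨Q.mul_mem (conj_mem_of_nz hyN hq) (Q.inv_mem hq), ?_⟩
      have e : y * q * y⁻¹ * q⁻¹ = y * (q * y⁻¹ * q⁻¹) := by group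
      rw [e]
      exact H.mul_mem hyH (hH.conj_mem _ (H.inv_mem hyH) q)
    have h2 : ∀ r ∈ R, y * r = r * y := fun r hr =>
      ((Subgroup.mem_centralizer_iff.mp hyC) r hr).symm
    have h3 := b2 G p Q R y (hSp.to_le hQS) hRQ hcop h1 h2
    refine ⟨(hK y).mpr ⟨?_, hcop⟩, hyH⟩
    rw [Subgroup.mem_centralizer_iff]
    intro q hq
    exact (h3 q hq).symm
  have c5 : IsPGroup p A := hSp.to_le hAS
  have c6 : A ≤ Subgroup.normalizer ((K ⊓ H : Subgroup G) : Set G) := fun a ha =>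
    nz_inf (nz_pprime hK (hSN (hAS ha))) (hHnz a)
  have c8 : D2 ≤ Y := by
    intro d hd
    obtain ⟨x, hx, rfl⟩ := (hD2mem d).mp hd
    exact conj_mem_of_nz (nzY n hn) (hD0Y hx)
  have c10 : IsPGroup p D2 := by rw [hD2]; exact hD0p.map _
  have c11 : ∀ D : Subgroup G, D ≤ Y → IsPGroup p D → D0 ≤ D → D = D0 := by
    intro D hDY hDp hD0D
    rw [hD0eq] at hD0D ⊢
    refine sy G p S Y (Subgroup.normalizer (Q : Set G)) hS hSN ?_ (fun y hy => nzY y hy) D hDY hDp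
      hD0D
    rw [hY]; exact inf_le_right
  have c12 : Nat.card D2 = Nat.card D0 := by
    rw [hD2]
    exact Subgroup.card_map_of_injective (MulAut.conj n).injective
  have c13 : A ≤ Subgroup.normalizer (D0 : Set G) := fun a ha => nzD0 a (hAS ha)
  have c14 : A ≤ Subgroup.normalizer (D2 : Set G) := by
    intro a ha
    obtain ⟨x, hx, rfl⟩ := (hAmem a).mp ha
    have hxn := nzD0 x (hPS hx)
    apply nz_of_conj_mem
    · intro d hd
      obtain ⟨d0, hd0, rfl⟩ := (hD2mem d).mp hd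
      exact (hD2mem _).mpr ⟨x * d0 * x⁻¹, conj_mem_of_nz hxn hd0, by group⟩
    · intro d hd
      obtain ⟨d0, hd0, rfl⟩ := (hD2mem d).mp hd
      exact (hD2mem _).mpr ⟨x⁻¹ * d0 * x, conj_mem_of_nz' hxn hd0, by group⟩
  obtain ⟨k, hk, hkA, hkD⟩ := b3 G p Y (K ⊓ H) D0 D2 A c1 c2 c3 c4 c5 c6 hD0Y c8 hD0p c10 c11 c12
    c13 c14
  -- the new element
  have hn'Q : k * n ∈ Subgroup.normalizer (Q : Set G) := Subgroup.mul_mem _ (hKN hk.1) hn
  have hn'D : k * n ∈ Subgroup.normalizer (D0 : Set G) := by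
    apply Cfsg.Agent.Lib.Helper88.mem_normalizer_of_conj_le
    intro d hd
    have e : k * n * d * (k * n)⁻¹ = k * (n * d * n⁻¹) * k⁻¹ := by group
    rw [e]
    exact hkD _ ((hD2mem _).mpr ⟨d, hd, rfl⟩)
  refine ⟨k * n, nz_sup (nzR _ hn'Q) hn'D, ?_⟩
  intro x hx
  have ha : n * x * n⁻¹ ∈ A := (hAmem _).mpr ⟨x, hx, rfl⟩
  have hc := hkA _ ha
  calc k * n * x * (k * n)⁻¹ = k * (n * x * n⁻¹) * k⁻¹ := by group
    _ = (n * x * n⁻¹) * k * k⁻¹ := by rw [← hc]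
    _ = n * x * n⁻¹ := by group
    _ = g * x * g⁻¹ := hnx x hx

end Cfsg.Agent.Lib.Helper97.FC
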