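import Mathlib
import Cfsg.Agent.Lib.Helper97.FCDefs

/-!
# Interface for S5147 (constrained fusion systems pass to `L / Z(L)` for components `L`)
-/

set_option autoImplicit false

namespace Cfsg.Agent.Lib.Helper97.FC

universe u

/-- General form of EXTU: if `Y` is normalized by `N_G(Q)`, contained in it, and the `p'`-elements
of `Y` centralize `Q`, then `S ∩ Y` is "normal in `F_S(G)`" (through elements of `N_G(Q)`). -/
def ExtGenStmt.{v} : Prop :=
  ∀ (G : Type v) [Group G] [Finite G] (p : ℕ) [Fact p.Prime] (S Q Y : Subgroup G),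
    IsSyl p S → Ctl S Q → Y ≤ Subgroup.normalizer (Q : Set G) →
    Subgroup.normalizer (Q : Set G) ≤ Subgroup.normalizer (Y : Set G) →
    (∀ y ∈ Y, (orderOf y).Coprime p → ∀ q ∈ Q, y * q = q * y) →
    ∀ P : Subgroup G, P ≤ S → ∀ g : G, (∀ x ∈ P, g * x * g⁻¹ ∈ S) →
      ∃ n ∈ Subgroup.normalizer (Q : Set G),
        n ∈ Subgroup.normalizer ((S ⊓ Y : Subgroup G) : Set G) ∧
        ∀ x ∈ P, n * x * n⁻¹ = g * x * g⁻¹

/-- The statement for subnormal subgroups (general prime). -/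
def SubnStmt.{v} : Prop :=
  ∀ (G : Type v) [Group G] [Finite G] (p : ℕ) [Fact p.Prime] (S Q : Subgroup G),
    IsSyl p S → Ctl S Q → ∀ H : Subgroup G, H.IsSubnormal →
    IsSyl p (S.subgroupOf H) ∧ ∃ U : Subgroup ↥H, Ctl (S.subgroupOf H) U

/-- Passage to the quotient by the centre. -/
def QuotStmt.{v} : Prop :=
  ∀ (L : Type v) [Group L] [Finite L] (p : ℕ) [Fact p.Prime] (T Q : Subgroup L),
    IsSyl p T → Ctl T Q →
    IsSyl p (T.map (QuotientGroup.mk' (Subgroup.center L))) ∧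
      ∃ Q' : Subgroup (L ⧸ Subgroup.center L),
        Ctl (T.map (QuotientGroup.mk' (Subgroup.center L))) Q'

/-- The statement of S5147. -/
def Fin2Stmt.{v} : Prop :=
  ∀ (G : Type v) [Group G] [Finite G] (S : Sylow 2 G),
    (Cfsg.groupFusionSystem (S : Subgroup G)).IsConstrained 2 →
    ∀ L : Subgroup G, Cfsg.IsComponent L →
      (Cfsg.groupFusionSystem (((S : Subgroup G).subgroupOf L).map
        (QuotientGroup.mk' (Subgroup.center L)))).IsConstrained 2

theorem subn (hnorm : NormalStmt.{u}) (hstep : StepStmt.{u}) : SubnStmt.{u} := by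
  intro G _ _ p _ S Q hS hQ H hH
  induction hH with
  | top => exact hnorm G p S Q ⊤ hS hQ inferInstance
  | step H K hle hK hN ih => exact hstep G p S H K hle hN ih

theorem fin2 (hin : InStmt.{u}) (hout : OutStmt.{u}) (hsubn : SubnStmt.{u})
    (hquot : QuotStmt.{u}) : Fin2Stmt.{u} := by
  intro G _ _ S hF L hL
  obtain ⟨Q, hQ⟩ := hin G (S : Subgroup G) 2 hF
  obtain ⟨hsyl, U, hU⟩ := hsubn G 2 (S : Subgroup G) Q ⟨S, rfl⟩ hQ L hL.1
  obtain ⟨hsyl2, Q', hQ'⟩ := hquot ↥L 2 ((S : Subgroup G).subgroupOf L) U hsyl hU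
  exact hout (↥L ⧸ Subgroup.center ↥L) 2 _ Q' hsyl2 hQ'

end Cfsg.Agent.Lib.Helper97.FC
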