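import Mathlib
import Cfsg.Agent.Lib.Helper48.DCA
import Cfsg.Agent.Lib.Helper25.StChev3
import Cfsg.Agent.S0308

set_option autoImplicit false

namespace Cfsg.Agent.Lib.Helper48.DC

open Cfsg Cfsg.Lie
open Cfsg.Agent.Lib.Helper24 Cfsg.Agent.Lib.Helper25

variable {F : Type*} [Field F] [Fintype F]

/-- conjugating a matrix along a commutation relation -/
theorem hconj_conj_val {ι : Type*} [Fintype ι] [DecidableEq ι] (g v : GL ι F)
    (X Y : Matrix ι ι F) (hv : (v : Matrix ι ι F) = X)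
    (h : (g : Matrix ι ι F) * X = Y * (g : Matrix ι ι F)) :
    ((g * v * g⁻¹ : GL ι F) : Matrix ι ι F) = Y := by
  rw [Units.val_mul, Units.val_mul, hv, h, Matrix.mul_assoc, ← Units.val_mul, mul_inv_cancel,
    Units.val_one, Matrix.mul_one]

/-- `B` normalises `U`. -/
theorem hconj_borel_norm (D : ChevalleyDatum)
    (hD : D ∈ [chevG2, chevB2, chevD4, chevF4, chevE6, chevE7, chevE8])
    (b : GL D.Idx F) (hb : b ∈ D.borelSubgroup F) (u : GL D.Idx F) (hu : u ∈ D.posUnipotent F) :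
    b * u * b⁻¹ ∈ D.posUnipotent F := by
  have hD' : D ∈ chevList := hD
  have hHU : D.diagonalSubgroup F ≤ Subgroup.normalizer (D.posUnipotent F : Set (GL D.Idx F)) :=
    diagonal_le_normalizer_rootGen D hD' D.IsPosRoot (fun r hr => hr.1)
  obtain ⟨u', hu', h, hh, rfl⟩ := mem_sup_of_le_normalizer _ _ hHU b hb
  have h1 : h * u * h⁻¹ ∈ D.posUnipotent F :=
    ((Subgroup.mem_set_normalizer_iff.1 (hHU hh)) u).1 hu
  have e : u' * h * u * (u' * h)⁻¹ = u' * (h * u * h⁻¹) * u'⁻¹ := by group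
  rw [e]
  exact mul_mem (mul_mem hu' h1) (inv_mem hu')

/-- HCONJ -/
theorem Pg_hconj (D : ChevalleyDatum)
    (hD : D ∈ [chevG2, chevB2, chevD4, chevF4, chevE6, chevE7, chevE8]) (i : ℕ) (hi : i < D.rank) :
    ∀ x : ↥(D.group F), ∃ y ∈ Pg F D i, ∀ u ∈ Xg F D i, x * (y * u * y⁻¹) * x⁻¹ ∈ Ug F D := by
  have hD' : D ∈ chevList := hD
  have hp : D.simple i < D.nroots := simple_lt D hD' i hi
  have hpos := (upChk_all D hD i hi).1
  intro x
  obtain ⟨n, hnN, hx⟩ := Cfsg.Agent.S0308.result (chevBN (F := F) D hD) x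
  rw [DoubleCoset.mem_doubleCoset] at hx
  obtain ⟨b1, hb1, b2, hb2, rfl⟩ := hx
  have hb1' : (b1 : GL D.Idx F) ∈ D.borelSubgroup F := hb1
  have hb2' : (b2 : GL D.Idx F) ∈ D.borelSubgroup F := hb2
  have hn' : (n : GL D.Idx F) ∈ D.monomialSubgroup F := hnN
  obtain ⟨L, hL, hact⟩ := monomial_act D hD (orb_all D hD) (n : GL D.Idx F) hn'
  obtain ⟨c, hc, hcs⟩ := hact (D.simple i) hp
  have hw : wPi D L (D.simple i) < D.nroots := wPi_lt D hD L hL _ hp
  have hBP : ∀ b : ↥(D.group F), (b : GL D.Idx F) ∈ D.borelSubgroup F → b ∈ Pg F D i := by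
    intro b hb
    show (b : GL D.Idx F) ∈ D.parabolicSubgroup F (↑({i} : Finset ℕ) : Set ℕ)
    unfold ChevalleyDatum.parabolicSubgroup
    exact Subgroup.mem_sup_left hb
  rcases (sign_facts D hD _ hw).1 with hposw | hnegw
  · refine ⟨b2⁻¹, hBP _ (inv_mem hb2'), ?_⟩
    intro u hu
    have hu' : (u : GL D.Idx F) ∈ D.rootSubgroup F (D.simple i) := hu
    obtain ⟨t, ht⟩ := mem_rootSubgroup D hD (D.simple i) hp (u : GL D.Idx F) hu'
    rw [Subgroup.mem_subgroupOf]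
    have e : ((b1 * n * b2 * (b2⁻¹ * u * b2⁻¹⁻¹) * (b1 * n * b2)⁻¹ : ↥(D.group F)) :
        GL D.Idx F) = (b1 : GL D.Idx F) * ((n : GL D.Idx F) * (u : GL D.Idx F) *
          (n : GL D.Idx F)⁻¹) * (b1 : GL D.Idx F)⁻¹ := by
      have : b1 * n * b2 * (b2⁻¹ * u * b2⁻¹⁻¹) * (b1 * n * b2)⁻¹ = b1 * (n * u * n⁻¹) * b1⁻¹ := by
        group
      rw [this]
      rfl
    rw [e]
    apply hconj_borel_norm D hD _ hb1'
    apply Subgroup.subset_closure
    exact ⟨wPi D L (D.simple i), c * t, hposw, hconj_conj_val _ _ _ _ ht (hcs t)⟩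
  · obtain ⟨σ, hσdef⟩ : ∃ σ : ↥(D.group F), σ = stSigma (F := F) D hD i := ⟨_, rfl⟩
    have hσ := stSigma_val (F := F) D hD i hi
    rw [← hσdef] at hσ
    have hrefl : D.reflectRoot i (D.simple i) = D.neg (D.simple i) := by
      unfold ChevalleyDatum.reflectRoot
      simp
    have hnegp : D.neg (D.simple i) < D.nroots := (((sign_facts D hD _ hp).2.2.2).1 hpos).1
    obtain ⟨c', hc', hcs'⟩ := hact (D.neg (D.simple i)) hnegp
    have hwn : wPi D L (D.neg (D.simple i)) = D.neg (wPi D L (D.simple i)) :=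
      wPi_neg D hD L hL _ hp
    have hposw' : D.IsPosRoot (D.neg (wPi D L (D.simple i))) :=
      ((sign_facts D hD _ hw).2.2.1).1 hnegw
    have hσP : σ ∈ Pg F D i := by
      show (σ : GL D.Idx F) ∈ D.parabolicSubgroup F (↑({i} : Finset ℕ) : Set ℕ)
      unfold ChevalleyDatum.parabolicSubgroup
      apply Subgroup.mem_sup_right
      apply Subgroup.subset_closure
      exact ⟨i, by simp, hi, hσ⟩
    refine ⟨b2⁻¹ * σ, mul_mem (hBP _ (inv_mem hb2')) hσP, ?_⟩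
    intro u hu
    have hu' : (u : GL D.Idx F) ∈ D.rootSubgroup F (D.simple i) := hu
    obtain ⟨t, ht⟩ := mem_rootSubgroup D hD (D.simple i) hp (u : GL D.Idx F) hu'
    have hconj := n_simple_conj (F := F) D hD i hi (D.simple i) hp t
    rw [hrefl, ← hσ] at hconj
    rw [Subgroup.mem_subgroupOf]
    have e : ((b1 * n * b2 * (b2⁻¹ * σ * u * (b2⁻¹ * σ)⁻¹) * (b1 * n * b2)⁻¹ : ↥(D.group F)) :
        GL D.Idx F) = (b1 : GL D.Idx F) * ((n : GL D.Idx F) * ((σ : GL D.Idx F) *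
          (u : GL D.Idx F) * (σ : GL D.Idx F)⁻¹) * (n : GL D.Idx F)⁻¹) *
            (b1 : GL D.Idx F)⁻¹ := by
      have : b1 * n * b2 * (b2⁻¹ * σ * u * (b2⁻¹ * σ)⁻¹) * (b1 * n * b2)⁻¹ =
          b1 * (n * (σ * u * σ⁻¹) * n⁻¹) * b1⁻¹ := by
        group
      rw [this]
      rfl
    rw [e]
    apply hconj_borel_norm D hD _ hb1'
    apply Subgroup.subset_closure
    refine ⟨D.neg (wPi D L (D.simple i)), c' * (((nEta D i (D.simple i) : ℤ) : F) * t), hposw', ?_⟩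
    rw [← hwn]
    exact hconj_conj_val _ _ _ _ (hconj_conj_val _ _ _ _ ht hconj) (hcs' _)

end Cfsg.Agent.Lib.Helper48.DC
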