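import Mathlib
import Cfsg.Agent.Lib.Helper48.DCA
import Cfsg.Agent.Lib.Helper25.StChev3

set_option autoImplicit false

namespace Cfsg.Agent.Lib.Helper48.DC

open Cfsg Cfsg.Lie
open Cfsg.Agent.Lib.Helper24 Cfsg.Agent.Lib.Helper25

variable {F : Type*} [Field F] [Fintype F]

/-- `b n_i = a n_i b'` with `a ∈ X_i`, `b' ∈ B`, for `b ∈ B`. -/
theorem pdecomp_aux (D : ChevalleyDatum)
    (hD : D ∈ [chevG2, chevB2, chevD4, chevF4, chevE6, chevE7, chevE8]) (i : ℕ) (hi : i < D.rank)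
    (n : GL D.Idx F) (hn : (n : Matrix D.Idx D.Idx F) = D.nMat F (D.simple i) 1)
    (b : GL D.Idx F) (hb : b ∈ D.borelSubgroup F) :
    ∃ a ∈ D.rootSubgroup F (D.simple i), ∃ b' ∈ D.borelSubgroup F, b * n = a * n * b' := by
  have hD' : D ∈ chevList := hD
  have hp : D.simple i < D.nroots := simple_lt D hD' i hi
  obtain ⟨hpos, hchk⟩ := upChk_all D hD i hi
  have hHB : D.diagonalSubgroup F ≤ D.borelSubgroup F := le_sup_right
  have hUB : D.posUnipotent F ≤ D.borelSubgroup F := le_sup_left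
  have hmain := up_main (F := F) D hD i hi hpos hchk
  have hHU : D.diagonalSubgroup F ≤ Subgroup.normalizer (D.posUnipotent F : Set (GL D.Idx F)) :=
    diagonal_le_normalizer_rootGen D hD' D.IsPosRoot (fun r hr => hr.1)
  obtain ⟨u', hu', h, hh, rfl⟩ := mem_sup_of_le_normalizer _ _ hHU b hb
  rw [← hmain.2] at hu'
  obtain ⟨u, hu, x, hx, rfl⟩ := mem_sup_of_le_normalizer _ _ (le_trans le_sup_left hmain.1) u' hu'
  have hnU := np_mem_normalizer_up D hD i hi hchk n hn
  have hxN := hmain.1 (Subgroup.mem_sup_left hx)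
  have h0 : x⁻¹ * u * x ∈ Subgroup.closure {g : GL D.Idx F | ∃ (s : ℕ) (t : F), D.IsPosRoot s ∧
      s ≠ D.simple i ∧ (g : Matrix D.Idx D.Idx F) = D.x F s t} := by
    have := ((Subgroup.mem_set_normalizer_iff.1 (inv_mem hxN)) u).1 hu
    rw [inv_inv] at this
    exact this
  have h1 : n⁻¹ * (x⁻¹ * u * x) * n ∈ Subgroup.closure {g : GL D.Idx F | ∃ (s : ℕ) (t : F),
      D.IsPosRoot s ∧ s ≠ D.simple i ∧ (g : Matrix D.Idx D.Idx F) = D.x F s t} := by
    have := ((Subgroup.mem_set_normalizer_iff.1 (inv_mem hnU)) _).1 h0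
    rw [inv_inv] at this
    exact this
  have hnH := n_mem_normalizer_diagonal D hD' (D.simple i) hp n hn
  have h2 : n⁻¹ * h * n ∈ D.diagonalSubgroup F := by
    have := ((Subgroup.mem_set_normalizer_iff.1 (inv_mem hnH)) h).1 hh
    rw [inv_inv] at this
    exact this
  have h1' : n⁻¹ * (x⁻¹ * u * x) * n ∈ D.borelSubgroup F := by
    apply hUB
    rw [← hmain.2]
    exact Subgroup.mem_sup_left h1
  refine ⟨x, hx, (n⁻¹ * (x⁻¹ * u * x) * n) * (n⁻¹ * h * n), mul_mem h1' (hHB h2), ?_⟩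
  group

/-- PDECOMP -/
theorem Pg_decomp (D : ChevalleyDatum)
    (hD : D ∈ [chevG2, chevB2, chevD4, chevF4, chevE6, chevE7, chevE8]) (i : ℕ) (hi : i < D.rank) :
    ∃ n : ↥(D.group F), ∀ x ∈ Pg F D i,
      x ∈ Bg F D ∨ ∃ a ∈ Xg F D i, ∃ b ∈ Bg F D, x = a * n * b := by
  have hD' : D ∈ chevList := hD
  have hp : D.simple i < D.nroots := simple_lt D hD' i hi
  refine ⟨stSigma D hD i, ?_⟩
  intro x hx
  have hn := stSigma_val (F := F) D hD i hi
  obtain ⟨n, hndef⟩ : ∃ n : ↥(D.group F), n = stSigma D hD i := ⟨_, rfl⟩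
  rw [← hndef] at hn ⊢
  obtain ⟨P, hP⟩ := borel_union_doubleCoset D hD i hi (n : GL D.Idx F) hn
  have hxP : (x : GL D.Idx F) ∈ P := by
    have hx' : (x : GL D.Idx F) ∈ D.parabolicSubgroup F (↑({i} : Finset ℕ) : Set ℕ) := hx
    unfold ChevalleyDatum.parabolicSubgroup at hx'
    have hle : D.borelSubgroup F ⊔ Subgroup.closure {g : GL D.Idx F |
        ∃ j ∈ (↑({i} : Finset ℕ) : Set ℕ), j < D.rank ∧
          (g : Matrix D.Idx D.Idx F) = D.nMat F (D.simple j) 1} ≤ P := by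
      apply sup_le
      · intro b hb
        have : b ∈ (P : Set (GL D.Idx F)) := by
          rw [hP]
          exact Or.inl hb
        exact this
      · rw [Subgroup.closure_le]
        rintro g ⟨j, hj, hjr, hg⟩
        have hji : j = i := by simpa using hj
        subst hji
        have hgn : g = (n : GL D.Idx F) := Units.ext (by rw [hg, hn])
        show g ∈ (P : Set (GL D.Idx F))
        rw [hP, hgn]
        right
        rw [DoubleCoset.mem_doubleCoset]
        exact ⟨1, one_mem _, 1, one_mem _, by simp⟩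
    exact hle hx'
  have hxP' : (x : GL D.Idx F) ∈ (P : Set (GL D.Idx F)) := hxP
  rw [hP] at hxP'
  rcases hxP' with h | h
  · left
    exact h
  · right
    rw [DoubleCoset.mem_doubleCoset] at h
    obtain ⟨b1, hb1, b2, hb2, e⟩ := h
    obtain ⟨a, ha, b', hb', e'⟩ := pdecomp_aux D hD i hi (n : GL D.Idx F) hn b1 hb1
    obtain ⟨t, hat⟩ := mem_rootSubgroup D hD (D.simple i) hp a ha
    have haG : a ∈ D.group F := mem_group_of_val_x D hD' a _ t hat
    refine ⟨⟨a, haG⟩, ha, (⟨a, haG⟩ * n)⁻¹ * x, ?_, by group⟩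
    rw [Subgroup.mem_subgroupOf]
    have hval : (((⟨a, haG⟩ * n)⁻¹ * x : ↥(D.group F)) : GL D.Idx F) = b' * b2 := by
      rw [Subgroup.coe_mul, Subgroup.coe_inv, Subgroup.coe_mul, e, e']
      show (a * ↑n)⁻¹ * (a * ↑n * b' * b2) = b' * b2
      group
    rw [hval]
    exact mul_mem hb' hb2

end Cfsg.Agent.Lib.Helper48.DC
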