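import Cfsg.Agent.Lib.Helper52.PN4Defs
import Cfsg.Agent.Lib.Helper27.ChevDynD4b

/-!
Project PN4 (helper52, for S2715), piece CARDR (helper97): the range of `dgOut` for `D₄(q)`, `q` odd,
has order `4`.
-/

set_option autoImplicit false
set_option linter.unusedSectionVars false
set_option linter.unusedVariables false

namespace Cfsg.Agent.Lib.Helper52.PN4

open Cfsg Cfsg.Lie Matrix Cfsg.Agent.Lib.Helper99 Cfsg.Agent.Lib.Helper99.D4
open Cfsg.Agent.Lib.Helper27.PslnOut Cfsg.Agent.Lib.Helper27.DynOut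
  Cfsg.Agent.Lib.Helper27.ChevDyn Cfsg.Agent.Lib.Helper27.ChevDynI
  Cfsg.Agent.Lib.Helper27.ChevDynW Cfsg.Agent.Lib.Helper27.ChevDynExt
  Cfsg.Agent.Lib.Helper27.ChevDynStr Cfsg.Agent.Lib.Helper27.ChevDynD4
open Cfsg.Agent.Lib.Helper54

variable {F : Type*} [Field F]

-- PIECE CARDR
theorem card_dgOut_range [Fintype F] (p : ℕ) [Fact p.Prime] [CharP F p] (hp : p ≠ 2) :
    Nat.card ↥((okD (F := F) chevD4 hD4 p).dgOut (extD chevD4 hD4 p)).range = 4 := by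
  obtain ⟨n, -, hF⟩ := FiniteField.card F p
  have hgcd : Nat.gcd 2 (p ^ (n : ℕ) - 1) = 2 := by
    have hodd : Odd p := (Fact.out : p.Prime).odd_of_ne_two hp
    have h1 : Odd (p ^ (n : ℕ)) := hodd.pow
    have h2 : Even (p ^ (n : ℕ) - 1) := Nat.Odd.sub_odd h1 odd_one
    exact Nat.gcd_eq_left (even_iff_two_dvd.1 h2)
  have h1 : ((okD (F := F) chevD4 hD4 p).dgOut (extD chevD4 hD4 p)).ker.index =
      Nat.gcd 2 (Nat.card Fˣ) ^ 2 :=
    index_D4 (C := Fˣ) _ (dgOut_ker_iff chevD4 hD4 p)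
  rw [← Subgroup.index_ker, h1, card_units_D4 p (n : ℕ) hF, hgcd]
  norm_num

end Cfsg.Agent.Lib.Helper52.PN4
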