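import Mathlib
import Cfsg.Agent.Lib.Helper61.BlkDefs

/-!
# S5634 (blocks of dimension at least 2), piece K4 (helper97 for helper61): for every block
permutation a block permutation matrix of determinant 1.
-/

set_option autoImplicit false

namespace Cfsg.Agent.Lib.Helper61.Blk

open Matrix Cfsg.Agent.Lib.Helper97

section
variable {ι : Type} [Fintype ι] [DecidableEq ι] {F : Type*} [Field F] {t : ℕ}

omit [DecidableEq ι] in
/-- a permutation of the coordinates inducing `σ` on the blocks -/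
theorem k4_exists_perm (β : ι → Fin t) (m : ℕ)
    (hfib : ∀ l, Fintype.card {j // β j = l} = m) (σ : Equiv.Perm (Fin t)) :
    ∃ e : Equiv.Perm ι, ∀ j, β (e j) = σ (β j) := by
  obtain ⟨E, hE⟩ : ∃ E : ι ≃ Fin t × Fin m, ∀ j, (E j).1 = β j :=
    ⟨(Equiv.sigmaFiberEquiv β).symm.trans
      ((Equiv.sigmaCongrRight fun l => Fintype.equivFinOfCardEq (hfib l)).trans
        (Equiv.sigmaEquivProd _ _)), fun j => rfl⟩
  refine ⟨E.trans ((Equiv.prodCongr σ (Equiv.refl _)).trans E.symm), fun j => ?_⟩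
  rw [← hE, ← hE j]
  simp

omit [Fintype ι] in
theorem k4_perm_apply (e : Equiv.Perm ι) (i j : ι) :
    e.permMatrix F i j = if j = e i then 1 else 0 := by
  rw [Equiv.Perm.permMatrix, PEquiv.toMatrix_toPEquiv_apply, Pi.single_apply]

/-- the unit `P_{e⁻¹} D` for a sign vector `d` -/
theorem k4_exists_unit (e : Equiv.Perm ι) (d : ι → F) (hd : ∀ j, d j * d j = 1) :
    ∃ g : GL ι F, (g : Matrix ι ι F) = (e⁻¹).permMatrix F * Matrix.diagonal d ∧
      ((g⁻¹ : GL ι F) : Matrix ι ι F) = Matrix.diagonal d * e.permMatrix F := by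
  have hDD : Matrix.diagonal d * Matrix.diagonal d = (1 : Matrix ι ι F) := by
    rw [Matrix.diagonal_mul_diagonal]
    have h1 : (fun i => d i * d i) = fun _ => (1 : F) := funext hd
    rw [h1, Matrix.diagonal_one]
  have h1 : (e⁻¹).permMatrix F * e.permMatrix F = (1 : Matrix ι ι F) := by
    rw [← Matrix.permMatrix_mul, mul_inv_cancel, Matrix.permMatrix_one]
  have h2 : e.permMatrix F * (e⁻¹).permMatrix F = (1 : Matrix ι ι F) := by
    rw [← Matrix.permMatrix_mul, inv_mul_cancel, Matrix.permMatrix_one]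
  refine ⟨⟨(e⁻¹).permMatrix F * Matrix.diagonal d, Matrix.diagonal d * e.permMatrix F, ?_, ?_⟩,
    rfl, rfl⟩
  · calc (e⁻¹).permMatrix F * Matrix.diagonal d * (Matrix.diagonal d * e.permMatrix F)
        = (e⁻¹).permMatrix F * (Matrix.diagonal d * Matrix.diagonal d) * e.permMatrix F := by
          simp only [Matrix.mul_assoc]
      _ = 1 := by rw [hDD, Matrix.mul_one, h1]
  · calc Matrix.diagonal d * e.permMatrix F * ((e⁻¹).permMatrix F * Matrix.diagonal d)
        = Matrix.diagonal d * (e.permMatrix F * (e⁻¹).permMatrix F) * Matrix.diagonal d := by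
          simp only [Matrix.mul_assoc]
      _ = 1 := by rw [h2, Matrix.mul_one, hDD]

/-- K4 -/
theorem stepK4 (β : ι → Fin t) (m : ℕ) (hm : 0 < m)
    (hfib : ∀ l, Fintype.card {j // β j = l} = m) (σ : Equiv.Perm (Fin t)) :
    ∃ g : GL ι F, (g : Matrix ι ι F).det = 1 ∧ BMono β σ (g : Matrix ι ι F) ∧
      BMono β σ⁻¹ ((g⁻¹ : GL ι F) : Matrix ι ι F) := by
  obtain ⟨e, he⟩ := k4_exists_perm β m hfib σ
  -- the sign vector
  obtain ⟨d, hd, hdet⟩ : ∃ d : ι → F, (∀ j, d j * d j = 1) ∧
      ((e⁻¹).permMatrix F * Matrix.diagonal d).det = 1 := by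
    have hε : (((Equiv.Perm.sign e : ℤˣ) : ℤ) : F) * (((Equiv.Perm.sign e : ℤˣ) : ℤ) : F) = 1 := by
      rcases Int.units_eq_one_or (Equiv.Perm.sign e) with h | h <;> rw [h] <;> simp
    by_cases hι : Nonempty ι
    · obtain ⟨j₀⟩ := hι
      refine ⟨Function.update (fun _ => (1 : F)) j₀ (((Equiv.Perm.sign e : ℤˣ) : ℤ) : F), ?_, ?_⟩
      · intro j
        by_cases hj : j = j₀
        · rw [hj, Function.update_self]
          exact hε
        · rw [Function.update_of_ne hj, mul_one]
      · rw [Matrix.det_mul, Matrix.det_permutation, Matrix.det_diagonal,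
          Finset.prod_update_of_mem (Finset.mem_univ j₀), Finset.prod_const_one, mul_one,
          Equiv.Perm.sign_inv]
        exact hε
    · rw [not_nonempty_iff] at hι
      refine ⟨fun _ => 1, fun j => mul_one 1, ?_⟩
      exact Matrix.det_isEmpty
  obtain ⟨g, hg, hginv⟩ := k4_exists_unit e d hd
  refine ⟨g, ?_, ?_, ?_⟩
  · rw [hg]
    exact hdet
  · intro i j hij
    rw [hg, Matrix.mul_diagonal, k4_perm_apply] at hij
    by_cases h1 : j = e⁻¹ i
    · have h2 : e (e⁻¹ i) = i := by simp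
      rw [h1, ← he, h2]
    · rw [if_neg h1, zero_mul] at hij
      exact absurd rfl hij
  · intro i j hij
    rw [hginv, Matrix.diagonal_mul, k4_perm_apply] at hij
    by_cases h1 : j = e i
    · have h2 : σ⁻¹ (σ (β i)) = β i := by simp
      rw [h1, he, h2]
    · rw [if_neg h1, mul_zero] at hij
      exact absurd rfl hij

end

end Cfsg.Agent.Lib.Helper61.Blk
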