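import Mathlib
import Cfsg.Prelude.Def_GeometricClasses
import Cfsg.Agent.Lib.Helper71.OK1
import Cfsg.Agent.Lib.Helper52.Siegel
import Cfsg.Agent.Lib.Helper57.OKGEOM1
import Cfsg.Agent.Lib.Helper71.OKE2a
import Cfsg.Agent.Lib.Helper51.OKE2b

/-!
# S5701, piece E3 (helper97, for helper71): `ZW_of_cfg2_bad`

Configuration (ii) in the "bad" case: all Eichler matrices `E(a u, b u)` lie in `M`.
-/

set_option autoImplicit false
set_option linter.unusedVariables false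
set_option linter.unusedSectionVars false

namespace Cfsg.Agent.Lib.Helper97.OKE3

open Matrix Cfsg.Agent.Lib.Helper71.SpK Cfsg.Agent.Lib.Helper71.OK
open Cfsg.Agent.Lib.Helper57.OKGEOM1 (finrank_perp_ge)
open Cfsg.Agent.Lib.Helper71.OKE2a (cfg2_comm)
open Cfsg.Agent.Lib.Helper51.OKE2b (comm_eich)

/-! ## The nilpotent parts `N(a,b) = E(a u, b u) - 1` -/

section Nm

variable {ι : Type} [Fintype ι] [DecidableEq ι] {F : Type*} [Field F]
  {Q : QuadraticForm F (ι → F)} {L : Type*} [Field L] [Algebra F L]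
  (S : KO (QuadraticMap.polar ⇑Q) L)

/-- `N(a,b) = E(a u, b u) - 1`. -/
def Nm (u : ι → F) (a b : L) : Matrix ι ι F :=
  Cfsg.Agent.Lib.Helper52.eichMat Q (S.φ a *ᵥ u) (S.φ b *ᵥ u) - 1

lemma Nm_mulVec (h2 : (2 : F) ≠ 0) {u : ι → F} (huu : S.B u u = 0) (a b : L) (x : ι → F) :
    Nm S u a b *ᵥ x = QuadraticMap.polar ⇑Q (S.φ b *ᵥ u) x • (S.φ a *ᵥ u) -
      QuadraticMap.polar ⇑Q (S.φ a *ᵥ u) x • (S.φ b *ᵥ u) := by
  have hQb : Q (S.φ b *ᵥ u) = 0 :=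
    S.Q_eq_zero h2 (by rw [S.B_act, S.B_act_right, huu, mul_zero, mul_zero])
  unfold Nm
  rw [Matrix.sub_mulVec, Matrix.one_mulVec, Cfsg.Agent.Lib.Helper52.eichMat_mulVec, hQb, zero_mul,
    zero_smul]
  abel

lemma Nm_add_right (h2 : (2 : F) ≠ 0) {u : ι → F} (huu : S.B u u = 0) (a b b' : L) :
    Nm S u a (b + b') = Nm S u a b + Nm S u a b' := by
  apply Matrix.mulVec_injective
  funext x
  rw [Matrix.add_mulVec, Nm_mulVec S h2 huu, Nm_mulVec S h2 huu, Nm_mulVec S h2 huu,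
    S.φ_add_mulVec, QuadraticMap.polar_add_left]
  module

lemma Nm_swap (h2 : (2 : F) ≠ 0) {u : ι → F} (huu : S.B u u = 0) (a b : L) :
    Nm S u b a = - Nm S u a b := by
  apply Matrix.mulVec_injective
  funext x
  rw [Matrix.neg_mulVec, Nm_mulVec S h2 huu, Nm_mulVec S h2 huu]
  abel

lemma Nm_self (h2 : (2 : F) ≠ 0) {u : ι → F} (huu : S.B u u = 0) (a : L) :
    Nm S u a a = 0 := by
  apply Matrix.mulVec_injective
  funext x
  rw [Matrix.zero_mulVec, Nm_mulVec S h2 huu, sub_self]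

lemma Nm_algebraMap_right (h2 : (2 : F) ≠ 0) {u : ι → F} (huu : S.B u u = 0) (a b : L) (t : F) :
    Nm S u a (algebraMap F L t * b) = t • Nm S u a b := by
  apply Matrix.mulVec_injective
  funext x
  rw [Matrix.smul_mulVec, Nm_mulVec S h2 huu, Nm_mulVec S h2 huu, S.φ_mul_mulVec,
    S.φ_algebraMap_mulVec, QuadraticMap.polar_smul_left]
  simp only [smul_eq_mul]
  module

lemma Nm_zero_right (h2 : (2 : F) ≠ 0) {u : ι → F} (huu : S.B u u = 0) (a : L) :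
    Nm S u a 0 = 0 := by
  have h := Nm_add_right S h2 huu a 0 0
  rw [add_zero] at h
  exact left_eq_add.mp h

lemma Nm_neg_right (h2 : (2 : F) ≠ 0) {u : ι → F} (huu : S.B u u = 0) (a b : L) :
    Nm S u a (-b) = - Nm S u a b := by
  have h := Nm_add_right S h2 huu a b (-b)
  rw [add_neg_cancel, Nm_zero_right S h2 huu] at h
  exact eq_neg_of_add_eq_zero_right h.symm

lemma Nm_sub_right (h2 : (2 : F) ≠ 0) {u : ι → F} (huu : S.B u u = 0) (a b b' : L) :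
    Nm S u a (b - b') = Nm S u a b - Nm S u a b' := by
  rw [sub_eq_add_neg, Nm_add_right S h2 huu, Nm_neg_right S h2 huu, sub_eq_add_neg]

/-- `A` maps everything into the line of `u` and kills that line. -/
def IsN (u : ι → F) (A : Matrix ι ι F) : Prop :=
  (∀ x, A *ᵥ x ∈ S.line u) ∧ ∀ y ∈ S.line u, A *ᵥ y = 0

lemma IsN_Nm (h2 : (2 : F) ≠ 0) {u : ι → F} (huu : S.B u u = 0) (a b : L) :
    IsN S u (Nm S u a b) := by
  constructor
  · intro x
    rw [Nm_mulVec S h2 huu]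
    exact Submodule.sub_mem _ (Submodule.smul_mem _ _ (S.act_mem_line a u))
      (Submodule.smul_mem _ _ (S.act_mem_line b u))
  · intro y hy
    rw [Nm_mulVec S h2 huu, S.f_line_line huu (S.act_mem_line b u) hy,
      S.f_line_line huu (S.act_mem_line a u) hy, zero_smul, zero_smul, sub_zero]

lemma IsN_add {u : ι → F} {A A' : Matrix ι ι F} (hA : IsN S u A) (hA' : IsN S u A') :
    IsN S u (A + A') := by
  constructor
  · intro x
    rw [Matrix.add_mulVec]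
    exact Submodule.add_mem _ (hA.1 x) (hA'.1 x)
  · intro y hy
    rw [Matrix.add_mulVec, hA.2 y hy, hA'.2 y hy, add_zero]

lemma IsN_neg {u : ι → F} {A : Matrix ι ι F} (hA : IsN S u A) : IsN S u (-A) := by
  constructor
  · intro x
    rw [Matrix.neg_mulVec]
    exact Submodule.neg_mem _ (hA.1 x)
  · intro y hy
    rw [Matrix.neg_mulVec, hA.2 y hy, neg_zero]

lemma IsN_mul {u : ι → F} {A A' : Matrix ι ι F} (hA : IsN S u A) (hA' : IsN S u A') :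
    A * A' = 0 := by
  apply Matrix.mulVec_injective
  funext x
  rw [← Matrix.mulVec_mulVec, Matrix.zero_mulVec]
  exact hA.2 _ (hA'.1 x)

/-- `1 + A ∈ M` for a matrix `A` of type `IsN`. -/
def PM (M : Subgroup (GL ι F)) (u : ι → F) (A : Matrix ι ι F) : Prop :=
  IsN S u A ∧ ∃ γ ∈ M, (γ : Matrix ι ι F) = 1 + A

lemma PM_add {M : Subgroup (GL ι F)} {u : ι → F} {A A' : Matrix ι ι F} (hA : PM S M u A)
    (hA' : PM S M u A') : PM S M u (A + A') := by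
  obtain ⟨hN, γ, hγ, hγA⟩ := hA
  obtain ⟨hN', γ', hγ', hγA'⟩ := hA'
  refine ⟨IsN_add S hN hN', γ * γ', M.mul_mem hγ hγ', ?_⟩
  have e : (1 + A) * (1 + A') = 1 + (A + A') + A * A' := by noncomm_ring
  rw [Units.val_mul, hγA, hγA', e, IsN_mul S hN hN', add_zero]

lemma PM_neg {M : Subgroup (GL ι F)} {u : ι → F} {A : Matrix ι ι F} (hA : PM S M u A) :
    PM S M u (-A) := by
  obtain ⟨hN, γ, hγ, hγA⟩ := hA
  refine ⟨IsN_neg S hN, γ⁻¹, M.inv_mem hγ, ?_⟩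
  have h1 : (γ : Matrix ι ι F) * (1 + -A) = 1 := by
    have e : (1 + A) * (1 + -A) = 1 - A * A := by noncomm_ring
    rw [hγA, e, IsN_mul S hN hN, sub_zero]
  calc ((γ⁻¹ : GL ι F) : Matrix ι ι F)
      = ((γ⁻¹ : GL ι F) : Matrix ι ι F) * ((γ : Matrix ι ι F) * (1 + -A)) := by
        rw [h1, mul_one]
    _ = 1 + -A := by
        rw [← mul_assoc, ← Units.val_mul, inv_mul_cancel, Units.val_one, one_mul]

lemma PM_sub {M : Subgroup (GL ι F)} {u : ι → F} {A A' : Matrix ι ι F} (hA : PM S M u A)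
    (hA' : PM S M u A') : PM S M u (A - A') := by
  rw [sub_eq_add_neg]
  exact PM_add S hA (PM_neg S hA')

lemma EM_of_PM {M : Subgroup (GL ι F)} {u : ι → F} {a b : L} (h : PM S M u (Nm S u a b)) :
    EM Q M (S.φ a *ᵥ u) (S.φ b *ᵥ u) := by
  obtain ⟨-, γ, hγ, hγA⟩ := h
  refine ⟨γ, hγ, ?_⟩
  rw [hγA]
  unfold Nm
  abel

lemma PM_of_mul (h2 : (2 : F) ≠ 0) {M : Subgroup (GL ι F)} {u : ι → F} (huu : S.B u u = 0)
    {a b a' b' : L} {γ : GL ι F} (hγ : γ ∈ M)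
    (h : (γ : Matrix ι ι F) = Cfsg.Agent.Lib.Helper52.eichMat Q (S.φ a *ᵥ u) (S.φ b *ᵥ u) *
      Cfsg.Agent.Lib.Helper52.eichMat Q (S.φ a' *ᵥ u) (S.φ b' *ᵥ u)) :
    PM S M u (Nm S u a b + Nm S u a' b') := by
  refine ⟨IsN_add S (IsN_Nm S h2 huu a b) (IsN_Nm S h2 huu a' b'), γ, hγ, ?_⟩
  have e1 : Cfsg.Agent.Lib.Helper52.eichMat Q (S.φ a *ᵥ u) (S.φ b *ᵥ u) = 1 + Nm S u a b := by
    unfold Nm; abel
  have e2 : Cfsg.Agent.Lib.Helper52.eichMat Q (S.φ a' *ᵥ u) (S.φ b' *ᵥ u) = 1 + Nm S u a' b' := by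
    unfold Nm; abel
  have e : (1 + Nm S u a b) * (1 + Nm S u a' b') =
      1 + (Nm S u a b + Nm S u a' b') + Nm S u a b * Nm S u a' b' := by noncomm_ring
  rw [h, e1, e2, e, IsN_mul S (IsN_Nm S h2 huu a b) (IsN_Nm S h2 huu a' b'), add_zero]

end Nm

/-! ## Step 1 : the vectors `z_τ` -/

theorem exists_z_tau {ι : Type} [Fintype ι] [DecidableEq ι] {F : Type*} [Field F] [Finite F]
    {Q : QuadraticForm F (ι → F)} {L : Type*} [Field L] [Algebra F L] [FiniteDimensional F L]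
    (S : KO (QuadraticMap.polar ⇑Q) L) (h2 : (2 : F) ≠ 0)
    (hQ : (QuadraticMap.polarBilin Q).Nondegenerate)
    (hr : (Module.finrank F L).Prime) (hd : 4 * Module.finrank F L ≤ Fintype.card ι) (M : Subgroup (GL ι F)) (hNM : S.NO Q ≤ M) (hMΩ : M ≤ Cfsg.Geo.omegaGL ⇑Q) {u : ι → F} {h : GL ι F} {c' : L} {z₀ : ι → F}
    (hD : S.Cfg2D M u h c' z₀)
    (hbad : ∀ z z' : ι → F, S.B z u = 0 → (∀ y ∈ gim (S.line u) h⁻¹, S.B y z = 0) →
      S.B z' u = 0 → (∀ y ∈ gim (S.line u) h, S.B y z' = 0) →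
      S.B ((h : Matrix ι ι F) *ᵥ z) z' = 0) (τ : L) :
    ∃ z : ι → F, S.B z u = 0 ∧ (∀ y ∈ gim (S.line u) h⁻¹, S.B y z = 0) ∧
      (h : Matrix ι ι F) *ᵥ z = S.φ τ *ᵥ z₀ := by
  obtain ⟨⟨hhM, hu, huu, hperp, hfin⟩, hc', hz₀W, hz₀u, hE1a, hE1b⟩ := hD
  -- a vector of the line outside `h (L u)`
  have hx₁ : ∃ x₁ ∈ S.line u, x₁ ∉ gim (S.line u) h := by
    by_contra hcon
    push Not at hcon
    have hle : S.line u ≤ gim (S.line u) h := hcon
    have h1 : S.line u ⊓ gim (S.line u) h = S.line u := inf_eq_left.mpr hle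
    rw [h1, S.finrank_line hu] at hfin
    omega
  obtain ⟨x₁, hx₁l, hx₁W⟩ := hx₁
  obtain ⟨y₀', hy₀'⟩ : ∃ y₀' : ι → F, y₀' = ((h⁻¹ : GL ι F) : Matrix ι ι F) *ᵥ x₁ := ⟨_, rfl⟩
  have hy₀'W : y₀' ∈ gim (S.line u) h⁻¹ := by
    rw [hy₀']
    exact mulVec_mem_gim h⁻¹ hx₁l
  have hy₀'l : y₀' ∉ S.line u := by
    intro hc
    apply hx₁W
    have h1 := mulVec_mem_gim h hc
    rwa [hy₀', gl_mulVec_inv'] at h1
  -- decomposition of `h⁻¹ (L u)`
  have hA : Module.finrank F ↥(S.line u ⊓ gim (S.line u) h⁻¹) + 1 = Module.finrank F L := by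
    have h1 : S.line u ⊓ gim (S.line u) h⁻¹ = gim (gim (S.line u) h ⊓ S.line u) h⁻¹ := by
      rw [gim_inf, gim_gim_inv, inf_comm]
    rw [h1, finrank_gim, inf_comm]
    exact hfin
  have hWm : Module.finrank F ↥(gim (S.line u) h⁻¹) = Module.finrank F L := by
    rw [finrank_gim, S.finrank_line hu]
  have hsup : (S.line u ⊓ gim (S.line u) h⁻¹) ⊔ Submodule.span F {y₀'} = gim (S.line u) h⁻¹ := by
    apply Submodule.eq_of_le_of_finrank_le
    · exact sup_le inf_le_right ((Submodule.span_singleton_le_iff_mem _ _).mpr hy₀'W)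
    · have hlt : S.line u ⊓ gim (S.line u) h⁻¹ <
          (S.line u ⊓ gim (S.line u) h⁻¹) ⊔ Submodule.span F {y₀'} := by
        apply lt_of_le_of_ne le_sup_left
        intro heq
        have h1 : y₀' ∈ S.line u ⊓ gim (S.line u) h⁻¹ := by
          rw [heq]
          exact Submodule.mem_sup_right (Submodule.mem_span_singleton_self _)
        exact hy₀'l h1.1
      have h3 := Submodule.finrank_lt_finrank_of_lt hlt
      omega
  -- the subspace `P''`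
  have hP''dim : 2 * Module.finrank F L ≤ Module.finrank F ↥(S.perp (S.perp ⊤ u) y₀') := by
    have h1 := finrank_perp_ge S h2 hQ hr hd ⊤ u
    have h3 := finrank_perp_ge S h2 hQ hr hd (S.perp ⊤ u) y₀'
    rw [finrank_top, Module.finrank_fintype_fun_eq_card] at h1
    omega
  have hP''sub : ∀ z ∈ S.perp (S.perp ⊤ u) y₀',
      S.B z u = 0 ∧ ∀ y ∈ gim (S.line u) h⁻¹, S.B y z = 0 := by
    intro z hz
    rw [S.mem_perp, S.mem_perp] at hz
    obtain ⟨⟨-, hzu⟩, hzy⟩ := hz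
    refine ⟨hzu, fun y hy => ?_⟩
    rw [← hsup] at hy
    obtain ⟨d, hd', e, he, rfl⟩ := Submodule.mem_sup.mp hy
    obtain ⟨c, rfl⟩ := Submodule.mem_span_singleton.mp he
    rw [S.B_add, S.B_smul_left, S.B_symm y₀' z, hzy, mul_zero, add_zero, S.B_symm]
    exact S.B_of_line hzu hd'.1
  -- (c) : `h z` lies in `L u + L z₀`
  have hc : ∀ z : ι → F, S.B z u = 0 → (∀ y ∈ gim (S.line u) h⁻¹, S.B y z = 0) →
      ∃ a b : L, S.φ a *ᵥ u + S.φ b *ᵥ z₀ = (h : Matrix ι ι F) *ᵥ z := by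
    intro z hzu hzW
    by_contra hcon
    push Not at hcon
    obtain ⟨z', hz'u, hz'z₀, hz'1⟩ := S.exists_dual2 hQ hcon
    have hz'u' : S.B z' u = 0 := by rw [S.B_symm]; exact hz'u
    have hz'W : ∀ y ∈ gim (S.line u) h, S.B y z' = 0 := by
      intro y hy
      obtain ⟨w, hw, rfl⟩ := mem_gim'.mp hy
      obtain ⟨k, rfl⟩ := S.mem_line.mp hw
      obtain ⟨d, hd', hd''⟩ := hE1a k
      rw [hd'', S.B_add, S.B_smul_left, hz'z₀, mul_zero, add_zero, S.B_symm]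
      exact S.B_of_line hz'u' hd'.1
    have h1 := hbad z z' hzu hzW hz'u' hz'W
    rw [hz'1] at h1
    exact one_ne_zero h1
  -- (d) : dimension count
  have hY : Module.finrank F ↥(LinearMap.range ((S.actL u).coprod (S.actL z₀))) ≤
      2 * Module.finrank F L := by
    have h1 := LinearMap.finrank_range_le ((S.actL u).coprod (S.actL z₀))
    rw [Module.finrank_prod] at h1
    omega
  have hle : gim (S.perp (S.perp ⊤ u) y₀') h ≤ LinearMap.range ((S.actL u).coprod (S.actL z₀)) := by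
    intro v hv
    obtain ⟨z, hz, rfl⟩ := mem_gim'.mp hv
    obtain ⟨a, b, hab⟩ := hc z (hP''sub z hz).1 (hP''sub z hz).2
    refine ⟨(a, b), ?_⟩
    rw [← hab]
    rfl
  have heq : gim (S.perp (S.perp ⊤ u) y₀') h = LinearMap.range ((S.actL u).coprod (S.actL z₀)) :=
    Submodule.eq_of_le_of_finrank_le hle (by rw [finrank_gim]; omega)
  have hmem : S.φ τ *ᵥ z₀ ∈ gim (S.perp (S.perp ⊤ u) y₀') h := by
    rw [heq]
    refine ⟨(0, τ), ?_⟩
    rw [LinearMap.coprod_apply, map_zero, zero_add]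
    rfl
  obtain ⟨z, hz, hz'⟩ := mem_gim'.mp hmem
  exact ⟨z, (hP''sub z hz).1, (hP''sub z hz).2, hz'⟩

/-! ## Step 2 : the elements (♠) -/

theorem spade {ι : Type} [Fintype ι] [DecidableEq ι] {F : Type*} [Field F] [Finite F]
    {Q : QuadraticForm F (ι → F)} {L : Type*} [Field L] [Algebra F L] [FiniteDimensional F L]
    (S : KO (QuadraticMap.polar ⇑Q) L) (h2 : (2 : F) ≠ 0)
    (hQ : (QuadraticMap.polarBilin Q).Nondegenerate)
    (hr : (Module.finrank F L).Prime) (hd : 4 * Module.finrank F L ≤ Fintype.card ι) (M : Subgroup (GL ι F)) (hNM : S.NO Q ≤ M) (hMΩ : M ≤ Cfsg.Geo.omegaGL ⇑Q) {u : ι → F} {h : GL ι F} {c' : L} {z₀ : ι → F}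
    (hD : S.Cfg2D M u h c' z₀)
    (hbad : ∀ z z' : ι → F, S.B z u = 0 → (∀ y ∈ gim (S.line u) h⁻¹, S.B y z = 0) →
      S.B z' u = 0 → (∀ y ∈ gim (S.line u) h, S.B y z' = 0) →
      S.B ((h : Matrix ι ι F) *ᵥ z) z' = 0) (μ τ b : L) :
    ∃ t : F, ∃ γ ∈ M, (γ : Matrix ι ι F) =
      Cfsg.Agent.Lib.Helper52.eichMat Q (S.φ μ *ᵥ u)
          (S.φ ((τ - algebraMap F L t) * b) *ᵥ u) *
        Cfsg.Agent.Lib.Helper52.eichMat Q (S.φ (τ * μ) *ᵥ u) (S.φ (-b) *ᵥ u) := by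
  obtain ⟨z, hzu, hzW, hhz⟩ := exists_z_tau S h2 hQ hr hd M hNM hMΩ hD hbad τ
  have hD' := hD
  obtain ⟨⟨hhM, hu, huu, hperp, hfin⟩, hc', hz₀W, hz₀u, hE1a, hE1b⟩ := hD
  obtain ⟨z'₀, hz'₀u, hz'₀1⟩ := S.exists_dual hQ hz₀u
  have hz₀u' : S.B z₀ u = 0 := hperp z₀ hz₀W
  have hz'u : S.B (S.φ b *ᵥ z'₀) u = 0 := by rw [S.B_act, S.B_symm, hz'₀u, mul_zero]
  obtain ⟨g, hgM, hg⟩ := cfg2_comm S h2 hQ hr hd M hNM hMΩ hD' hzu hzW hz'u
  have e1 : S.B z₀ (S.φ b *ᵥ z'₀) = b := by rw [S.B_act_right, hz'₀1, mul_one]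
  have e2 : S.B ((h : Matrix ι ι F) *ᵥ z) (S.φ b *ᵥ z'₀) = τ * b := by rw [hhz, S.B_act, e1]
  refine ⟨Q z, ?_⟩
  have hz₁u : S.B (S.φ μ *ᵥ z'₀) u = 0 := by rw [S.B_act, S.B_symm, hz'₀u, mul_zero]
  have hw₂ : S.B (S.φ τ *ᵥ z₀) u = 0 := by rw [S.B_act, hz₀u', mul_zero]
  have key := comm_eich S h2 hQ hr hd M hNM hMΩ huu hgM (w₁ := z₀) (w₂ := S.φ τ *ᵥ z₀)
    (c₁ := (τ - algebraMap F L (Q z)) * b) (c₂ := -b) hz₀u' hw₂ (fun x hx => by
      rw [hg x hx, e1, e2, hhz]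
      congr 3
      ring) hz₁u
  have e3 : S.B (S.φ μ *ᵥ z'₀) z₀ = μ := by rw [S.B_act, S.B_symm, hz'₀1, mul_one]
  have e4 : S.B (S.φ μ *ᵥ z'₀) (S.φ τ *ᵥ z₀) = τ * μ := by rw [S.B_act_right, e3]
  rw [e3, e4] at key
  exact key

/-! ## Step 3 : the statement -/

theorem ZW_of_cfg2_bad {ι : Type} [Fintype ι] [DecidableEq ι] {F : Type*} [Field F] [Finite F]
    {Q : QuadraticForm F (ι → F)} {L : Type*} [Field L] [Algebra F L] [FiniteDimensional F L]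
    (S : KO (QuadraticMap.polar ⇑Q) L) (h2 : (2 : F) ≠ 0)
    (hQ : (QuadraticMap.polarBilin Q).Nondegenerate)
    (hr : (Module.finrank F L).Prime) (hd : 4 * Module.finrank F L ≤ Fintype.card ι) (M : Subgroup (GL ι F)) (hNM : S.NO Q ≤ M) (hMΩ : M ≤ Cfsg.Geo.omegaGL ⇑Q) {u : ι → F} {h : GL ι F} {c' : L} {z₀ : ι → F}
    (hD : S.Cfg2D M u h c' z₀)
    (hbad : ∀ z z' : ι → F, S.B z u = 0 → (∀ y ∈ gim (S.line u) h⁻¹, S.B y z = 0) →
      S.B z' u = 0 → (∀ y ∈ gim (S.line u) h, S.B y z' = 0) →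
      S.B ((h : Matrix ι ι F) *ᵥ z) z' = 0) : S.ZW M u := by
  have huu : S.B u u = 0 := hD.1.2.2.1
  have hPM : ∀ μ τ b : L, ∃ t : F,
      PM S M u (Nm S u μ ((τ - algebraMap F L t) * b) + Nm S u (τ * μ) (-b)) := by
    intro μ τ b
    obtain ⟨t, γ, hγ, hγe⟩ := spade S h2 hQ hr hd M hNM hMΩ hD hbad μ τ b
    exact ⟨t, PM_of_mul S h2 huu hγ hγe⟩
  have h2L : (2 : L) ≠ 0 := by
    have h1 : algebraMap F L 2 ≠ 0 := (map_ne_zero (algebraMap F L)).mpr h2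
    rwa [map_ofNat] at h1
  -- (i)
  have hi : ∀ m : L, PM S M u (Nm S u 1 m) := by
    intro m
    obtain ⟨t, ht⟩ := hPM 1 (2⁻¹ * m) 1
    have e : Nm S u 1 ((2⁻¹ * m - algebraMap F L t) * 1) + Nm S u (2⁻¹ * m * 1) (-1) =
        Nm S u 1 m := by
      rw [mul_one, mul_one, Nm_sub_right S h2 huu, Nm_neg_right S h2 huu,
        ← Nm_swap S h2 huu (2⁻¹ * m) 1]
      have e1 : Nm S u 1 (algebraMap F L t) = 0 := by
        have h1 := Nm_algebraMap_right S h2 huu 1 1 t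
        rw [mul_one, Nm_self S h2 huu, smul_zero] at h1
        exact h1
      rw [e1, sub_zero, ← Nm_add_right S h2 huu]
      congr 1
      rw [← two_mul, mul_inv_cancel_left₀ h2L]
    rwa [e] at ht
  -- (ii)
  intro a b
  obtain ⟨t, ht⟩ := hPM a b 1
  have e : Nm S u a ((b - algebraMap F L t) * 1) + Nm S u (b * a) (-1) =
      Nm S u a b + (Nm S u 1 (algebraMap F L t * a) + Nm S u 1 (b * a)) := by
    rw [mul_one, Nm_sub_right S h2 huu, Nm_neg_right S h2 huu, ← Nm_swap S h2 huu (b * a) 1,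
      Nm_algebraMap_right S h2 huu 1 a t]
    have e1 : Nm S u a (algebraMap F L t) = - (t • Nm S u 1 a) := by
      have h1 := Nm_algebraMap_right S h2 huu a 1 t
      rw [mul_one] at h1
      rw [h1, Nm_swap S h2 huu 1 a, smul_neg]
    rw [e1]
    abel
  rw [e] at ht
  have h3 := PM_sub S ht (PM_add S (hi (algebraMap F L t * a)) (hi (b * a)))
  rw [add_sub_cancel_right] at h3
  exact EM_of_PM S h3

end Cfsg.Agent.Lib.Helper97.OKE3
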