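import Mathlib
import Cfsg.Prelude.Def_GeometricClasses
import Cfsg.Agent.Lib.Helper97.Transv
import Cfsg.Agent.Lib.Helper97.TransvM
import Cfsg.Agent.Lib.Helper71.TP0
import Cfsg.Agent.Lib.Helper71.TP1

/-!
# S5637, piece P2A (helper97 for helper71): from an element of `M ∖ N` acting trivially on
`V/(U⊗w)` and on `U⊗w` extract `1 + α ⊗ wψᵀ ∈ M` with `α` non-scalar.
-/

set_option autoImplicit false

namespace Cfsg.Agent.Lib.Helper97.TPP2A

open Matrix Cfsg.Agent.Lib.Helper71.TP Cfsg.Agent.Lib.Helper97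
open scoped Kronecker

variable {a b : ℕ} {F : Type*} [Field F]

/-- the commutator computation -/
theorem p2a_comm (g n : GL (Fin a × Fin b) F)
    (τL : (Fin a × Fin b → F) →ₗ[F] (Fin a → F)) (w w₁ ψ₁ : Fin b → F)
    (α : Matrix (Fin a) (Fin a) F)
    (hg : ∀ v, act g v = v + pt (τL v) w)
    (hτw : ∀ u, τL (pt u w) = 0)
    (hα : ∀ u, τL (pt u w₁) = α *ᵥ u)
    (h1 : ψ₁ ⬝ᵥ w = 0) (h2 : ψ₁ ⬝ᵥ w₁ = 0)
    (hn : ∀ v, act n v = v + pt (ctr ψ₁ v) w₁) :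
    ∀ v, act (n * g * n⁻¹ * g⁻¹) v = v - pt (α *ᵥ ctr ψ₁ v) w := by
  have hginv : ∀ v, act g⁻¹ v = v - pt (τL v) w := by
    intro v
    have h3 : act g (v - pt (τL v) w) = v := by
      rw [act_sub, hg v, hg (pt (τL v) w), hτw, pt_zero_left, add_zero, add_sub_cancel_right]
    calc act g⁻¹ v = act g⁻¹ (act g (v - pt (τL v) w)) := by rw [h3]
      _ = v - pt (τL v) w := act_inv_act _ _
  have hninv : ∀ v, act n⁻¹ v = v - pt (ctr ψ₁ v) w₁ := by
    intro v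
    have h3 : act n (v - pt (ctr ψ₁ v) w₁) = v := by
      rw [hn, ctr_sub, ctr_pt, h2, zero_smul, sub_zero, sub_add_cancel]
    calc act n⁻¹ v = act n⁻¹ (act n (v - pt (ctr ψ₁ v) w₁)) := by rw [h3]
      _ = v - pt (ctr ψ₁ v) w₁ := act_inv_act _ _
  intro v
  rw [act_mul, act_mul, act_mul, hginv, hninv, hg, hn]
  simp only [ctr_sub, ctr_add, ctr_pt, h1, h2, zero_smul, map_sub, hτw, hα, sub_zero,
    add_zero, pt_sub_left]
  abel

/-- a non-zero functional vanishing at two given vectors (`b ≥ 3`) -/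
theorem p2a_exists_psi (hb : 3 ≤ b) (w w₁ : Fin b → F) :
    ∃ ψ : Fin b → F, ψ ≠ 0 ∧ ψ ⬝ᵥ w = 0 ∧ ψ ⬝ᵥ w₁ = 0 := by
  obtain ⟨f, hf⟩ : ∃ f : (Fin b → F) →ₗ[F] (F × F),
      ∀ ψ, f ψ = (ψ ⬝ᵥ w, ψ ⬝ᵥ w₁) :=
    ⟨{ toFun := fun ψ => (ψ ⬝ᵥ w, ψ ⬝ᵥ w₁)
       map_add' := fun x y => by simp [add_dotProduct]
       map_smul' := fun c x => by simp [smul_dotProduct] }, fun ψ => rfl⟩
  have hlt : Module.finrank F (F × F) < Module.finrank F (Fin b → F) := by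
    rw [Module.finrank_prod, Module.finrank_self, Module.finrank_fin_fun]
    omega
  have hker := LinearMap.ker_ne_bot_of_finrank_lt (f := f) hlt
  obtain ⟨ψ, hψ, hψ0⟩ := (Submodule.ne_bot_iff _).mp hker
  rw [LinearMap.mem_ker, hf] at hψ
  exact ⟨ψ, hψ0, (Prod.mk.inj hψ).1, (Prod.mk.inj hψ).2⟩

/-- P2A -/
theorem exists_RM_nonscalar (ha : 1 ≤ a) (hb : 3 ≤ b) (M : Subgroup (GL (Fin a × Fin b) F))
    (hNM : NN a b F ≤ M) (g : GL (Fin a × Fin b) F) (hg : g ∈ M) (w : Fin b → F) (hw : w ≠ 0)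
    (hR : InR g w) (hgN : g ∉ NN a b F) :
    ∃ (α : Matrix (Fin a) (Fin a) F) (ψ : Fin b → F), ψ ≠ 0 ∧ ψ ⬝ᵥ w = 0 ∧
      (∀ c : F, α ≠ c • (1 : Matrix (Fin a) (Fin a) F)) ∧ RM M α w ψ := by
  classical
  -- a functional with value `1` at `w`
  obtain ⟨j₀, hj₀⟩ : ∃ j₀, w j₀ ≠ 0 := by
    by_contra hcon
    push Not at hcon
    exact hw (funext hcon)
  obtain ⟨ψ₀, hψ₀⟩ : ∃ ψ₀ : Fin b → F, ψ₀ ⬝ᵥ w = 1 := by
    refine ⟨(w j₀)⁻¹ • Pi.single j₀ 1, ?_⟩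
    rw [smul_dotProduct, single_dotProduct, one_mul, smul_eq_mul, inv_mul_cancel₀ hj₀]
  -- the map `τ`
  obtain ⟨τL, hτL⟩ : ∃ τL : (Fin a × Fin b → F) →ₗ[F] (Fin a → F),
      ∀ v, τL v = ctr ψ₀ (g.1 *ᵥ v - v) := by
    refine ⟨(ctrL ψ₀).comp (Matrix.toLin' (g.1 - 1)), ?_⟩
    intro v
    rw [LinearMap.comp_apply, Matrix.toLin'_apply, ctrL_apply, Matrix.sub_mulVec,
      Matrix.one_mulVec]
  have hgv : ∀ v, act g v = v + pt (τL v) w := by
    intro v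
    obtain ⟨u, hu⟩ := mem_fib.mp (hR.1 v)
    have h1 : τL v = u := by
      rw [hτL, hu, ctr_pt, hψ₀, one_smul]
    rw [h1, ← hu]
    show g.1 *ᵥ v = v + (g.1 *ᵥ v - v)
    abel
  have hτw : ∀ u, τL (pt u w) = 0 := by
    intro u
    rw [hτL, hR.2 _ (pt_mem_fib u w), sub_self, ctr_zero]
  -- the matrices `α_j`
  obtain ⟨αj, hαj⟩ : ∃ αj : Fin b → Matrix (Fin a) (Fin a) F,
      ∀ j u, τL (pt u (Pi.single j 1)) = αj j *ᵥ u := by
    refine ⟨fun j => LinearMap.toMatrix' (τL.comp (ptL (Pi.single j 1))), ?_⟩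
    intro j u
    rw [← Matrix.toLin'_apply, Matrix.toLin'_toMatrix', LinearMap.comp_apply, ptL_apply]
  -- some `α_j` is not scalar
  have hex : ∃ j, ∀ c : F, αj j ≠ c • (1 : Matrix (Fin a) (Fin a) F) := by
    by_contra hcon
    push Not at hcon
    choose c hc using hcon
    have hτc : ∀ v, τL v = ctr c v := by
      intro v
      have h1 : ∀ i j, τL (pt (Pi.single i (1 : F)) (Pi.single j (1 : F))) =
          ctrL c (pt (Pi.single i (1 : F)) (Pi.single j (1 : F))) := by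
        intro i j
        rw [hαj, hc, ctrL_apply, ctr_pt, dotProduct_single, mul_one, Matrix.smul_mulVec,
          Matrix.one_mulVec]
      have h2 : τL v = ctrL c v := by
        conv_lhs => rw [eq_sum_pt v]
        conv_rhs => rw [eq_sum_pt v]
        simp only [map_sum, map_smul, h1]
      rw [h2, ctrL_apply]
    have hcw : c ⬝ᵥ w = 0 := by
      have h1 := hτw (Pi.single (⟨0, ha⟩ : Fin a) (1 : F))
      rw [hτc, ctr_pt] at h1
      have h2 := congrFun h1 ⟨0, ha⟩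
      simpa using h2
    apply hgN
    have hgr : g = rootG (a := a) w c hcw := by
      apply Units.ext
      rw [rootG_val]
      apply Matrix.toLin'.injective
      apply LinearMap.ext
      intro v
      rw [Matrix.toLin'_apply, Matrix.toLin'_apply, Matrix.add_mulVec, Matrix.one_mulVec,
        kv_mulVec, Matrix.one_mulVec, ← hτc]
      exact hgv v
    rw [hgr]
    exact rootG_mem_NN w c hcw
  obtain ⟨j₁, hj₁⟩ := hex
  obtain ⟨ψ₁, hψ₁0, hψ₁w, hψ₁w₁⟩ := p2a_exists_psi hb w (Pi.single j₁ (1 : F))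
  have hn : rootG (a := a) (Pi.single j₁ (1 : F)) ψ₁ hψ₁w₁ ∈ M :=
    hNM (rootG_mem_NN _ _ _)
  have hcomm := p2a_comm g (rootG (a := a) (Pi.single j₁ (1 : F)) ψ₁ hψ₁w₁) τL w
    (Pi.single j₁ (1 : F)) ψ₁ (αj j₁) hgv hτw (hαj j₁) hψ₁w hψ₁w₁
    (fun v => act_rootG _ _ _ v)
  refine ⟨-αj j₁, ψ₁, hψ₁0, hψ₁w, ?_, ?_⟩
  · intro c hc
    apply hj₁ (-c)
    rw [neg_smul, ← hc, neg_neg]
  · intro t ht
    have ht' : t = rootG (a := a) (Pi.single j₁ (1 : F)) ψ₁ hψ₁w₁ * g *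
        (rootG (a := a) (Pi.single j₁ (1 : F)) ψ₁ hψ₁w₁)⁻¹ * g⁻¹ := by
      apply Units.ext
      rw [ht]
      apply Matrix.toLin'.injective
      apply LinearMap.ext
      intro v
      rw [Matrix.toLin'_apply, Matrix.toLin'_apply, Matrix.add_mulVec, Matrix.one_mulVec,
        kv_mulVec, Matrix.neg_mulVec, pt_neg_left]
      have h3 := hcomm v
      rw [act_def] at h3
      rw [h3]
      abel
    rw [ht']
    exact M.mul_mem (M.mul_mem (M.mul_mem hn hg) (M.inv_mem hn)) (M.inv_mem hg)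

end Cfsg.Agent.Lib.Helper97.TPP2A
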