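import Mathlib
import Cfsg.Prelude.Def_GeometricClasses
import Cfsg.Agent.Lib.Helper71.Asch0
import Cfsg.Agent.Lib.Helper71.Asch5

/-!
# S5630, piece SL2 (helper97 for helper71): the Stone–von Neumann basis

For `L` of symplectic type, a maximal abelian subgroup `A` of `L` and a common eigenvector `v₀`
of `A`, the vectors `x v₀` for `x` running over coset representatives of `A` in `L` form a basis
of `F^n`, in which `L` is monomial with entries roots of unity.
-/

set_option autoImplicit false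

namespace Cfsg.Agent.Lib.Helper97.ASSL2

open Matrix Cfsg.Geo Cfsg.Agent.Lib.Helper71.Asch
open scoped Kronecker commutatorElement

variable {n : ℕ} {F : Type*} [Field F]

/-- simultaneous eigenvectors of a family of matrices with pairwise different characters are
linearly independent -/
theorem li_of_chars {ι κ : Type*} (M : κ → Matrix (Fin n) (Fin n) F) (u : ι → Fin n → F)
    (χ : ι → κ → F) (hu : ∀ q, u q ≠ 0) (hev : ∀ q k, M k *ᵥ u q = χ q k • u q)
    (hdist : ∀ q q', q ≠ q' → ∃ k, χ q k ≠ χ q' k) : LinearIndependent F u := by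
  classical
  rw [linearIndependent_iff']
  intro s
  induction s using Finset.induction_on with
  | empty =>
    intro g _ i hi
    exact absurd hi (Finset.notMem_empty i)
  | insert j s hj ih =>
    intro g hg
    rw [Finset.sum_insert hj] at hg
    have hs : ∀ i ∈ s, g i = 0 := by
      intro i hi
      have hij : i ≠ j := fun e => hj (e ▸ hi)
      obtain ⟨k, hne⟩ := hdist i j hij
      obtain ⟨T, hT⟩ : ∃ T : (Fin n → F) →ₗ[F] (Fin n → F),
          T = Matrix.toLin' (M k) - χ j k • LinearMap.id := ⟨_, rfl⟩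
      have hTu : ∀ q, T (u q) = (χ q k - χ j k) • u q := by
        intro q
        rw [hT, LinearMap.sub_apply, Matrix.toLin'_apply, hev q k, LinearMap.smul_apply,
          LinearMap.id_apply, sub_smul]
      have h2 := congrArg T hg
      rw [map_add, map_smul, map_sum, map_zero, hTu j, sub_self, zero_smul, smul_zero,
        zero_add] at h2
      have h1 : ∑ q ∈ s, (g q * (χ q k - χ j k)) • u q = 0 := by
        rw [← h2]
        apply Finset.sum_congr rfl
        intro q _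
        rw [map_smul, hTu q, smul_smul]
      have h3 := ih _ h1 i hi
      rcases mul_eq_zero.mp h3 with h | h
      · exact h
      · exact absurd (sub_eq_zero.mp h) hne
    intro i hi
    rcases Finset.mem_insert.mp hi with rfl | hi
    · rw [Finset.sum_eq_zero (fun k hk => by rw [hs k hk, zero_smul]), add_zero] at hg
      exact (smul_eq_zero.mp hg).resolve_right (hu i)
    · exact hs i hi

/-- a linearly independent family permuted up to scalars by an irreducible group is a basis -/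
theorem card_of_invariant {ι : Type*} [Finite ι] [Nonempty ι] (L : Subgroup (GL (Fin n) F))
    (hirr : ActsIrreducibly (matrixSet L)) (u : ι → Fin n → F) (hli : LinearIndependent F u)
    (hmon : ∀ g ∈ L, ∀ q : ι, ∃ (q' : ι) (c : F), g.1 *ᵥ u q = c • u q') : Nat.card ι = n := by
  classical
  haveI := Fintype.ofFinite ι
  have hW := hirr (Submodule.span F (Set.range u)) (by
    rintro _ ⟨g, hg, rfl⟩
    rw [Submodule.map_span_le]
    rintro _ ⟨q, rfl⟩
    obtain ⟨q', c, hc⟩ := hmon g hg q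
    rw [Matrix.toLin'_apply, hc]
    exact Submodule.smul_mem _ _ (Submodule.subset_span ⟨q', rfl⟩))
  rcases hW with h | h
  · exfalso
    obtain ⟨q⟩ := ‹Nonempty ι›
    have h1 : u q ∈ Submodule.span F (Set.range u) := Submodule.subset_span ⟨q, rfl⟩
    rw [h, Submodule.mem_bot] at h1
    exact hli.ne_zero q h1
  · have h1 := finrank_span_eq_card hli
    rw [h, finrank_top, Module.finrank_fin_fun] at h1
    rw [Nat.card_eq_fintype_card, ← h1]

/-- a basis permuted by `L` up to scalars of a subfield realises `L` over that subfield -/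
theorem realisable_of_monomial {ι : Type*} [Finite ι] (L : Subgroup (GL (Fin n) F))
    (u : ι → Fin n → F) (hli : LinearIndependent F u) (hcard : Nat.card ι = n) (F₁ : Subfield F)
    (hmon : ∀ g ∈ L, ∀ q : ι, ∃ (q' : ι) (c : F), c ∈ F₁ ∧ g.1 *ᵥ u q = c • u q') :
    RealisableOver F₁ (matrixSet L) := by
  classical
  haveI := Fintype.ofFinite ι
  have hc : Fintype.card (Fin n) = Fintype.card ι := by
    rw [Fintype.card_fin, ← hcard, Nat.card_eq_fintype_card]
  obtain ⟨e⟩ : Nonempty (Fin n ≃ ι) := ⟨Fintype.equivOfCardEq hc⟩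
  obtain ⟨P, hPdef⟩ : ∃ P : Matrix (Fin n) (Fin n) F, P = Matrix.of fun i j => u (e j) i :=
    ⟨_, rfl⟩
  have hP : IsUnit P := by
    rw [← Matrix.linearIndependent_cols_iff_isUnit]
    have h1 : P.col = u ∘ e := by
      ext j i
      rw [hPdef]
      rfl
    rw [h1]
    exact hli.comp e e.injective
  obtain ⟨Pu, hPu⟩ := hP
  refine ⟨Pu⁻¹, ?_⟩
  rintro _ ⟨g, hg, rfl⟩ i j
  choose π c hc1 hc2 using fun j => hmon g hg (e j)
  have hM : g.1 * P = P * Matrix.of (fun i j => if i = e.symm (π j) then c j else 0) := by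
    ext i j
    rw [Matrix.mul_apply, Matrix.mul_apply]
    have h1 : ∑ k, g.1 i k * P k j = (g.1 *ᵥ u (e j)) i := by
      rw [hPdef]
      rfl
    rw [h1, hc2 j, Finset.sum_eq_single (e.symm (π j))]
    · rw [Matrix.of_apply, if_pos rfl, hPdef, Matrix.of_apply, Equiv.apply_symm_apply,
        Pi.smul_apply, smul_eq_mul, mul_comm]
    · intro k _ hk
      rw [Matrix.of_apply, if_neg hk, mul_zero]
    · intro hk
      exact absurd (Finset.mem_univ _) hk
  have hfin : ((Pu⁻¹ : GL (Fin n) F) : Matrix (Fin n) (Fin n) F) * g.1 *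
      (((Pu⁻¹)⁻¹ : GL (Fin n) F) : Matrix (Fin n) (Fin n) F) =
      Matrix.of (fun i j => if i = e.symm (π j) then c j else 0) := by
    rw [inv_inv, hPu, mul_assoc, hM, ← mul_assoc, ← hPu, ← Units.val_mul, inv_mul_cancel,
      Units.val_one, one_mul]
  show (((Pu⁻¹ : GL (Fin n) F) : Matrix (Fin n) (Fin n) F) * g.1 *
      (((Pu⁻¹)⁻¹ : GL (Fin n) F) : Matrix (Fin n) (Fin n) F)) i j ∈ F₁
  rw [hfin, Matrix.of_apply]
  split_ifs
  · exact hc1 j
  · exact F₁.zero_mem

variable [Fintype F]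

/-- SL2 -/
theorem SL2 (hn : 1 ≤ n) (H L : Subgroup (GL (Fin n) F)) (h : SymT H L) (z : ℕ)
    (hexp : ∀ x ∈ L, x ^ z = 1) (A : Subgroup (GL (Fin n) F)) (v₀ : Fin n → F) (hAL : A ≤ L)
    (hAc : ∀ a ∈ A, ∀ b ∈ A, a * b = b * a)
    (hAm : ∀ x ∈ L, (∀ a ∈ A, x * a = a * x) → x ∈ A) (hv : v₀ ≠ 0)
    (hev : ∀ a ∈ A, ∃ c : F, a.1 *ᵥ v₀ = c • v₀) :
    n * Nat.card ↥A = Nat.card ↥L ∧
    ∀ F₁ : Subfield F, (∀ c : F, c ^ z = 1 → c ∈ F₁) → RealisableOver F₁ (matrixSet L) := by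
  classical
  choose! lam hlam using hev
  have hinj : ∀ (x : GL (Fin n) F) (v : Fin n → F), x.1 *ᵥ v = 0 → v = 0 := by
    intro x v hxv
    have h1 := congrArg (fun w => (x⁻¹ : GL (Fin n) F).1 *ᵥ w) hxv
    simpa [Matrix.mulVec_mulVec, ← Units.val_mul] using h1
  have hL2 : ∀ a ∈ A, ∀ c : F, a.1 *ᵥ v₀ = c • v₀ → c = lam a := by
    intro a ha c hc
    have h1 : (c - lam a) • v₀ = 0 := by rw [sub_smul, ← hc, ← hlam a ha, sub_self]
    rcases smul_eq_zero.mp h1 with h2 | h2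
    · exact sub_eq_zero.mp h2
    · exact absurd h2 hv
  have hL1 : ∀ a ∈ A, lam a ≠ 0 := by
    intro a ha h0
    have h1 := hlam a ha
    rw [h0, zero_smul] at h1
    exact hv (hinj a v₀ h1)
  have hpow : ∀ a ∈ A, ∀ k : ℕ, (a ^ k).1 *ᵥ v₀ = lam a ^ k • v₀ := by
    intro a ha k
    induction k with
    | zero => simp
    | succ k ih =>
      rw [pow_succ, Units.val_mul, ← Matrix.mulVec_mulVec, hlam a ha, Matrix.mulVec_smul, ih,
        smul_smul, pow_succ, mul_comm]
  have hL1' : ∀ a ∈ A, lam a ^ z = 1 := by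
    intro a ha
    have h1 := hpow a ha z
    rw [hexp a (hAL ha), Units.val_one, Matrix.one_mulVec] at h1
    have h2 : (1 - lam a ^ z) • v₀ = 0 := by
      rw [sub_smul, one_smul, ← h1, sub_self]
    rcases smul_eq_zero.mp h2 with h3 | h3
    · exact (sub_eq_zero.mp h3).symm
    · exact absurd h3 hv
  have hscal : ∀ s ∈ scalars (Fin n) F, ∀ b : GL (Fin n) F, s * b = b * s := by
    intro s hs b
    obtain ⟨c, hc⟩ := (mem_scalars_iff s).mp hs
    apply Units.ext
    rw [Units.val_mul, Units.val_mul, hc, Matrix.smul_mul, Matrix.mul_smul, one_mul, mul_one]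
  have hcomm : ∀ x ∈ L, ∀ y ∈ L, ⁅x, y⁆ ∈ scalars (Fin n) F := fun x hx y hy =>
    h.comm (Subgroup.commutator_mem_commutator hx hy)
  have hK1 : ∀ x ∈ L, ∀ a ∈ A, x⁻¹ * a * x ∈ A := by
    intro x hx a ha
    have ht : ⁅a⁻¹, x⁻¹⁆ ∈ A := by
      apply hAm
      · exact commutator_le_self L
          (Subgroup.commutator_mem_commutator (L.inv_mem (hAL ha)) (L.inv_mem hx))
      · intro b _
        exact hscal _ (hcomm _ (L.inv_mem (hAL ha)) _ (L.inv_mem hx)) b
    have e : x⁻¹ * a * x = a * ⁅a⁻¹, x⁻¹⁆ := by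
      rw [commutatorElement_def]
      group
    rw [e]
    exact A.mul_mem ha ht
  have hK2 : ∀ x ∈ L, ∀ a ∈ A,
      a.1 *ᵥ (x.1 *ᵥ v₀) = lam (x⁻¹ * a * x) • (x.1 *ᵥ v₀) := by
    intro x hx a ha
    have e : a * x = x * (x⁻¹ * a * x) := by group
    rw [Matrix.mulVec_mulVec, ← Units.val_mul, e, Units.val_mul, ← Matrix.mulVec_mulVec,
      hlam _ (hK1 x hx a ha), Matrix.mulVec_smul]
  have hK3 : ∀ x ∈ L, ∀ x' ∈ L,
      (∀ a ∈ A, lam (x⁻¹ * a * x) = lam (x'⁻¹ * a * x')) → x * x'⁻¹ ∈ A := by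
    intro x hx x' hx' hall
    apply hAm _ (L.mul_mem hx (L.inv_mem hx'))
    intro a ha
    have hs := hcomm _ (L.inv_mem (hAL ha)) _ (L.mul_mem hx (L.inv_mem hx'))
    obtain ⟨c, hc⟩ := (mem_scalars_iff _).mp hs
    have e : x'⁻¹ * a * x' = (x⁻¹ * a * x) * ⁅a⁻¹, x * x'⁻¹⁆ := by
      have h1 : x⁻¹ * ⁅a⁻¹, x * x'⁻¹⁆ * x = ⁅a⁻¹, x * x'⁻¹⁆ := by
        rw [mul_assoc, hscal _ hs x, ← mul_assoc, inv_mul_cancel, one_mul]
      rw [← h1, commutatorElement_def]
      group
    have h2 : (x'⁻¹ * a * x').1 *ᵥ v₀ = ((c : F) * lam (x⁻¹ * a * x)) • v₀ := by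
      rw [e, Units.val_mul, ← Matrix.mulVec_mulVec, hc, Matrix.smul_mulVec, Matrix.one_mulVec,
        Matrix.mulVec_smul, hlam _ (hK1 x hx a ha), smul_smul]
    have h3 := hL2 _ (hK1 x' hx' a ha) _ h2
    rw [← hall a ha] at h3
    have hc1 : (c : F) = 1 :=
      mul_right_cancel₀ (hL1 _ (hK1 x hx a ha)) (h3.trans (one_mul _).symm)
    have hs1 : ⁅a⁻¹, x * x'⁻¹⁆ = 1 := by
      apply Units.ext
      rw [hc, hc1, one_smul, Units.val_one]
    rw [commutatorElement_eq_one_iff_commute] at hs1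
    have h4 : Commute a (x * x'⁻¹) := by
      have h5 := hs1.inv_left
      rwa [inv_inv] at h5
    exact h4.eq.symm
  -- the family of vectors
  obtain ⟨y, hydef⟩ : ∃ y : ↥L ⧸ A.subgroupOf L → GL (Fin n) F,
      y = fun q => (((Quotient.out q : ↥L)⁻¹ : ↥L) : GL (Fin n) F) := ⟨_, rfl⟩
  have hy : ∀ q, y q ∈ L := by
    intro q
    rw [hydef]
    exact ((Quotient.out q : ↥L)⁻¹).2
  obtain ⟨u, hudef⟩ : ∃ u : ↥L ⧸ A.subgroupOf L → Fin n → F, u = fun q => (y q).1 *ᵥ v₀ :=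
    ⟨_, rfl⟩
  have hmon : ∀ g ∈ L, ∀ q : ↥L ⧸ A.subgroupOf L,
      ∃ (q' : ↥L ⧸ A.subgroupOf L) (c : F), c ^ z = 1 ∧ g.1 *ᵥ u q = c • u q' := by
    intro g hg q
    obtain ⟨hh, hhe⟩ := QuotientGroup.mk_out_eq_mul (A.subgroupOf L)
      ((Quotient.out q : ↥L) * (⟨g, hg⟩ : ↥L)⁻¹)
    obtain ⟨q', hq'⟩ : ∃ q' : ↥L ⧸ A.subgroupOf L,
        q' = QuotientGroup.mk ((Quotient.out q : ↥L) * (⟨g, hg⟩ : ↥L)⁻¹) := ⟨_, rfl⟩
    rw [← hq'] at hhe
    have ha : ((hh : ↥L) : GL (Fin n) F) ∈ A := Subgroup.mem_subgroupOf.mp hh.2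
    have e1 : g * y q = ((hh : ↥L) : GL (Fin n) F) * y q' := by
      rw [hydef]
      show g * (((Quotient.out q : ↥L)⁻¹ : ↥L) : GL (Fin n) F) =
        ((hh : ↥L) : GL (Fin n) F) * (((Quotient.out q' : ↥L)⁻¹ : ↥L) : GL (Fin n) F)
      rw [hhe]
      simp [mul_assoc]
    refine ⟨q', lam ((y q')⁻¹ * ((hh : ↥L) : GL (Fin n) F) * y q'), ?_, ?_⟩
    · exact hL1' _ (hK1 _ (hy q') _ ha)
    · rw [hudef]
      show g.1 *ᵥ ((y q).1 *ᵥ v₀) = _ • ((y q').1 *ᵥ v₀)
      rw [Matrix.mulVec_mulVec, ← Units.val_mul, e1, Units.val_mul, ← Matrix.mulVec_mulVec]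
      exact hK2 _ (hy q') _ ha
  have hdist : ∀ q q' : ↥L ⧸ A.subgroupOf L, q ≠ q' →
      ∃ a : ↥A, lam ((y q)⁻¹ * (a : GL (Fin n) F) * y q) ≠
        lam ((y q')⁻¹ * (a : GL (Fin n) F) * y q') := by
    intro q q' hne
    by_contra hcon
    push Not at hcon
    have h1 := hK3 (y q) (hy q) (y q') (hy q') (fun a ha => hcon ⟨a, ha⟩)
    apply hne
    calc q = QuotientGroup.mk (Quotient.out q) := (QuotientGroup.out_eq' q).symm
      _ = QuotientGroup.mk (Quotient.out q') := by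
        rw [QuotientGroup.eq, Subgroup.mem_subgroupOf]
        rw [hydef] at h1
        simpa using h1
      _ = q' := QuotientGroup.out_eq' q'
  have hu : ∀ q, u q ≠ 0 := by
    intro q h0
    rw [hudef] at h0
    exact hv (hinj (y q) v₀ h0)
  have hli : LinearIndependent F u :=
    li_of_chars (fun a : ↥A => (a : GL (Fin n) F).1) u
      (fun q a => lam ((y q)⁻¹ * (a : GL (Fin n) F) * y q)) hu
      (fun q a => by
        rw [hudef]
        exact hK2 _ (hy q) _ a.2) hdist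
  haveI : Nonempty (↥L ⧸ A.subgroupOf L) := ⟨QuotientGroup.mk 1⟩
  have hcard : Nat.card (↥L ⧸ A.subgroupOf L) = n :=
    card_of_invariant L h.abs.1 u hli (fun g hg q => by
      obtain ⟨q', c, -, hc⟩ := hmon g hg q
      exact ⟨q', c, hc⟩)
  refine ⟨?_, ?_⟩
  · rw [Subgroup.card_eq_card_quotient_mul_card_subgroup (A.subgroupOf L), hcard,
      Nat.card_congr (Subgroup.subgroupOfEquivOfLe hAL).toEquiv]
  · intro F₁ hF₁
    exact realisable_of_monomial L u hli hcard F₁ (fun g hg q => by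
      obtain ⟨q', c, hc1, hc⟩ := hmon g hg q
      exact ⟨q', c, hF₁ c hc1, hc⟩)

end Cfsg.Agent.Lib.Helper97.ASSL2
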