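import Mathlib
import Cfsg.Agent.Lib.Helper97.FCDefs
import Cfsg.Agent.Lib.Helper97.FCQDefs
import Cfsg.Agent.Lib.Helper97.FCExtU
import Cfsg.Agent.Lib.Helper12.Ward2
import Cfsg.Agent.Lib.Helper88.GrpSyl

/-!
# S5147, piece EXTGEN: general form of EXTU
-/

set_option autoImplicit false

namespace Cfsg.Agent.Lib.Helper97.FC

open Cfsg.Agent.Lib.Helper12.Ward

universe u

theorem extGen (b1 : B1Stmt.{u}) (b3 : B3Stmt.{u}) (sy : SylInfStmt.{u}) : ExtGenStmt.{u} := by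
  intro G _ _ p _ S Q Y hS hQ hYN hNY hYp P hPS g hg
  obtain ⟨hQS, hExt, hCen⟩ := hQ
  have hSp : IsPGroup p S := by
    obtain ⟨R, rfl⟩ := hS
    exact R.isPGroup'
  have hSN : S ≤ Subgroup.normalizer (Q : Set G) := ext_le_normalizer hQS hExt
  obtain ⟨K, hK⟩ := b1 G p S Q hS ⟨hQS, hExt, hCen⟩
  have hKcent : K ≤ Subgroup.centralizer (Q : Set G) := fun k hk => ((hK k).mp hk).1
  have hKN : K ≤ Subgroup.normalizer (Q : Set G) :=
    hKcent.trans (Subgroup.centralizer_le_normalizer _)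
  have nzD0 : ∀ s ∈ S, s ∈ Subgroup.normalizer ((S ⊓ Y : Subgroup G) : Set G) := fun s hs =>
    nz_inf (Subgroup.le_normalizer hs) (hNY (hSN hs))
  obtain ⟨n, hn, hnx⟩ := hExt P hPS g hg
  obtain ⟨A, hA⟩ : ∃ A : Subgroup G, A = P.map (MulAut.conj n).toMonoidHom := ⟨_, rfl⟩
  obtain ⟨D2, hD2⟩ : ∃ D2 : Subgroup G, D2 = (S ⊓ Y).map (MulAut.conj n).toMonoidHom := ⟨_, rfl⟩
  have hAmem : ∀ a, a ∈ A ↔ ∃ x ∈ P, n * x * n⁻¹ = a := by
    intro a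
    rw [hA, Subgroup.mem_map]
    rfl
  have hD2mem : ∀ a, a ∈ D2 ↔ ∃ x ∈ S ⊓ Y, n * x * n⁻¹ = a := by
    intro a
    rw [hD2, Subgroup.mem_map]
    rfl
  have hAS : A ≤ S := by
    intro a ha
    obtain ⟨x, hx, rfl⟩ := (hAmem a).mp ha
    rw [hnx x hx]
    exact hg x hx
  have hD0p : IsPGroup p (S ⊓ Y : Subgroup G) := hSp.to_le inf_le_left
  have c1 : K ⊓ Y ≤ Y := inf_le_right
  have c2 : Y ≤ Subgroup.normalizer ((K ⊓ Y : Subgroup G) : Set G) := fun y hy =>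
    nz_inf (nz_pprime hK (hYN hy)) (Subgroup.le_normalizer hy)
  have c3 : ∀ k ∈ K ⊓ Y, (orderOf k).Coprime p := fun k hk => ((hK k).mp hk.1).2
  have c4 : ∀ y ∈ Y, (orderOf y).Coprime p → y ∈ K ⊓ Y := by
    intro y hy hcop
    have h3 := hYp y hy hcop
    have hyC : y ∈ Subgroup.centralizer (Q : Set G) := by
      rw [Subgroup.mem_centralizer_iff]
      intro q hq
      exact (h3 q hq).symm
    exact Subgroup.mem_inf.mpr ⟨(hK y).mpr ⟨hyC, hcop⟩, hy⟩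
  have c5 : IsPGroup p A := hSp.to_le hAS
  have c6 : A ≤ Subgroup.normalizer ((K ⊓ Y : Subgroup G) : Set G) := fun a ha =>
    nz_inf (nz_pprime hK (hSN (hAS ha))) (hNY (hSN (hAS ha)))
  have c7 : S ⊓ Y ≤ Y := inf_le_right
  have c8 : D2 ≤ Y := by
    intro d hd
    obtain ⟨x, hx, rfl⟩ := (hD2mem d).mp hd
    exact conj_mem_of_nz (hNY hn) (c7 hx)
  have c10 : IsPGroup p D2 := by rw [hD2]; exact hD0p.map _
  have c11 : ∀ D : Subgroup G, D ≤ Y → IsPGroup p D → S ⊓ Y ≤ D → D = S ⊓ Y := fun D hDY hDp hle =>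
    sy G p S Y (Subgroup.normalizer (Q : Set G)) hS hSN hYN hNY D hDY hDp hle
  have c12 : Nat.card D2 = Nat.card (S ⊓ Y : Subgroup G) := by
    rw [hD2]
    exact Subgroup.card_map_of_injective (MulAut.conj n).injective
  have c13 : A ≤ Subgroup.normalizer ((S ⊓ Y : Subgroup G) : Set G) := fun a ha => nzD0 a (hAS ha)
  have c14 : A ≤ Subgroup.normalizer (D2 : Set G) := by
    intro a ha
    obtain ⟨x, hx, rfl⟩ := (hAmem a).mp ha
    have hxn := nzD0 x (hPS hx)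
    apply nz_of_conj_mem
    · intro d hd
      obtain ⟨d0, hd0, rfl⟩ := (hD2mem d).mp hd
      exact (hD2mem _).mpr ⟨x * d0 * x⁻¹, conj_mem_of_nz hxn hd0, by group⟩
    · intro d hd
      obtain ⟨d0, hd0, rfl⟩ := (hD2mem d).mp hd
      exact (hD2mem _).mpr ⟨x⁻¹ * d0 * x, conj_mem_of_nz' hxn hd0, by group⟩
  obtain ⟨k, hk, hkA, hkD⟩ := b3 G p Y (K ⊓ Y) (S ⊓ Y) D2 A c1 c2 c3 c4 c5 c6 c7 c8 hD0p c10 c11 c12
    c13 c14
  have hn'Q : k * n ∈ Subgroup.normalizer (Q : Set G) := Subgroup.mul_mem _ (hKN hk.1) hn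
  have hn'D : k * n ∈ Subgroup.normalizer ((S ⊓ Y : Subgroup G) : Set G) := by
    apply Cfsg.Agent.Lib.Helper88.mem_normalizer_of_conj_le
    intro d hd
    have e : k * n * d * (k * n)⁻¹ = k * (n * d * n⁻¹) * k⁻¹ := by group
    rw [e]
    exact hkD _ ((hD2mem _).mpr ⟨d, hd, rfl⟩)
  refine ⟨k * n, hn'Q, hn'D, ?_⟩
  intro x hx
  have ha : n * x * n⁻¹ ∈ A := (hAmem _).mpr ⟨x, hx, rfl⟩
  have hc := hkA _ ha
  calc k * n * x * (k * n)⁻¹ = k * (n * x * n⁻¹) * k⁻¹ := by group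
    _ = (n * x * n⁻¹) * k * k⁻¹ := by rw [← hc]
    _ = n * x * n⁻¹ := by group
    _ = g * x * g⁻¹ := hnx x hx

end Cfsg.Agent.Lib.Helper97.FC
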