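import Mathlib
import Cfsg.Agent.Lib.Helper26.Gross2DefsC
import Cfsg.Agent.Lib.Helper97.Gross2Inv

/-!
# S3795 (Gross, `p = 2`; helper26's project), piece SETUP (helper97): a homogeneous component
meeting a given invariant subspace
-/

set_option autoImplicit false
set_option linter.style.haveILetI false
set_option linter.unusedSectionVars false
open scoped commutatorElement

namespace Cfsg.Agent.Lib.Helper97.Gross2SETUP

open Cfsg.Agent.Lib.Helper26 Cfsg.Agent.Lib.Helper26.Gross2 Cfsg.Agent.Lib.Helper97.Gross2Inv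

universe u

theorem gross2_setup : SetupStmt.{u} := by
  intro k _ _ M₀ ℓ n hD V _ _ _ P φ hInv hcard Y hY hPY hnc
  classical
  have hc2 := hInv.hc2
  have hZP : P ⊓ Subgroup.centralizer (P : Set (Module.End k V)ˣ) ≤ P := inf_le_left
  haveI := hInv.hfin
  have hroot : ∀ b ∈ P, ∃ m : ℕ, 0 < m ∧ b ^ m = 1 ∧ ∃ ζ : k, IsPrimitiveRoot ζ m := by
    intro b hb
    have hpos : 0 < Nat.card P := Nat.card_pos
    refine ⟨Nat.card P, hpos, ?_, ?_⟩
    · have h1 : (⟨b, hb⟩ : ↥P) ^ Nat.card P = 1 := pow_card_eq_one'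
      exact congrArg (fun z : ↥P => (z : (Module.End k V)ˣ)) h1
    · obtain ⟨ζ, hζ⟩ := hD.hroot
      obtain ⟨c, hc⟩ := hcard
      exact ⟨ζ ^ c, hζ.pow hD.hM0 (by rw [hc, mul_comm])⟩
  -- common eigenvector of the centre inside `Y`
  obtain ⟨s₀, hs₀Y, hs₀, hs₀'⟩ := gross_common_eig (Units.coeHom (Module.End k V))
    (P ⊓ Subgroup.centralizer (P : Set (Module.End k V)ˣ))
    (fun b hb => hroot b (hZP hb)) _ Y rfl hY
    (fun b hb u hu => hPY b (hZP hb) u hu)
    (fun b hb b' hb' u _ => by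
      show b.1 (b'.1 u) = b'.1 (b.1 u)
      rw [← gross_act_mul, ← gross_act_mul, (Subgroup.mem_centralizer_iff.mp hb'.2) b hb.1])
  have hs₀Z : ∀ z ∈ P ⊓ Subgroup.centralizer (P : Set (Module.End k V)ˣ),
      ∃ c : k, z.1 s₀ = c • s₀ := hs₀'
  obtain ⟨R, hχ⟩ := exists_R hc2 (grossChar s₀) (grossChar_one hs₀)
    (fun z hz z' hz' => grossChar_mul hs₀ (hs₀Z z hz) (hs₀Z z' hz'))
  -- the eigenspace of the centre
  have hs₀V : s₀ ∈ grossEigSub (P ⊓ Subgroup.centralizer (P : Set (Module.End k V)ˣ))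
      (grossChar s₀) := fun z hz => grossChar_spec (hs₀Z z hz)
  have hVχQ : ∀ x ∈ P, ∀ v ∈ grossEigSub (P ⊓ Subgroup.centralizer (P : Set (Module.End k V)ˣ))
      (grossChar s₀), x.1 v ∈ grossEigSub
        (P ⊓ Subgroup.centralizer (P : Set (Module.End k V)ˣ)) (grossChar s₀) := by
    intro x hx v hv z hz
    rw [← gross_act_mul, ← (Subgroup.mem_centralizer_iff.mp hz.2) x hx, gross_act_mul, hv z hz,
      map_smul]
  -- the part of the eigenspace inside `Y`
  have hU'0 : grossEigSub (P ⊓ Subgroup.centralizer (P : Set (Module.End k V)ˣ))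
      (grossChar s₀) ⊓ Y ≠ ⊥ := by
    intro h0
    have h1 : s₀ ∈ grossEigSub (P ⊓ Subgroup.centralizer (P : Set (Module.End k V)ˣ))
        (grossChar s₀) ⊓ Y := ⟨hs₀V, hs₀Y⟩
    rw [h0, Submodule.mem_bot] at h1
    exact hs₀ h1
  have hU'P : ∀ x ∈ P, ∀ u ∈ grossEigSub (P ⊓ Subgroup.centralizer (P : Set (Module.End k V)ˣ))
      (grossChar s₀) ⊓ Y, x.1 u ∈ grossEigSub
        (P ⊓ Subgroup.centralizer (P : Set (Module.End k V)ˣ)) (grossChar s₀) ⊓ Y :=
    fun x hx u hu => ⟨hVχQ x hx u hu.1, hPY x hx u hu.2⟩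
  -- `R ≠ P`
  have hRQ : R ≠ P := by
    intro hRQ
    apply hnc _ inf_le_right hU'0 hU'P
    intro x hx y hy u hu
    have e : x * y = ⁅x, y⁆ * (y * x) := by
      rw [commutatorElement_def]
      group
    have hxR : x ∈ R := by
      rw [hRQ]
      exact hx
    show x.1 (y.1 u) = y.1 (x.1 u)
    rw [← gross_act_mul, e, gross_act_mul, hVχQ _ (P.mul_mem hy hx) u hu.1 _
      (comm_mem_center hc2 hx hy), ((hχ.hR x).mp hxR).2 y hy, one_smul, gross_act_mul]
  -- `R` acts on the eigenspace commuting with `P`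
  have hcomm : ∀ x ∈ R, ∀ y ∈ P, ∀ v ∈ grossEigSub
      (P ⊓ Subgroup.centralizer (P : Set (Module.End k V)ˣ)) (grossChar s₀),
      x.1 (y.1 v) = y.1 (x.1 v) := by
    intro x hx y hy v hv
    obtain ⟨hxQ, hx'⟩ := (hχ.hR x).mp hx
    have e : x * y = ⁅x, y⁆ * (y * x) := by
      rw [commutatorElement_def]
      group
    rw [← gross_act_mul, e, gross_act_mul, hVχQ _ (P.mul_mem hy hxQ) v hv _
      (comm_mem_center hc2 hxQ hy), hx' y hy, one_smul, gross_act_mul]
  obtain ⟨s₁, hs₁U, hs₁, hs₁'⟩ := gross_common_eig (Units.coeHom (Module.End k V)) R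
    (fun b hb => hroot b (hχ.le hb)) _
    (grossEigSub (P ⊓ Subgroup.centralizer (P : Set (Module.End k V)ˣ)) (grossChar s₀) ⊓ Y)
    rfl hU'0
    (fun b hb u hu => hU'P b (hχ.le hb) u hu)
    (fun b hb b' hb' u hu => hcomm b hb b' (hχ.le hb') u hu.1)
  have hs₁R : ∀ x ∈ R, ∃ c : k, x.1 s₁ = c • s₁ := hs₁'
  have hs₁V : s₁ ∈ grossEigSub (P ⊓ Subgroup.centralizer (P : Set (Module.End k V)ˣ))
      (grossChar s₀) := hs₁U.1
  have hθχ : ∀ z ∈ P ⊓ Subgroup.centralizer (P : Set (Module.End k V)ˣ),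
      grossChar s₁ z = grossChar s₀ z := fun z hz => grossChar_eq hs₁ (hs₁V z hz)
  have hZR : P ⊓ Subgroup.centralizer (P : Set (Module.End k V)ˣ) ≤ R := by
    intro z hz
    refine hχ.center_le z hz.1 (fun w hw => ?_)
    exact ((Subgroup.mem_centralizer_iff.mp hz.2) w hw).symm
  have hWle : ∀ v ∈ grossEigSub R (grossChar s₁),
      v ∈ grossEigSub (P ⊓ Subgroup.centralizer (P : Set (Module.End k V)ˣ)) (grossChar s₀) := by
    intro v hv z hz
    rw [hv z (hZR hz), hθχ z hz]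
  have hs₁W : s₁ ∈ grossEigSub R (grossChar s₁) := fun x hx => grossChar_spec (hs₁R x hx)
  refine ⟨grossChar s₀, grossChar s₁, R, grossEigSub R (grossChar s₁),
    { hχ := hχ
      hθmul := fun x hx y hy => grossChar_mul hs₁ (hs₁R x hx) (hs₁R y hy)
      hθne := fun x hx => grossChar_ne_zero hs₁ (hs₁R x hx)
      hθχ := hθχ
      hW := fun v => Iff.rfl
      hWχ := fun v hv z hz => hWle v hv z hz
      hWQ := ?_
      hW0 := ?_
      hRQ := hRQ }, ?_⟩
  · intro y hy v hv x hx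
    rw [hcomm x hx y hy v (hWle v hv), hv x hx, map_smul]
  · intro h0
    have h1 := hs₁W
    rw [h0, Submodule.mem_bot] at h1
    exact hs₁ h1
  · intro h0
    have h1 : s₁ ∈ grossEigSub R (grossChar s₁) ⊓ Y := ⟨hs₁W, hs₁U.2⟩
    rw [h0, Submodule.mem_bot] at h1
    exact hs₁ h1

end Cfsg.Agent.Lib.Helper97.Gross2SETUP
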