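import Mathlib
import Cfsg.Agent.Lib.Helper72.PQDefs
import Cfsg.Agent.Lib.Helper12.Ward2
import Cfsg.Agent.Lib.Helper12.Ward6

/-!
# S4306, piece P6A: the core configuration, first properties
-/

set_option autoImplicit false

namespace Cfsg.Agent.Lib.Helper97.PQ

open Cfsg.Agent.Lib.Helper72.PQ
open Cfsg.Agent.Lib.Helper12.Ward
open scoped commutatorElement

universe u

section

variable {Γ : Type u} [Group Γ]

/-- the Lang image `{b⁻¹ (t b t⁻¹) | b ∈ B}` of an abelian `t`-invariant subgroup `B` -/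
def langSub (B : Subgroup Γ) (t : Γ) (hB : Ab B) (ht : t ∈ Subgroup.normalizer (B : Set Γ)) :
    Subgroup Γ where
  carrier := {g | ∃ b ∈ B, g = b⁻¹ * (t * b * t⁻¹)}
  one_mem' := ⟨1, B.one_mem, by group⟩
  mul_mem' := by
    rintro _ _ ⟨b, hb, rfl⟩ ⟨b', hb', rfl⟩
    refine ⟨b * b', B.mul_mem hb hb', ?_⟩
    have h1 : t * b * t⁻¹ ∈ B := conj_mem_of_nz ht hb
    have h2 : (b⁻¹ * (t * b * t⁻¹)) * b'⁻¹ = b'⁻¹ * (b⁻¹ * (t * b * t⁻¹)) :=
      hB _ (B.mul_mem (B.inv_mem hb) h1) _ (B.inv_mem hb')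
    calc b⁻¹ * (t * b * t⁻¹) * (b'⁻¹ * (t * b' * t⁻¹))
        = ((b⁻¹ * (t * b * t⁻¹)) * b'⁻¹) * (t * b' * t⁻¹) := by group
      _ = (b'⁻¹ * (b⁻¹ * (t * b * t⁻¹))) * (t * b' * t⁻¹) := by rw [h2]
      _ = (b * b')⁻¹ * (t * (b * b') * t⁻¹) := by group
  inv_mem' := by
    rintro _ ⟨b, hb, rfl⟩
    refine ⟨b⁻¹, B.inv_mem hb, ?_⟩
    have h1 : t * b * t⁻¹ ∈ B := conj_mem_of_nz ht hb
    have h2 : (t * b * t⁻¹)⁻¹ * b = b * (t * b * t⁻¹)⁻¹ := hB _ (B.inv_mem h1) _ hb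
    calc (b⁻¹ * (t * b * t⁻¹))⁻¹ = (t * b * t⁻¹)⁻¹ * b := by group
      _ = b * (t * b * t⁻¹)⁻¹ := h2
      _ = b⁻¹⁻¹ * (t * b⁻¹ * t⁻¹) := by group

theorem mem_langSub {B : Subgroup Γ} {t : Γ} {hB : Ab B}
    {ht : t ∈ Subgroup.normalizer (B : Set Γ)} {g : Γ} :
    g ∈ langSub B t hB ht ↔ ∃ b ∈ B, g = b⁻¹ * (t * b * t⁻¹) := Iff.rfl

/-- if `t` commutes with `y` and with `x y x⁻¹` then `x⁻¹ (t x t⁻¹)` commutes with `y` -/
theorem lang_comm_aux {t x y : Γ} (h3 : t * (x * y * x⁻¹) = (x * y * x⁻¹) * t)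
    (h4 : t * y = y * t) : x⁻¹ * (t * x * t⁻¹) * y = y * (x⁻¹ * (t * x * t⁻¹)) := by
  have h5 : t⁻¹ * y = y * t⁻¹ := (show Commute t y from h4).inv_left.eq
  calc x⁻¹ * (t * x * t⁻¹) * y = x⁻¹ * (t * x * (t⁻¹ * y)) := by group
    _ = x⁻¹ * (t * x * (y * t⁻¹)) := by rw [h5]
    _ = x⁻¹ * (t * (x * y * x⁻¹)) * x * t⁻¹ := by group
    _ = x⁻¹ * ((x * y * x⁻¹) * t) * x * t⁻¹ := by rw [h3]
    _ = y * (x⁻¹ * (t * x * t⁻¹)) := by group

end

theorem p6a (h1 : FMStmt.{u}) : P6AStmt.{u} := by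
  intro Γ _ _ q r s ℓ M Q R₀ t H
  have : Fact q.Prime := ⟨H.hq⟩
  have : Fact r.Prime := ⟨H.hr⟩
  have htℓ : t ^ ℓ = 1 := by rw [← H.ht]; exact pow_orderOf_eq_one t
  -- (1)
  have c1 : ∀ B : Subgroup Γ, B ≤ Q → Ab B → t ∈ Subgroup.normalizer (B : Set Γ) →
      ∀ b ∈ B, t * b = b * t := by
    intro B hBQ hB htB
    have hB1le : langSub B t hB htB ≤ B := by
      rintro _ ⟨b, hb, rfl⟩
      exact B.mul_mem (B.inv_mem hb) (conj_mem_of_nz htB hb)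
    have hBq : IsPGroup q B := H.hQq.to_le hBQ
    have hcopB : ℓ.Coprime (Nat.card B) := by
      obtain ⟨n, hn⟩ := (IsPGroup.iff_card).mp hBq
      rw [hn]
      exact Nat.Coprime.pow_right _ ((Nat.coprime_primes H.hℓ H.hq).mpr H.hℓq)
    have g1 : t ∈ Subgroup.normalizer ((langSub B t hB htB : Subgroup Γ) : Set Γ) := by
      apply nz_of_conj_mem
      · rintro _ ⟨b, hb, rfl⟩
        exact ⟨t * b * t⁻¹, conj_mem_of_nz htB hb, by group⟩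
      · rintro _ ⟨b, hb, rfl⟩
        exact ⟨t⁻¹ * b * t, conj_mem_of_nz' htB hb, by group⟩
    have g2 : ∀ j, 0 < j → j < ℓ → ∀ x ∈ langSub B t hB htB, t ^ j * x = x * t ^ j → x = 1 := by
      intro j hj0 hjℓ x hx hcomm
      obtain ⟨b, hb, rfl⟩ := hx
      have hcop : Nat.Coprime j ℓ :=
        Nat.Coprime.symm ((Nat.Prime.coprime_iff_not_dvd H.hℓ).mpr
          (Nat.not_dvd_of_pos_of_lt hj0 hjℓ))
      obtain ⟨k, -, hk⟩ := Nat.exists_mul_mod_eq_one_of_coprime hcop H.hℓ.one_lt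
      have hk' : (t ^ j) ^ k = t := by
        rw [← pow_mul, ← pow_mod_orderOf, H.ht, hk, pow_one]
      have hc2 : Commute ((t ^ j) ^ k) (b⁻¹ * (t * b * t⁻¹)) :=
        (show Commute (t ^ j) _ from hcomm).pow_left k
      rw [hk'] at hc2
      exact lang_fpf B t hB htB htℓ hcopB b hb hc2.eq
    have g3 : (Nat.card (langSub B t hB htB)).Coprime (Nat.card M) := by
      have hB1q : IsPGroup q (langSub B t hB htB) := hBq.to_le hB1le
      obtain ⟨n, hn⟩ := (IsPGroup.iff_card).mp hB1q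
      have hMr : IsPGroup r M := fun m => ⟨1, by
        have := H.hMr m.1 m.2
        apply Subtype.ext
        simpa using this⟩
      obtain ⟨n', hn'⟩ := (IsPGroup.iff_card).mp hMr
      rw [hn, hn']
      exact Nat.Coprime.pow _ _ ((Nat.coprime_primes H.hq H.hr).mpr H.hqr)
    have key := h1 Γ M (langSub B t hB htB) t ℓ H.hℓ.pos htℓ H.hMc
      ((hB1le.trans hBQ).trans H.hQM) H.htM g1 g2 g3 H.hMt
    intro b hb
    have h2 : b⁻¹ * (t * b * t⁻¹) = 1 := by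
      apply H.hfaith _ (hBQ (hB1le ⟨b, hb, rfl⟩))
      intro m hm
      exact key _ ⟨b, hb, rfl⟩ m hm
    have h3 : t * b * t⁻¹ = b := by
      have := congrArg (fun z => b * z) h2
      simpa using this
    exact comm_of_conj_eq h3
  -- (2)
  have c2 : ∃ y ∈ Q, t * y ≠ y * t := by
    by_contra hcon
    push Not at hcon
    have hRc : ∀ x ∈ R₀, ∀ y ∈ Q, x * y = y * x := by
      intro x hx y hy
      obtain ⟨x', hx', rfl⟩ := lang_surj R₀ t H.htR H.hRt x hx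
      have h2 : x' * y * x'⁻¹ ∈ Q := conj_mem_of_nz (H.hRQ hx') hy
      exact lang_comm_aux (hcon _ h2) (hcon y hy)
    have hbot : ⁅Q, R₀⁆ = ⊥ :=
      commutator_eq_bot_of_comm (fun y hy x hx => (hRc x hx y hy).symm)
    have hQbot : Q = ⊥ := H.hQR.symm.trans hbot
    have hDbot : (⁅Q, Q⁆ : Subgroup Γ) = ⊥ := by
      rw [hQbot]; exact Subgroup.commutator_bot_left _
    have hD := H.hD
    rw [hDbot, Subgroup.card_bot] at hD
    exact H.hq.one_lt.ne hD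
  -- (3a)
  have c3a : ∀ z ∈ Q, (∀ x ∈ R₀, x * z = z * x) → ∀ y ∈ Q, z * y = y * z := by
    intro z hz hzR
    obtain ⟨Z₀, hZ₀⟩ : ∃ Z₀ : Subgroup Γ, Z₀ = Q ⊓ Subgroup.centralizer (R₀ : Set Γ) :=
      ⟨_, rfl⟩
    have hzZ : z ∈ Z₀ := by
      rw [hZ₀]
      exact ⟨hz, Subgroup.mem_centralizer_iff.mpr (fun x hx => hzR x hx)⟩
    have e1 : ⁅⁅R₀, Z₀⁆, Q⁆ = ⊥ := by
      have : ⁅R₀, Z₀⁆ = ⊥ := by
        apply commutator_eq_bot_of_comm
        intro x hx w hw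
        rw [hZ₀] at hw
        exact (Subgroup.mem_centralizer_iff.mp hw.2) x hx
      rw [this]; exact Subgroup.commutator_bot_left _
    have e2 : ⁅⁅Z₀, Q⁆, R₀⁆ = ⊥ := by
      apply commutator_eq_bot_of_comm
      intro d hd x hx
      have hle : Z₀ ≤ Q := by rw [hZ₀]; exact inf_le_left
      have hd' : d ∈ (⁅Q, Q⁆ : Subgroup Γ) := Subgroup.commutator_mono hle le_rfl hd
      exact (H.hDR d hd' x hx).symm
    have e3 : ⁅⁅Q, R₀⁆, Z₀⁆ = ⊥ := Subgroup.commutator_commutator_eq_bot_of_rotate e1 e2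
    rw [H.hQR] at e3
    intro y hy
    exact (comm_of_commutator_eq_bot e3 y hy z hzZ).symm
  have c3 : ∀ z ∈ Q, (∀ x ∈ R₀, x * z = z * x) → (∀ y ∈ Q, z * y = y * z) ∧ t * z = z * t := by
    intro z hz hzR
    refine ⟨c3a z hz hzR, ?_⟩
    have hmem : ∀ w, w ∈ Q ⊓ Subgroup.centralizer (R₀ : Set Γ) ↔
        w ∈ Q ∧ ∀ x ∈ R₀, x * w = w * x := by
      intro w
      rw [Subgroup.mem_inf, Subgroup.mem_centralizer_iff]
      rfl
    have hAb : Ab (Q ⊓ Subgroup.centralizer (R₀ : Set Γ)) := fun a ha b hb =>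
      c3a a ((hmem a).mp ha).1 ((hmem a).mp ha).2 b ((hmem b).mp hb).1
    have hnz : t ∈ Subgroup.normalizer
        ((Q ⊓ Subgroup.centralizer (R₀ : Set Γ) : Subgroup Γ) : Set Γ) :=
      nz_inf H.htQ (nz_centralizer H.htR)
    exact c1 _ inf_le_left hAb hnz z ((hmem z).mpr ⟨hz, hzR⟩)
  -- (4)
  have c4 : ∀ z ∈ Q, (∀ y ∈ Q, z * y = y * z) → ∀ x ∈ R₀, x * z = z * x := by
    intro z hz hzQ x hx
    have hmem : ∀ w, w ∈ Q ⊓ Subgroup.centralizer (Q : Set Γ) ↔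
        w ∈ Q ∧ ∀ y ∈ Q, w * y = y * w := by
      intro w
      rw [Subgroup.mem_inf, Subgroup.mem_centralizer_iff]
      constructor
      · rintro ⟨h1, h2⟩; exact ⟨h1, fun y hy => (h2 y hy).symm⟩
      · rintro ⟨h1, h2⟩; exact ⟨h1, fun y hy => (h2 y hy).symm⟩
    have hAb : Ab (Q ⊓ Subgroup.centralizer (Q : Set Γ)) := fun a ha b hb =>
      ((hmem a).mp ha).2 b ((hmem b).mp hb).1
    have htZQ : t ∈ Subgroup.normalizer
        ((Q ⊓ Subgroup.centralizer (Q : Set Γ) : Subgroup Γ) : Set Γ) :=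
      nz_inf H.htQ (nz_centralizer H.htQ)
    have htc := c1 _ inf_le_left hAb htZQ
    obtain ⟨x', hx', rfl⟩ := lang_surj R₀ t H.htR H.hRt x hx
    have hzZ : z ∈ Q ⊓ Subgroup.centralizer (Q : Set Γ) := (hmem z).mpr ⟨hz, hzQ⟩
    have h2 : x' * z * x'⁻¹ ∈ Q ⊓ Subgroup.centralizer (Q : Set Γ) :=
      conj_mem_of_nz (nz_inf (H.hRQ hx') (nz_centralizer (H.hRQ hx'))) hzZ
    exact lang_comm_aux (htc _ h2) (htc z hzZ)
  exact ⟨c1, c2, c3, c4⟩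

end Cfsg.Agent.Lib.Helper97.PQ
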