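import Mathlib
import Cfsg.Agent.Lib.Helper72.PQDefs
import Cfsg.Agent.Lib.Helper12.Ward2
import Cfsg.Agent.Lib.Helper12.Ward6
import Cfsg.Agent.Lib.Helper55.FS

/-!
# S4306, piece P6S: the subgroup `E = [Q, t]` of the core configuration
-/

set_option autoImplicit false

namespace Cfsg.Agent.Lib.Helper97.PQ

open Cfsg.Agent.Lib.Helper72.PQ
open Cfsg.Agent.Lib.Helper12.Ward
open scoped commutatorElement

universe u

section

variable {Γ : Type u} [Group Γ]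

/-- `x ∈ H` as soon as `x ^ n ∈ H` with `n` coprime to the order of `x` -/
theorem mem_of_pow_mem_of_coprime (H : Subgroup Γ) {x : Γ} {n : ℕ}
    (hcop : n.Coprime (orderOf x)) (h : x ^ n ∈ H) : x ∈ H := by
  have h1 := Nat.gcd_eq_gcd_ab n (orderOf x)
  have hg : Nat.gcd n (orderOf x) = 1 := hcop
  rw [hg] at h1
  have h2 : x = (x ^ n) ^ (Nat.gcdA n (orderOf x)) := by
    have h3 : x ^ ((n : ℤ) * Nat.gcdA n (orderOf x) + (orderOf x : ℤ) * Nat.gcdB n (orderOf x))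
        = x := by
      rw [← h1]; simp
    rw [zpow_add, zpow_mul, zpow_mul, zpow_natCast, zpow_natCast, pow_orderOf_eq_one, one_zpow,
      mul_one] at h3
    exact h3.symm
  rw [h2]
  exact H.zpow_mem h _

/-- conjugation by a normalizing element as an endomorphism of `↥Q` -/
def cjHom (Q : Subgroup Γ) (g : Γ) (hg : g ∈ Subgroup.normalizer (Q : Set Γ)) : ↥Q →* ↥Q where
  toFun y := ⟨g * y.1 * g⁻¹, conj_mem_of_nz hg y.2⟩
  map_one' := Subtype.ext (by simp)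
  map_mul' a b := Subtype.ext (by
    show g * (a.1 * b.1) * g⁻¹ = (g * a.1 * g⁻¹) * (g * b.1 * g⁻¹)
    group)

theorem cjHom_coe (Q : Subgroup Γ) (g : Γ) (hg : g ∈ Subgroup.normalizer (Q : Set Γ)) (y : ↥Q) :
    ((cjHom Q g hg y : ↥Q) : Γ) = g * y.1 * g⁻¹ := rfl

/-- the "norm modulo the commutator subgroup" -/
noncomputable def normHom (Q : Subgroup Γ) (t : Γ) (ht : t ∈ Subgroup.normalizer (Q : Set Γ))
    (ℓ : ℕ) : ↥Q →* Abelianization ↥Q :=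
  ∏ j ∈ Finset.range ℓ,
    ((Abelianization.of : ↥Q →* Abelianization ↥Q).comp
      (cjHom Q (t ^ j) (Subgroup.pow_mem _ ht j)))

theorem normHom_apply (Q : Subgroup Γ) (t : Γ) (ht : t ∈ Subgroup.normalizer (Q : Set Γ))
    (ℓ : ℕ) (y : ↥Q) :
    normHom Q t ht ℓ y = ∏ j ∈ Finset.range ℓ,
      (Abelianization.of : ↥Q →* Abelianization ↥Q)
        (cjHom Q (t ^ j) (Subgroup.pow_mem _ ht j) y) := by
  unfold normHom
  rw [MonoidHom.finsetProd_apply]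
  rfl

theorem normHom_cj (Q : Subgroup Γ) (t : Γ) (ht : t ∈ Subgroup.normalizer (Q : Set Γ))
    (ℓ : ℕ) (htℓ : t ^ ℓ = 1) (y : ↥Q) :
    normHom Q t ht ℓ (cjHom Q t ht y) = normHom Q t ht ℓ y := by
  rw [normHom_apply, normHom_apply]
  have e1 : ∀ j, cjHom Q (t ^ j) (Subgroup.pow_mem _ ht j) (cjHom Q t ht y)
      = cjHom Q (t ^ (j + 1)) (Subgroup.pow_mem _ ht (j + 1)) y := by
    intro j
    apply Subtype.ext
    rw [cjHom_coe, cjHom_coe, cjHom_coe, pow_succ]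
    group
  simp only [e1]
  have e2 := Finset.prod_range_succ' (fun j => (Abelianization.of : ↥Q →* Abelianization ↥Q)
        (cjHom Q (t ^ j) (Subgroup.pow_mem _ ht j) y)) ℓ
  have e3 := Finset.prod_range_succ (fun j => (Abelianization.of : ↥Q →* Abelianization ↥Q)
        (cjHom Q (t ^ j) (Subgroup.pow_mem _ ht j) y)) ℓ
  have e4 : cjHom Q (t ^ ℓ) (Subgroup.pow_mem _ ht ℓ) y = cjHom Q (t ^ 0) (Subgroup.pow_mem _ ht 0) y := by
    apply Subtype.ext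
    rw [cjHom_coe, cjHom_coe, htℓ, pow_zero]
  rw [e3] at e2
  simp only [e4] at e2
  exact (mul_right_cancel e2).symm

theorem normHom_cj_pow (Q : Subgroup Γ) (t : Γ) (ht : t ∈ Subgroup.normalizer (Q : Set Γ))
    (ℓ : ℕ) (htℓ : t ^ ℓ = 1) (i : ℕ) (y : ↥Q) :
    normHom Q t ht ℓ (cjHom Q (t ^ i) (Subgroup.pow_mem _ ht i) y) = normHom Q t ht ℓ y := by
  induction i with
  | zero =>
    congr 1
    apply Subtype.ext
    rw [cjHom_coe]
    simp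
  | succ i ih =>
    have e : cjHom Q (t ^ (i + 1)) (Subgroup.pow_mem _ ht (i + 1)) y
        = cjHom Q t ht (cjHom Q (t ^ i) (Subgroup.pow_mem _ ht i) y) := by
      apply Subtype.ext
      rw [cjHom_coe, cjHom_coe, cjHom_coe, pow_succ']
      group
    rw [e, normHom_cj Q t ht ℓ htℓ, ih]

theorem normHom_fixed (Q : Subgroup Γ) (t : Γ) (ht : t ∈ Subgroup.normalizer (Q : Set Γ))
    (ℓ : ℕ) (y : ↥Q) (hy : t * y.1 = y.1 * t) :
    normHom Q t ht ℓ y = (Abelianization.of : ↥Q →* Abelianization ↥Q) (y ^ ℓ) := by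
  rw [normHom_apply]
  have e1 : ∀ j, cjHom Q (t ^ j) (Subgroup.pow_mem _ ht j) y = y := by
    intro j
    apply Subtype.ext
    rw [cjHom_coe]
    have hc : Commute (t ^ j) y.1 := (show Commute t y.1 from hy).pow_left j
    rw [hc.eq]
    group
  simp only [e1]
  rw [Finset.prod_const, Finset.card_range, map_pow]

/-- the norm kills `[Q, ⟨t⟩]` -/
theorem normHom_comm [Finite Γ] (Q : Subgroup Γ) (t : Γ)
    (ht : t ∈ Subgroup.normalizer (Q : Set Γ))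
    (ℓ : ℕ) (htℓ : t ^ ℓ = 1) (e : Γ) (he : e ∈ ⁅Q, Subgroup.zpowers t⁆) (heQ : e ∈ Q) :
    normHom Q t ht ℓ ⟨e, heQ⟩ = 1 := by
  have hle : ⁅Q, Subgroup.zpowers t⁆ ≤ (normHom Q t ht ℓ).ker.map Q.subtype := by
    rw [Subgroup.commutator_le]
    intro g₁ hg₁ g₂ hg₂
    obtain ⟨i, rfl⟩ := (Submonoid.mem_powers_iff _ _).mp (mem_powers_iff_mem_zpowers.mpr hg₂)
    refine ⟨(⟨g₁, hg₁⟩ : ↥Q) * cjHom Q (t ^ i) (Subgroup.pow_mem _ ht i) (⟨g₁, hg₁⟩ : ↥Q)⁻¹,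
      ?_, ?_⟩
    · rw [SetLike.mem_coe, MonoidHom.mem_ker, map_mul, normHom_cj_pow Q t ht ℓ htℓ, map_inv,
        mul_inv_cancel]
    · show g₁ * (t ^ i * g₁⁻¹ * (t ^ i)⁻¹) = ⁅g₁, t ^ i⁆
      rw [commutatorElement_def]
      group
  obtain ⟨w, hw, hwe⟩ := hle he
  have : w = ⟨e, heQ⟩ := Subtype.ext hwe
  rw [← this]
  exact MonoidHom.mem_ker.mp hw

end

theorem p6s (h1 : P6AStmt.{u}) : P6SStmt.{u} := by
  intro Γ _ _ q r s ℓ M Q R₀ t H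
  obtain ⟨a1, a2, a3, a4⟩ := h1 Γ q r s ℓ M Q R₀ t H
  have : Fact q.Prime := ⟨H.hq⟩
  have : Fact ℓ.Prime := ⟨H.hℓ⟩
  have htℓ : t ^ ℓ = 1 := by rw [← H.ht]; exact pow_orderOf_eq_one t
  obtain ⟨T, hT⟩ : ∃ T : Subgroup Γ, T = Subgroup.zpowers t := ⟨_, rfl⟩
  have htT : t ∈ T := by rw [hT]; exact Subgroup.mem_zpowers t
  have hTcomm : ∀ c : Γ, t * c = c * t → ∀ a ∈ T, a * c = c * a := by
    intro c hc a ha
    rw [hT] at ha
    obtain ⟨k, rfl⟩ := Subgroup.mem_zpowers_iff.mp ha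
    exact ((show Commute t c from hc).zpow_left k).eq
  have hTQ : T ≤ Subgroup.normalizer (Q : Set Γ) := by
    rw [hT]; exact (Subgroup.zpowers_le).mpr H.htQ
  have hTℓ : IsPGroup ℓ T :=
    IsPGroup.of_card (n := 1) (by rw [hT, Nat.card_zpowers, H.ht, pow_one])
  have hQℓ : ¬ ℓ ∣ Nat.card Q := by
    obtain ⟨n, hn⟩ := (IsPGroup.iff_card).mp H.hQq
    rw [hn]
    intro hdvd
    exact H.hℓq ((Nat.prime_dvd_prime_iff_eq H.hℓ H.hq).mp (H.hℓ.dvd_of_dvd_pow hdvd))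
  have hsup : Q ≤ ⁅Q, T⁆ ⊔ (Q ⊓ Subgroup.centralizer (T : Set Γ)) :=
    Cfsg.Agent.Lib.Helper55.coprime_le_commutator_sup_centralizer (p := ℓ) hQℓ hTℓ hTQ
  have hEE : ⁅Q, T⁆ = ⁅⁅Q, T⁆, T⁆ :=
    Cfsg.Agent.Lib.Helper55.commutator_eq_commutator_commutator hTQ hsup
  have hEQ : ⁅Q, T⁆ ≤ Q := Cfsg.Agent.Lib.Helper55.commutator_le_of_le_normalizer hTQ
  have htE : t ∈ Subgroup.normalizer ((⁅Q, T⁆ : Subgroup Γ) : Set Γ) :=
    nz_comm H.htQ (Subgroup.le_normalizer htT)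
  have hC₀mem : ∀ c, c ∈ Q ⊓ Subgroup.centralizer (T : Set Γ) ↔ c ∈ Q ∧ t * c = c * t := by
    intro c
    rw [Subgroup.mem_inf, Subgroup.mem_centralizer_iff]
    constructor
    · rintro ⟨h1, h2⟩; exact ⟨h1, h2 t htT⟩
    · rintro ⟨h1, h2⟩
      exact ⟨h1, fun a ha => hTcomm c h2 a ha⟩
  -- (3)
  have hEC : ∀ e ∈ ⁅Q, T⁆, ∀ c ∈ Q, t * c = c * t → e * c = c * e := by
    intro e he c hc hct
    have hcC : c ∈ Q ⊓ Subgroup.centralizer (T : Set Γ) := (hC₀mem c).mpr ⟨hc, hct⟩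
    have e1 : ⁅⁅Q, Q ⊓ Subgroup.centralizer (T : Set Γ)⁆, T⁆ = ⊥ := by
      apply commutator_eq_bot_of_comm
      intro d hd a ha
      have hd' : d ∈ (⁅Q, Q⁆ : Subgroup Γ) := Subgroup.commutator_mono le_rfl inf_le_left hd
      exact (hTcomm d (H.hDt d hd') a ha).symm
    have e2 : ⁅⁅Q ⊓ Subgroup.centralizer (T : Set Γ), T⁆, Q⁆ = ⊥ := by
      have : ⁅Q ⊓ Subgroup.centralizer (T : Set Γ), T⁆ = ⊥ := by
        apply commutator_eq_bot_of_comm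
        intro c hc a ha
        exact ((Subgroup.mem_centralizer_iff.mp hc.2) a ha).symm
      rw [this]; exact Subgroup.commutator_bot_left _
    have e3 : ⁅⁅T, Q⁆, Q ⊓ Subgroup.centralizer (T : Set Γ)⁆ = ⊥ :=
      Subgroup.commutator_commutator_eq_bot_of_rotate e1 e2
    rw [Subgroup.commutator_comm T Q] at e3
    exact comm_of_commutator_eq_bot e3 e he c hcC
  -- (4)
  have hdec : ∀ y ∈ Q, ∃ e ∈ ⁅Q, T⁆, ∃ c ∈ Q, t * c = c * t ∧ y = e * c := by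
    intro y hy
    have hCE : Q ⊓ Subgroup.centralizer (T : Set Γ)
        ≤ Subgroup.normalizer ((⁅Q, T⁆ : Subgroup Γ) : Set Γ) :=
      inf_le_left.trans (Subgroup.normalizer_commutator_ge_left Q T)
    obtain ⟨e, he, c, hc, rfl⟩ := exists_mul_of_mem_sup hCE (hsup hy)
    exact ⟨e, he, c, ((hC₀mem c).mp hc).1, ((hC₀mem c).mp hc).2, rfl⟩
  -- (7)
  have hnab : ∃ e ∈ ⁅Q, T⁆, ∃ e' ∈ ⁅Q, T⁆, e * e' ≠ e' * e := by
    by_contra hcon
    push Not at hcon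
    have htcE := a1 ⁅Q, T⁆ hEQ hcon htE
    have hbot : ⁅⁅Q, T⁆, T⁆ = ⊥ := by
      apply commutator_eq_bot_of_comm
      intro e he a ha
      exact (hTcomm e (htcE e he) a ha).symm
    have hEbot : ⁅Q, T⁆ = ⊥ := hEE.trans hbot
    obtain ⟨y, hy, hty⟩ := a2
    apply hty
    have h2 := hsup hy
    rw [hEbot, bot_sup_eq] at h2
    exact ((hC₀mem y).mp h2).2
  -- (5)
  have hDE : (⁅Q, Q⁆ : Subgroup Γ) ≤ ⁅Q, T⁆ := by
    have hle : (⁅⁅Q, T⁆, ⁅Q, T⁆⁆ : Subgroup Γ) ≤ ⁅Q, Q⁆ := Subgroup.commutator_mono hEQ hEQ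
    have hne : (⁅⁅Q, T⁆, ⁅Q, T⁆⁆ : Subgroup Γ) ≠ ⊥ := by
      intro hb
      obtain ⟨e, he, e', he', hee⟩ := hnab
      exact hee (comm_of_commutator_eq_bot hb e he e' he')
    have hdvd : Nat.card (⁅⁅Q, T⁆, ⁅Q, T⁆⁆ : Subgroup Γ) ∣ q := by
      rw [← H.hD]; exact Subgroup.card_dvd_of_le hle
    have hcard : Nat.card (⁅⁅Q, T⁆, ⁅Q, T⁆⁆ : Subgroup Γ) = q := by
      rcases (Nat.dvd_prime H.hq).mp hdvd with h | h
      · exact absurd (Subgroup.card_eq_one.mp h) hne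
      · exact h
    have heq : (⁅⁅Q, T⁆, ⁅Q, T⁆⁆ : Subgroup Γ) = ⁅Q, Q⁆ :=
      Subgroup.eq_of_le_of_card_ge hle (by rw [hcard, H.hD])
    rw [← heq]
    exact Subgroup.commutator_le_self _
  -- (6)
  have hfix : ∀ e ∈ ⁅Q, T⁆, t * e = e * t → e ∈ (⁅Q, Q⁆ : Subgroup Γ) := by
    intro e he hte
    have heQ : e ∈ Q := hEQ he
    have hn1 : normHom Q t H.htQ ℓ ⟨e, heQ⟩ = 1 := by
      apply normHom_comm Q t H.htQ ℓ htℓ e _ heQ
      rw [← hT]; exact he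
    rw [normHom_fixed Q t H.htQ ℓ ⟨e, heQ⟩ hte] at hn1
    have hker : (⟨e, heQ⟩ : ↥Q) ^ ℓ ∈ (Abelianization.of : ↥Q →* Abelianization ↥Q).ker :=
      MonoidHom.mem_ker.mpr hn1
    rw [Abelianization.ker_of] at hker
    have hpow : e ^ ℓ ∈ (⁅Q, Q⁆ : Subgroup Γ) := by
      rw [← Subgroup.map_subtype_commutator]
      exact ⟨_, hker, rfl⟩
    apply mem_of_pow_mem_of_coprime _ _ hpow
    obtain ⟨k, hk⟩ := (IsPGroup.iff_orderOf).mp H.hQq ⟨e, heQ⟩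
    have hord : orderOf e = q ^ k := by
      rw [← hk]; exact (Subgroup.orderOf_mk e heQ).symm
    rw [hord]
    exact Nat.Coprime.pow_right _ ((Nat.coprime_primes H.hℓ H.hq).mpr H.hℓq)
  exact ⟨⁅Q, T⁆, hEQ, htE, hEC, hdec, hDE, hfix, hnab⟩

end Cfsg.Agent.Lib.Helper97.PQ
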