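import Cfsg.Agent.Lib.Helper22.PTDefs
import Cfsg.Agent.Lib.Helper68.BFPDEC
import Cfsg.Agent.Lib.Helper33.TIFour
import Cfsg.Agent.Lib.Helper57.BFFourier

/-!
# S4705 project (helper22, "PT"), piece BLKR1 (helper97)

The irreducible characters with the central character of `ζ` outside the family `Y` are constant
integers on the nontrivial powers of `z`; their squares sum to `2`, and the sum of
`φ 1 * conj (φ z)` is `-(p - 2)`.
-/

set_option autoImplicit false

namespace Cfsg.Agent.Lib.Helper97.PT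

open Cfsg Cfsg.Agent.Lib.Helper22.BFD Cfsg.Agent.Lib.Helper22.PT
open scoped ComplexConjugate

universe u

variable {G : Type u} [Group G] [Fintype G]

/-- sums over the units of `ZMod p`, shifted by a nonzero `u`. -/
theorem blkr1_units_sum (p : ℕ) [Fact p.Prime] (F : ZMod p → ℂ) (u : ZMod p) (hu : u ≠ 0) :
    ∑ k : (ZMod p)ˣ, F (u * (k : ZMod p)) = ∑ v : ZMod p, F v - F 0 := by
  classical
  have h := Cfsg.Agent.Lib.BF.bfF_sum_units_mul (p := p)
    (fun x => if x = 0 then 0 else F x) (by simp) u hu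
  have h1 : ∀ k : (ZMod p)ˣ,
      (fun x : ZMod p => if x = 0 then (0 : ℂ) else F x) ((k : ZMod p) * u) =
        F (u * (k : ZMod p)) := by
    intro k
    have h0 : (k : ZMod p) * u ≠ 0 := mul_ne_zero k.ne_zero hu
    show (if (k : ZMod p) * u = 0 then (0 : ℂ) else F ((k : ZMod p) * u)) = _
    rw [if_neg h0, mul_comm]
  rw [Finset.sum_congr rfl (fun k _ => h1 k)] at h
  rw [h]
  have h2 : ∀ v : ZMod p, (if v = 0 then (0 : ℂ) else F v) =
      F v - (if v = 0 then F 0 else 0) := by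
    intro v
    by_cases hv : v = 0
    · subst hv; simp
    · simp [hv]
  rw [Finset.sum_congr rfl (fun v _ => h2 v), Finset.sum_sub_distrib]
  simp

/-- the basic sum over the units. -/
theorem blkr1_S (p : ℕ) [Fact p.Prime] (w : ℂ) (hw : IsPrimitiveRoot w p) (u : ZMod p)
    (hu : u ≠ 0) (c : ZMod p) :
    ∑ k : (ZMod p)ˣ, w ^ ((u * (k : ZMod p)) * c).val = (if c = 0 then (p : ℂ) else 0) - 1 := by
  have h := blkr1_units_sum p (fun v => w ^ (v * c).val) u hu
  rw [h]
  have h1 : ∑ v : ZMod p, w ^ (v * c).val = ∑ v : ZMod p, w ^ (c * v).val :=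
    Finset.sum_congr rfl (fun v _ => by rw [mul_comm])
  rw [h1, Cfsg.Agent.Lib.Helper33.TI.sum_pow_val p w hw c, zero_mul, ZMod.val_zero, pow_zero]

/-- product of two `ev`'s. -/
theorem blkr1_ev_mul (p : ℕ) [Fact p.Prime] (w : ℂ) (hw : w ^ p = 1) (v a b : ZMod p) :
    ev p w v a * conj (ev p w v b) =
      w ^ (v * (a + b)).val + w ^ (v * (a - b)).val + w ^ (v * (b - a)).val +
        w ^ (v * (-a - b)).val := by
  unfold ev
  rw [map_add, Cfsg.Agent.Lib.Helper33.TI.conj_pow_val p w hw,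
    Cfsg.Agent.Lib.Helper33.TI.conj_pow_val p w hw]
  have e : ∀ x y : ZMod p, w ^ x.val * w ^ y.val = w ^ (x + y).val :=
    fun x y => (Cfsg.Agent.Lib.Helper33.TI.pow_val_add p w hw x y).symm
  rw [add_mul, mul_add, mul_add, e, e, e, e]
  have c1 : v * a + -(v * b) = v * (a - b) := by ring
  have c2 : v * a + - -(v * b) = v * (a + b) := by ring
  have c3 : -(v * a) + -(v * b) = v * (-a - b) := by ring
  have c4 : -(v * a) + - -(v * b) = v * (b - a) := by ring
  rw [c1, c2, c3, c4]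
  ring

/-- `ev` is real. -/
theorem blkr1_ev_conj (p : ℕ) [Fact p.Prime] (w : ℂ) (hw : w ^ p = 1) (v a : ZMod p) :
    conj (ev p w v a) = ev p w v a := by
  unfold ev
  rw [map_add, Cfsg.Agent.Lib.Helper33.TI.conj_pow_val p w hw,
    Cfsg.Agent.Lib.Helper33.TI.conj_pow_val p w hw, neg_neg, add_comm]

/-- the sum of `ev (u k) a * conj (ev (u k) b)` over the units. -/
theorem blkr1_A (p : ℕ) [Fact p.Prime] (w : ℂ) (hw : IsPrimitiveRoot w p) (u : ZMod p)
    (hu : u ≠ 0) (a b : ZMod p) :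
    ∑ k : (ZMod p)ˣ, ev p w (u * (k : ZMod p)) a * conj (ev p w (u * (k : ZMod p)) b) =
      ((if a + b = 0 then (p : ℂ) else 0) - 1) + ((if a - b = 0 then (p : ℂ) else 0) - 1) +
        ((if b - a = 0 then (p : ℂ) else 0) - 1) + ((if -a - b = 0 then (p : ℂ) else 0) - 1) := by
  rw [Finset.sum_congr rfl
    (fun (k : (ZMod p)ˣ) _ => blkr1_ev_mul p w hw.pow_eq_one (u * (k : ZMod p)) a b)]
  rw [Finset.sum_add_distrib, Finset.sum_add_distrib, Finset.sum_add_distrib,
    blkr1_S p w hw u hu, blkr1_S p w hw u hu, blkr1_S p w hw u hu, blkr1_S p w hw u hu]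

/-- the sum of `conj (ev (u k) 1)` over the units. -/
theorem blkr1_B (p : ℕ) [Fact p.Prime] (w : ℂ) (hw : IsPrimitiveRoot w p) (u : ZMod p)
    (hu : u ≠ 0) :
    ∑ k : (ZMod p)ˣ, conj (ev p w (u * (k : ZMod p)) 1) = -2 := by
  have h1 : ∀ k : (ZMod p)ˣ, conj (ev p w (u * (k : ZMod p)) 1) =
      w ^ ((u * (k : ZMod p)) * 1).val + w ^ ((u * (k : ZMod p)) * (-1)).val := by
    intro k
    rw [blkr1_ev_conj p w hw.pow_eq_one]
    unfold ev
    rw [mul_neg]
  rw [Finset.sum_congr rfl (fun k _ => h1 k), Finset.sum_add_distrib,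
    blkr1_S p w hw u hu, blkr1_S p w hw u hu]
  have hp : p.Prime := Fact.out
  have h10 : (1 : ZMod p) ≠ 0 := one_ne_zero
  have h20 : (-1 : ZMod p) ≠ 0 := neg_ne_zero.mpr one_ne_zero
  rw [if_neg h10, if_neg h20]
  ring

/-- a two-to-one family: sum over the image is half the sum over the family. -/
theorem blkr1_two_to_one (p : ℕ) [Fact p.Prime] (hp2 : 2 < p) [Fintype (IrrCharacter G)]
    (Y : (ZMod p)ˣ → IrrCharacter G)
    (hYeq : ∀ k l : (ZMod p)ˣ, Y k = Y l ↔ (k = l ∨ k = -l)) (f : IrrCharacter G → ℂ) :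
    ∑ φ : IrrCharacter G, (if ∃ k, φ = Y k then f φ else 0) = (1 / 2) * ∑ k, f (Y k) := by
  classical
  have hp : p.Prime := Fact.out
  have hneg : ∀ k : (ZMod p)ˣ, k ≠ -k := by
    intro k hk
    have h1 : (k : ZMod p) = -(k : ZMod p) := by
      have := congrArg (fun x : (ZMod p)ˣ => (x : ZMod p)) hk
      simpa using this
    have h2 : (2 : ZMod p) * (k : ZMod p) = 0 := by linear_combination h1
    have h3 : (2 : ZMod p) = 0 := by
      rcases mul_eq_zero.mp h2 with h | h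
      · exact h
      · exact absurd h k.ne_zero
    have h4 : ((2 : ℕ) : ZMod p) = 0 := by exact_mod_cast h3
    rw [ZMod.natCast_eq_zero_iff] at h4
    have := Nat.le_of_dvd (by norm_num) h4
    omega
  have h1 : ∑ k, f (Y k) = ∑ φ ∈ Finset.univ.image Y,
      (Finset.univ.filter (fun a => Y a = φ)).card • f φ :=
    Finset.sum_comp f Y
  have h2 : ∀ φ ∈ Finset.univ.image Y,
      (Finset.univ.filter (fun a => Y a = φ)).card • f φ = 2 * f φ := by
    intro φ hφ
    obtain ⟨k0, -, rfl⟩ := Finset.mem_image.mp hφ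
    have : Finset.univ.filter (fun a => Y a = Y k0) = {k0, -k0} := by
      ext a
      simp only [Finset.mem_filter, Finset.mem_univ, true_and, Finset.mem_insert,
        Finset.mem_singleton]
      exact hYeq a k0
    rw [this, Finset.card_pair (hneg k0)]
    simp
  rw [h1, Finset.sum_congr rfl h2, ← Finset.mul_sum, ← mul_assoc]
  norm_num
  rw [← Finset.sum_filter]
  apply Finset.sum_congr _ (fun _ _ => rfl)
  ext φ
  simp only [Finset.mem_filter, Finset.mem_univ, true_and, Finset.mem_image]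
  constructor
  · rintro ⟨k, rfl⟩; exact ⟨k, rfl⟩
  · rintro ⟨k, rfl⟩; exact ⟨k, rfl⟩

/-- PIECE BLKR1 -/
theorem blkR1 [Fintype (IrrCharacter G)] (p : ℕ) [Fact p.Prime] (w : ℂ)
    (hw : IsPrimitiveRoot w p) (z : G) (ζ : G → ℂ) (h : Hyp G p z ζ) (hl : Loc G p z ζ)
    (htw : TwCol p z (cz ζ)) (u : ZMod p) (hu : u ≠ 0) (Y : (ZMod p)ˣ → IrrCharacter G)
    (hY : YFam p w z ζ u Y) : RestP p z (cz ζ) Y := by
  classical
  have hp : p.Prime := Fact.out
  have : Fact (1 < p) := ⟨hp.one_lt⟩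
  have hp5 : 5 < p := h.p5
  have hw1 : w ^ p = 1 := hw.pow_eq_one
  have hzp : z ^ p = 1 := by rw [← h.ord]; exact pow_orderOf_eq_one z
  obtain ⟨hY1, hYzc, hYval, hYdeg, hYreg, hYeq⟩ := hY
  have hpC : (p : ℂ) ≠ 0 := by exact_mod_cast hp.ne_zero
  -- splitting the sum
  have hsplit : ∀ f : IrrCharacter G → ℂ,
      ∑ φ : IrrCharacter G, (if ZC (cz ζ) φ.1 then f φ else 0) =
        ∑ φ : IrrCharacter G, (if ZC (cz ζ) φ.1 ∧ ∀ k, φ ≠ Y k then f φ else 0) +
          (1 / 2) * ∑ k, f (Y k) := by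
    intro f
    rw [← blkr1_two_to_one p (by omega) Y hYeq f, ← Finset.sum_add_distrib]
    apply Finset.sum_congr rfl
    intro φ _
    by_cases hφ : ∃ k, φ = Y k
    · obtain ⟨k, rfl⟩ := hφ
      have h1 : ¬ (ZC (cz ζ) (Y k).1 ∧ ∀ k', Y k ≠ Y k') := fun h => h.2 k rfl
      rw [if_pos (hYzc k), if_neg h1, if_pos ⟨k, rfl⟩, zero_add]
    · have h1 : ∀ k, φ ≠ Y k := fun k hk => hφ ⟨k, hk⟩
      rw [if_neg hφ, add_zero]
      by_cases hz : ZC (cz ζ) φ.1
      · rw [if_pos hz, if_pos ⟨hz, h1⟩]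
      · rw [if_neg hz, if_neg (fun h => hz h.1)]
  -- the rest sums
  have hR : ∀ j l : ZMod p, j ≠ 0 → l ≠ 0 →
      ∑ φ : IrrCharacter G, (if ZC (cz ζ) φ.1 ∧ ∀ k, φ ≠ Y k then
        φ.1 (z ^ j.val) * conj (φ.1 (z ^ l.val)) else 0) = 2 := by
    intro j l hj hl0
    have h1 := htw j l hl0
    rw [hsplit (fun φ => φ.1 (z ^ j.val) * conj (φ.1 (z ^ l.val)))] at h1
    have h2 : ∑ k : (ZMod p)ˣ, (Y k).1 (z ^ j.val) * conj ((Y k).1 (z ^ l.val)) =
        ∑ k : (ZMod p)ˣ, ev p w (u * (k : ZMod p)) j * conj (ev p w (u * (k : ZMod p)) l) := by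
      apply Finset.sum_congr rfl
      intro k _
      rw [hYval k j hj, hYval k l hl0, map_neg, neg_mul_neg]
    rw [h2, blkr1_A p w hw u hu j l] at h1
    have hne : ¬ (j = l ∧ j = -l) := by
      rintro ⟨h3, h4⟩
      have h5 : (2 : ZMod p) * l = 0 := by rw [h3] at h4; linear_combination h4
      have h6 : (2 : ZMod p) = 0 := by
        rcases mul_eq_zero.mp h5 with h | h
        · exact h
        · exact absurd h hl0
      have h7 : ((2 : ℕ) : ZMod p) = 0 := by exact_mod_cast h6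
      rw [ZMod.natCast_eq_zero_iff] at h7
      have := Nat.le_of_dvd (by norm_num) h7
      omega
    have e1 : (j + l = 0) ↔ j = -l := ⟨fun h => by linear_combination h, fun h => by rw [h]; ring⟩
    have e2 : (j - l = 0) ↔ j = l := sub_eq_zero
    have e3 : (l - j = 0) ↔ j = l := ⟨fun h => by linear_combination -h, fun h => by rw [h]; ring⟩
    have e4 : (-j - l = 0) ↔ j = -l :=
      ⟨fun h => by linear_combination -h, fun h => by rw [h]; ring⟩
    simp only [e1, e2, e3, e4] at h1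
    by_cases h3 : j = l
    · have h4 : ¬ j = -l := fun h4 => hne ⟨h3, h4⟩
      simp only [h3, h4, if_true, if_false, true_or] at h1 ⊢
      have h5 : ¬ l = -l := fun h5 => h4 (h3.trans h5)
      simp only [h5, if_false] at h1
      linear_combination h1
    · by_cases h4 : j = -l
      · simp only [h3, h4, if_true, if_false, or_true] at h1 ⊢
        have h5 : ¬ -l = l := fun h5 => h3 (h4.trans h5)
        simp only [h5, if_false] at h1
        linear_combination h1
      · simp only [h3, h4, if_false, or_self] at h1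
        linear_combination h1
  -- constancy
  have hconst : ∀ φ : IrrCharacter G, ZC (cz ζ) φ.1 → (∀ k, φ ≠ Y k) →
      ∀ j l : ZMod p, j ≠ 0 → l ≠ 0 → φ.1 (z ^ j.val) = φ.1 (z ^ l.val) := by
    intro φ hφz hφY j l hj hl0
    have hsum : ∑ ψ : IrrCharacter G, (((if ZC (cz ζ) ψ.1 ∧ ∀ k, ψ ≠ Y k then
        Complex.normSq (ψ.1 (z ^ j.val) - ψ.1 (z ^ l.val)) else 0 : ℝ)) : ℂ) = 0 := by
      have e : ∀ ψ : IrrCharacter G, (((if ZC (cz ζ) ψ.1 ∧ ∀ k, ψ ≠ Y k then
          Complex.normSq (ψ.1 (z ^ j.val) - ψ.1 (z ^ l.val)) else 0 : ℝ)) : ℂ) =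
          (if ZC (cz ζ) ψ.1 ∧ ∀ k, ψ ≠ Y k then
            ψ.1 (z ^ j.val) * conj (ψ.1 (z ^ j.val)) else 0) -
          (if ZC (cz ζ) ψ.1 ∧ ∀ k, ψ ≠ Y k then
            ψ.1 (z ^ j.val) * conj (ψ.1 (z ^ l.val)) else 0) -
          (if ZC (cz ζ) ψ.1 ∧ ∀ k, ψ ≠ Y k then
            ψ.1 (z ^ l.val) * conj (ψ.1 (z ^ j.val)) else 0) +
          (if ZC (cz ζ) ψ.1 ∧ ∀ k, ψ ≠ Y k then
            ψ.1 (z ^ l.val) * conj (ψ.1 (z ^ l.val)) else 0) := by
        intro ψ
        by_cases hψ : ZC (cz ζ) ψ.1 ∧ ∀ k, ψ ≠ Y k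
        · rw [if_pos hψ, if_pos hψ, if_pos hψ, if_pos hψ, if_pos hψ, ← Complex.mul_conj,
            map_sub]
          ring
        · rw [if_neg hψ, if_neg hψ, if_neg hψ, if_neg hψ, if_neg hψ]
          simp
      rw [Finset.sum_congr rfl (fun ψ _ => e ψ), Finset.sum_add_distrib, Finset.sum_sub_distrib,
        Finset.sum_sub_distrib, hR j j hj hj, hR j l hj hl0, hR l j hl0 hj, hR l l hl0 hl0]
      ring
    rw [← Complex.ofReal_sum] at hsum
    have hsum' := Complex.ofReal_eq_zero.mp hsum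
    have hnn : ∀ ψ ∈ (Finset.univ : Finset (IrrCharacter G)),
        0 ≤ (if ZC (cz ζ) ψ.1 ∧ ∀ k, ψ ≠ Y k then
          Complex.normSq (ψ.1 (z ^ j.val) - ψ.1 (z ^ l.val)) else 0 : ℝ) := by
      intro ψ _
      split_ifs
      · exact Complex.normSq_nonneg _
      · exact le_refl _
    have h0 := (Finset.sum_eq_zero_iff_of_nonneg hnn).mp hsum' φ (Finset.mem_univ _)
    rw [if_pos ⟨hφz, hφY⟩] at h0
    exact sub_eq_zero.mp (Complex.normSq_eq_zero.mp h0)
  have hval1 : (1 : ZMod p).val = 1 := ZMod.val_one p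
  refine ⟨?_, ?_, ?_⟩
  · intro φ hφz hφY
    have hchar : IsCharacter G φ.1 := by
      obtain ⟨n, ρ, -, hρ⟩ := φ.2
      exact ⟨n, ρ, hρ⟩
    obtain ⟨a, ha⟩ := Cfsg.Agent.Lib.Helper68.BFT.pdec p w hw φ.1 hchar z hzp
    set c : ℂ := φ.1 (z ^ (1 : ZMod p).val) with hc
    have hcv : ∀ t : ZMod p, t ≠ 0 → φ.1 (z ^ t.val) = c :=
      fun t ht => hconst φ hφz hφY t 1 ht one_ne_zero
    have hF := Cfsg.Agent.Lib.Helper33.TI.const_of_fourier_zero p w hw
      (fun v => if v = 0 then (a 0 : ℂ) - c else (a v : ℂ)) (by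
        intro t ht
        have e : ∀ b : ZMod p, w ^ (b * t).val * (if b = 0 then (a 0 : ℂ) - c else (a b : ℂ)) =
            (a b : ℂ) * w ^ (b * t).val - (if b = 0 then c else 0) := by
          intro b
          by_cases hb : b = 0
          · subst hb
            rw [if_pos rfl, if_pos rfl, zero_mul, ZMod.val_zero, pow_zero]
            ring
          · rw [if_neg hb, if_neg hb]
            ring
        rw [Finset.sum_congr rfl (fun b _ => e b), Finset.sum_sub_distrib, ← ha t, hcv t ht]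
        simp) 0 1
    simp only [if_true, one_ne_zero, if_false] at hF
    refine ⟨(a 0 : ℤ) - (a 1 : ℤ), fun t ht => ?_⟩
    rw [hcv t ht]
    push_cast
    linear_combination -hF
  · have h1 := hR 1 1 one_ne_zero one_ne_zero
    rw [hval1, pow_one] at h1
    convert h1
  · have h1 := htw 0 1 one_ne_zero
    rw [hsplit (fun φ => φ.1 (z ^ (0 : ZMod p).val) * conj (φ.1 (z ^ (1 : ZMod p).val)))] at h1
    have h2 : ∑ k : (ZMod p)ˣ, (Y k).1 (z ^ (0 : ZMod p).val) *
        conj ((Y k).1 (z ^ (1 : ZMod p).val)) =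
        -((p : ℂ) - 2) * ∑ k : (ZMod p)ˣ, conj (ev p w (u * (k : ZMod p)) 1) := by
      rw [Finset.mul_sum]
      apply Finset.sum_congr rfl
      intro k _
      rw [ZMod.val_zero, pow_zero, hYdeg k, hYval k 1 one_ne_zero, map_neg]
      ring
    rw [h2, blkr1_B p w hw u hu] at h1
    have h01 : ¬ ((0 : ZMod p) = 1 ∨ (0 : ZMod p) = -1) := by
      rintro (h3 | h3)
      · exact zero_ne_one h3
      · exact (neg_ne_zero.mpr one_ne_zero) h3.symm
    rw [if_neg h01, ZMod.val_zero, pow_zero, hval1, pow_one] at h1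
    have h3 : ∑ φ : IrrCharacter G, (if ZC (cz ζ) φ.1 ∧ ∀ k, φ ≠ Y k then
        φ.1 1 * conj (φ.1 z) else 0) = -((p : ℂ) - 2) := by
      linear_combination h1
    convert h3

end Cfsg.Agent.Lib.Helper97.PT
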