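import Mathlib

/-!
# SP4E piece CFIELD (for S5789): a quadratic extension and a linear functional
-/

set_option autoImplicit false

namespace Cfsg.Agent.Lib.Helper97.Sp4E

theorem exists_lam {F : Type*} [Field F] {L : Type*} [Field L] [Algebra F L]
    (hrank : Module.finrank F L = 2) (β : L →ₗ[F] F) :
    ∃ (lam a₀ : L) (κ : F), κ ≠ 0 ∧
      (∀ l : L, ∃ x y : F, l = algebraMap F L x + algebraMap F L y * lam) ∧
      ∀ z : L, a₀ * z = algebraMap F L (κ * β z) + algebraMap F L (β (lam * z)) * lam := by
  classical
  haveI : Module.Finite F L := Module.finite_of_finrank_pos (by rw [hrank]; norm_num)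
  -- a non-rational element
  obtain ⟨lam, hlam⟩ : ∃ lam : L, lam ∉ Set.range (algebraMap F L) := by
    by_contra hcon
    push Not at hcon
    have h1 : Module.finrank F L ≤ 1 := by
      refine finrank_le_one (1 : L) ?_
      intro w
      obtain ⟨c, hc⟩ := hcon w
      exact ⟨c, by rw [Algebra.smul_def, mul_one, hc]⟩
    omega
  have hli : LinearIndependent F ![(1 : L), lam] := by
    rw [LinearIndependent.pair_iff]
    intro s t hst
    have ht : t = 0 := by
      by_contra ht
      apply hlam
      refine ⟨-(s / t), ?_⟩
      have h2 : t • lam = -(s • (1 : L)) := by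
        rw [eq_neg_iff_add_eq_zero, add_comm]; exact hst
      have h3 : lam = t⁻¹ • (t • lam) := by rw [smul_smul, inv_mul_cancel₀ ht, one_smul]
      rw [h3, h2, smul_neg, smul_smul, Algebra.smul_def, mul_one, ← map_neg]
      congr 1
      field_simp
    subst ht
    rw [zero_smul, add_zero] at hst
    have hs : s = 0 := by
      rcases smul_eq_zero.mp hst with h | h
      · exact h
      · exact absurd h one_ne_zero
    exact ⟨hs, rfl⟩
  have hspan : Submodule.span F (Set.range ![(1 : L), lam]) = ⊤ :=
    hli.span_eq_top_of_card_eq_finrank' (by rw [hrank]; simp)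
  have hdec : ∀ l : L, ∃ x y : F, l = algebraMap F L x + algebraMap F L y * lam := by
    intro l
    have hl : l ∈ Submodule.span F (Set.range ![(1 : L), lam]) := by rw [hspan]; trivial
    rw [Submodule.mem_span_range_iff_exists_fun] at hl
    obtain ⟨c, hc⟩ := hl
    refine ⟨c 0, c 1, ?_⟩
    rw [← hc, Fin.sum_univ_two]
    simp [Algebra.smul_def]
  obtain ⟨q, p, hpq⟩ := hdec (lam * lam)
  have hq : q ≠ 0 := by
    rintro rfl
    rw [map_zero, zero_add] at hpq
    have h0 : lam ≠ 0 := by
      rintro rfl
      exact hlam ⟨0, map_zero _⟩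
    have h1 : lam = algebraMap F L p := mul_right_cancel₀ h0 hpq
    exact hlam ⟨p, h1.symm⟩
  refine ⟨lam, algebraMap F L (q * β 1) + algebraMap F L (β lam) * lam, q, hq, hdec, ?_⟩
  intro z
  obtain ⟨x, y, rfl⟩ := hdec z
  have hβ : ∀ x y : F, β (algebraMap F L x + algebraMap F L y * lam) = x * β 1 + y * β lam := by
    intro x y
    have h1 : algebraMap F L x + algebraMap F L y * lam = x • (1 : L) + y • lam := by
      simp [Algebra.smul_def]
    rw [h1, map_add, map_smul, map_smul, smul_eq_mul, smul_eq_mul]
  have hlz : lam * (algebraMap F L x + algebraMap F L y * lam)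
      = algebraMap F L (y * q) + algebraMap F L (x + y * p) * lam := by
    simp only [map_mul, map_add]
    linear_combination (algebraMap F L y) * hpq
  rw [hlz, hβ, hβ]
  simp only [map_mul, map_add]
  linear_combination (algebraMap F L (β lam) * algebraMap F L y) * hpq

end Cfsg.Agent.Lib.Helper97.Sp4E
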