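import Mathlib

/-!
# SP4E piece QLEM (for S5789): a field lemma in characteristic two
-/

set_option autoImplicit false

namespace Cfsg.Agent.Lib.Helper97.Sp4E

variable {F : Type*} [Field F]

theorem qlem [Fintype F] (h2 : (2 : F) = 0) (F₀ : Subfield F) (r : ℕ) (hr : r.Prime)
    (hcard : Fintype.card F = Nat.card F₀ ^ r) (hex : ¬ (Nat.card F₀ = 2 ∧ r = 2)) (x : F)
    (hx : ∀ l ∈ F₀, (l * x) ^ 2 + l * x ∈ F₀) : x ∈ F₀ := by
  have hneg : ∀ a : F, -a = a := by
    intro a
    have h : a + a = 0 := by rw [← two_mul, h2, zero_mul]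
    exact neg_eq_of_add_eq_zero_left h
  have hc : x ^ 2 + x ∈ F₀ := by
    have h := hx 1 (one_mem F₀)
    simpa using h
  by_cases hcase : ∃ l ∈ F₀, l ≠ 0 ∧ l ≠ 1
  · obtain ⟨l, hl, hl0, hl1⟩ := hcase
    have h1 := hx l hl
    have h3 : (l ^ 2 + l) * x = ((l * x) ^ 2 + l * x) - l ^ 2 * (x ^ 2 + x) := by
      have h22 : (2 : F) * (l ^ 2 * x) = 0 := by rw [h2, zero_mul]
      linear_combination h22
    have h4 : (l ^ 2 + l) * x ∈ F₀ := by
      rw [h3]
      exact sub_mem h1 (mul_mem (pow_mem hl 2) hc)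
    have h5 : l ^ 2 + l ≠ 0 := by
      have h : l ^ 2 + l = l * (l + 1) := by ring
      rw [h]
      refine mul_ne_zero hl0 ?_
      intro h'
      apply hl1
      have h'' : l = -1 := eq_neg_of_add_eq_zero_left h'
      rw [h'', hneg]
    have h6 : x = (l ^ 2 + l)⁻¹ * ((l ^ 2 + l) * x) := by
      rw [← mul_assoc, inv_mul_cancel₀ h5, one_mul]
    rw [h6]
    exact mul_mem (inv_mem (add_mem (pow_mem hl 2) hl)) h4
  · have hF0 : ∀ l ∈ F₀, l = 0 ∨ l = 1 := by
      intro l hl
      by_cases h0 : l = 0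
      · exact Or.inl h0
      · right
        by_contra h1
        exact hcase ⟨l, hl, h0, h1⟩
    have hcard2 : Nat.card F₀ = 2 := by
      rw [Nat.card_eq_two_iff]
      refine ⟨0, 1, zero_ne_one, ?_⟩
      ext ⟨l, hl⟩
      simp only [Set.mem_insert_iff, Set.mem_singleton_iff, Set.mem_univ, iff_true]
      rcases hF0 l hl with h | h
      · left; exact Subtype.ext h
      · right; exact Subtype.ext h
    have hr2 : r ≠ 2 := fun h => hex ⟨hcard2, h⟩
    have hodd : Odd r := hr.odd_of_ne_two hr2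
    obtain ⟨k, hk⟩ := hodd
    rcases hF0 _ hc with h | h
    · have h' : x * (x + 1) = 0 := by rw [← h]; ring
      rcases mul_eq_zero.mp h' with h'' | h''
      · rw [h'']; exact zero_mem F₀
      · have h3 : x = -1 := eq_neg_of_add_eq_zero_left h''
        rw [h3]; exact neg_mem (one_mem F₀)
    · exfalso
      have hx2 : x ^ 2 = x + 1 := by
        have h22 : (2 : F) * x = 0 := by rw [h2, zero_mul]
        linear_combination h - h22
      have hx4 : x ^ 4 = x := by
        have h4 : x ^ 4 = (x ^ 2) ^ 2 := by ring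
        rw [h4, hx2]
        have h22 : (2 : F) * (x + 1) = 0 := by rw [h2, zero_mul]
        linear_combination hx2 + h22
      have hpow : ∀ j : ℕ, x ^ (4 ^ j) = x := by
        intro j
        induction j with
        | zero => simp
        | succ j ih => rw [pow_succ, pow_mul, ih, hx4]
      have hfin : x ^ Fintype.card F = x := FiniteField.pow_card x
      rw [hcard, hcard2, hk] at hfin
      have h5 : (2 : ℕ) ^ (2 * k + 1) = 4 ^ k * 2 := by
        rw [pow_succ, pow_mul]; norm_num
      rw [h5, pow_mul, hpow, hx2] at hfin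
      have h6 : x + 1 = x + 0 := by rw [hfin, add_zero]
      exact one_ne_zero (add_left_cancel h6)

end Cfsg.Agent.Lib.Helper97.Sp4E
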