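import Mathlib
import Cfsg.Prelude.Def_GeometricClasses
import Cfsg.Agent.Lib.Helper97.SpOver2

/-!
# Symplectic overgroups: stabilisers of totally singular subspaces

Helper library (helper97): overgroups of the isometries stabilising a non-zero totally singular
subspace `W` that contain an isometry not stabilising `W` have every vector as a transvection
centre.
-/

set_option autoImplicit false

namespace Cfsg.Agent.Lib.Helper97

open Matrix

variable {ι : Type} [Fintype ι] [DecidableEq ι] {F : Type*} [Field F]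
variable {f : (ι → F) → (ι → F) → F}

section symp

variable (hf : Cfsg.Geo.IsSymplecticForm f)
include hf

omit [DecidableEq ι] in
lemma perp_perp (W : Submodule F (ι → F)) : perp hf (perp hf W) = W :=
  LinearMap.BilinForm.orthogonal_orthogonal (bil_nondegenerate hf) (bil_isRefl hf) W

lemma gl_inv_pres {g : GL ι F}
    (hgf : ∀ x y, f ((g : Matrix ι ι F) *ᵥ x) ((g : Matrix ι ι F) *ᵥ y) = f x y) :
    ∀ x y, f (((g⁻¹ : GL ι F) : Matrix ι ι F) *ᵥ x) (((g⁻¹ : GL ι F) : Matrix ι ι F) *ᵥ y) =
      f x y := by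
  intro x y
  have h3 := hgf (((g⁻¹ : GL ι F) : Matrix ι ι F) *ᵥ x) (((g⁻¹ : GL ι F) : Matrix ι ι F) *ᵥ y)
  rw [gl_mulVec_inv, gl_mulVec_inv] at h3
  exact h3.symm

/-- Overgroups of the stabiliser of a totally singular subspace: every vector is a centre. -/
theorem ts_stab_overgroup (W : Submodule F (ι → F)) (hts : ∀ u ∈ W, ∀ v ∈ W, f u v = 0)
    (M : Subgroup (GL ι F))
    (hHM : ∀ t : GL ι F, t ∈ Cfsg.Geo.subspaceStabilizer W →
      (∀ x y, f ((t : Matrix ι ι F) *ᵥ x) ((t : Matrix ι ι F) *ᵥ y) = f x y) → t ∈ M)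
    (g : GL ι F) (hgM : g ∈ M)
    (hgf : ∀ x y, f ((g : Matrix ι ι F) *ᵥ x) ((g : Matrix ι ι F) *ᵥ y) = f x y)
    (hg : g ∉ Cfsg.Geo.subspaceStabilizer W) : ∀ v, InS f M v := by
  have hb := hf.bilinear
  have hWA : ∀ w ∈ W, w ∈ perp hf W := fun w hw => (mem_perp hf).mpr (fun w' hw' => hts w' hw' w hw)
  have hA : ∀ a ∈ perp hf W, InS f M a := fun a ha =>
    InS_of_mem hf (fun c => hHM _ (stv_mem_stab_of_perp hf ha c) (stv_pres hf a c))
  have hginv := gl_inv_pres hf hgf
  -- a centre outside `perp W`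
  have hex : ∃ s, InS f M s ∧ s ∉ perp hf W := by
    by_contra hcon
    push Not at hcon
    apply hg
    apply stab_of_map_le
    intro x hx
    rw [← perp_perp hf W, mem_perp]
    intro a ha
    have h1 := hcon _ (InS_conj hf (M.inv_mem hgM) hginv (hA a ha))
    have h2 := (mem_perp' hf).mp h1 x hx
    rw [← hgf, gl_mulVec_inv] at h2
    exact h2
  obtain ⟨s, hs, hsA⟩ := hex
  have hnot : ∀ b : ι → F, b ∉ perp hf W → ∃ w ∈ W, f w b ≠ 0 := by
    intro b hb'
    by_contra hcon
    push Not at hcon
    exact hb' ((mem_perp hf).mpr hcon)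
  -- step 2
  have step2 : ∀ b : ι → F, InS f M b → b ∉ perp hf W → ∀ a ∈ perp hf W, InS f M (b + a) := by
    intro b hbS hbA a ha
    by_cases h0 : f b a = 0
    · obtain ⟨w₀, hw₀, hw₀b⟩ := hnot b hbA
      have habA : a + b ∉ perp hf W := by
        intro h
        apply hbA
        have e : b = a + b - a := by abel
        rw [e]
        exact Submodule.sub_mem _ h ha
      obtain ⟨w₁, hw₁, hw₁b⟩ := hnot (a + b) habA
      have hex2 : ∃ a' ∈ W, f a' b ≠ 0 ∧ f a' (a + b) ≠ 0 := by
        by_cases h1 : f w₀ (a + b) = 0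
        · by_cases h2 : f w₁ b = 0
          · refine ⟨w₀ + w₁, W.add_mem hw₀ hw₁, ?_, ?_⟩
            · rw [hb.add_left, h2, add_zero]
              exact hw₀b
            · rw [hb.add_left, h1, zero_add]
              exact hw₁b
          · exact ⟨w₁, hw₁, h2, hw₁b⟩
        · exact ⟨w₀, hw₀, hw₀b, h1⟩
      obtain ⟨a', ha', ha'b, ha'ab⟩ := hex2
      have h1 : InS f M (b + a') := InS_add hf (hA a' (hWA a' ha')) hbS (by
        rw [hf.skew]
        exact neg_ne_zero.mpr ha'b)
      have h2 : InS f M (a - a') := hA _ (Submodule.sub_mem _ ha (hWA a' ha'))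
      have e : f (b + a') (a - a') = f a' (a + b) := by
        rw [form_sub_right hb, hb.add_left, hb.add_left, h0, hf.alternating, hb.add_right,
          hf.skew b a']
        ring
      have h3 := InS_add hf h2 h1 (by rw [e]; exact ha'ab)
      have e2 : b + a' + (a - a') = b + a := by abel
      rwa [e2] at h3
    · exact InS_add hf (hA a ha) hbS h0
  -- step 3: closure under addition
  have step3 : ∀ x y : ι → F, InS f M x → InS f M y → InS f M (x + y) := by
    intro x y hx hy
    by_cases hxA : x ∈ perp hf W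
    · by_cases hyA : y ∈ perp hf W
      · exact hA _ (Submodule.add_mem _ hxA hyA)
      · have h := step2 y hy hyA x hxA
        rwa [add_comm] at h
    · by_cases hyA : y ∈ perp hf W
      · exact step2 x hx hxA y hyA
      · by_cases hxy : f x y = 0
        · obtain ⟨a'', ha'', hxa⟩ := hnot x hxA
          have hxa' : f x a'' ≠ 0 := by
            rw [hf.skew]
            exact neg_ne_zero.mpr hxa
          have h1 := step2 y hy hyA a'' (hWA a'' ha'')
          have h2 := InS_add hf h1 hx (by rw [hb.add_right, hxy, zero_add]; exact hxa')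
          by_cases hz : x + (y + a'') ∈ perp hf W
          · have e : x + y = x + (y + a'') - a'' := by abel
            rw [e]
            exact hA _ (Submodule.sub_mem _ hz (hWA a'' ha''))
          · have h3 := step2 _ h2 hz (-a'') (Submodule.neg_mem _ (hWA a'' ha''))
            have e : x + (y + a'') + -a'' = x + y := by abel
            rwa [e] at h3
        · exact InS_add hf hy hx hxy
  -- step 4
  obtain ⟨u, hu, hus⟩ := hnot s hsA
  have hsu : f s u ≠ 0 := by
    rw [hf.skew]
    exact neg_ne_zero.mpr hus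
  have key : ∀ w : ι → F, f u w = 0 → InS f M w := by
    intro w huw
    have hwu : f w u = 0 := by rw [hf.skew, huw, neg_zero]
    have hE : ∀ x : ι → F,
        ((tvG (u + w) ((1 : F) • rho f (u + w)) (symp_dot0 hf _ 1) *
          tvG u ((-1 : F) • rho f u) (symp_dot0 hf _ _) *
          tvG w ((-1 : F) • rho f w) (symp_dot0 hf _ _) : GL ι F) : Matrix ι ι F) *ᵥ x =
          x + f x u • w + f x w • u := by
      intro x
      rw [Units.val_mul, Units.val_mul, ← Matrix.mulVec_mulVec, ← Matrix.mulVec_mulVec,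
        stv_mulVec hf, stv_mulVec hf, stv_mulVec hf]
      simp only [hb.add_left, hb.add_right, hb.smul_left, hf.alternating, hwu, huw]
      simp only [smul_add, mul_zero, add_zero, zero_add, mul_one, one_mul, neg_mul, neg_smul,
        add_smul]
      abel
    have hEf : ∀ x y : ι → F,
        f (((tvG (u + w) ((1 : F) • rho f (u + w)) (symp_dot0 hf _ 1) *
          tvG u ((-1 : F) • rho f u) (symp_dot0 hf _ _) *
          tvG w ((-1 : F) • rho f w) (symp_dot0 hf _ _) : GL ι F) : Matrix ι ι F) *ᵥ x)
          (((tvG (u + w) ((1 : F) • rho f (u + w)) (symp_dot0 hf _ 1) *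
          tvG u ((-1 : F) • rho f u) (symp_dot0 hf _ _) *
          tvG w ((-1 : F) • rho f w) (symp_dot0 hf _ _) : GL ι F) : Matrix ι ι F) *ᵥ y) =
          f x y := by
      intro x y
      rw [Units.val_mul, Units.val_mul, ← Matrix.mulVec_mulVec, ← Matrix.mulVec_mulVec,
        ← Matrix.mulVec_mulVec, ← Matrix.mulVec_mulVec, stv_pres hf, stv_pres hf, stv_pres hf]
    have hEM := hHM _ (stab_of_map_le W _ (fun x hx => by
      rw [hE x, hts x hx u hu, zero_smul, add_zero]
      exact W.add_mem hx (W.smul_mem _ hu))) hEf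
    have h1 := InS_conj hf hEM hEf hs
    rw [hE s] at h1
    have h2 : InS f M (-s) := InS_neg hf hs
    have h3 : InS f M (-(f s w • u)) := InS_neg hf (InS_smul hf (hA u (hWA u hu)) _)
    have h4 := step3 _ _ (step3 _ _ h1 h2) h3
    have e : s + f s u • w + f s w • u + -s + -(f s w • u) = f s u • w := by abel
    rw [e] at h4
    have h5 := InS_smul hf h4 (f s u)⁻¹
    rwa [smul_smul, inv_mul_cancel₀ hsu, one_smul] at h5
  intro x
  have hus' : f u s ≠ 0 := by
    rw [hf.skew]
    exact neg_ne_zero.mpr hsu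
  have h1 : InS f M (x - (f u x / f u s) • s) := by
    apply key
    rw [form_sub_smul_right hb, div_mul_cancel₀ _ hus', sub_self]
  have h2 := step3 _ _ h1 (InS_smul hf hs (f u x / f u s))
  have e : x - (f u x / f u s) • s + (f u x / f u s) • s = x := by abel
  rwa [e] at h2

/-- Some isometry does not stabilise a non-zero totally singular subspace. -/
theorem exists_isometry_not_stab_ts (W : Submodule F (ι → F))
    (hts : ∀ u ∈ W, ∀ v ∈ W, f u v = 0) (hW0 : W ≠ ⊥) : ∃ t : GL ι F,
      (∀ x y, f ((t : Matrix ι ι F) *ᵥ x) ((t : Matrix ι ι F) *ᵥ y) = f x y) ∧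
      t ∉ Cfsg.Geo.subspaceStabilizer W := by
  obtain ⟨w, hw, hw0⟩ := Submodule.exists_mem_ne_zero_of_ne_bot hW0
  obtain ⟨v, hv⟩ := (hf.nondegenerate w hw0).2
  have hvW : v ∉ W := fun h => hv (hts w hw v h)
  refine ⟨tvG v ((1 : F) • rho f v) (symp_dot0 hf _ 1), stv_pres hf _ 1, ?_⟩
  intro hmem
  have h1 := ((mem_subspaceStabilizer_iff W _).mp hmem w).mp hw
  rw [stv_mulVec hf, one_mul] at h1
  apply hvW
  have h2 : f w v • v ∈ W := by
    have e : f w v • v = w + f w v • v - w := by abel
    rw [e]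
    exact W.sub_mem h1 hw
  have e : v = (f w v)⁻¹ • (f w v • v) := by
    rw [smul_smul, inv_mul_cancel₀ hv, one_smul]
  rw [e]
  exact W.smul_mem _ h2

end symp

end Cfsg.Agent.Lib.Helper97
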