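import Mathlib

set_option autoImplicit false

namespace Cfsg.Agent.Lib.Helper99.T2

open scoped commutatorElement

theorem t2_transfer {Γ : Type*} [Group Γ] (G T : Subgroup Γ) (N : ℕ)
    (hmap : (commutator ↥G).map G.subtype = T) (hidx : (commutator ↥G).index = 2)
    (hsimple : IsSimpleGroup ↥T) (hnc : ∃ x ∈ T, ∃ y ∈ T, x * y ≠ y * x)
    (hcard : Nat.card ↥T = N) :
    (commutator ↥G).index = 2 ∧ IsSimpleGroup ↥(commutator ↥G) ∧
      ¬ IsMulCommutative ↥(commutator ↥G) ∧ Nat.card ↥(commutator ↥G) = N := by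
  subst hmap
  have e : ↥(commutator ↥G) ≃* ↥((commutator ↥G).map G.subtype) :=
    Subgroup.equivMapOfInjective _ G.subtype (Subgroup.subtype_injective G)
  refine ⟨hidx, ?_, ?_, ?_⟩
  · exact e.isSimpleGroup
  · intro hcomm
    obtain ⟨x, hx, y, hy, hxy⟩ := hnc
    apply hxy
    have h1 : e.symm ⟨x, hx⟩ * e.symm ⟨y, hy⟩ = e.symm ⟨y, hy⟩ * e.symm ⟨x, hx⟩ :=
      hcomm.is_comm.comm _ _
    have h2 : (⟨x, hx⟩ : ↥((commutator ↥G).map G.subtype)) * ⟨y, hy⟩ = ⟨y, hy⟩ * ⟨x, hx⟩ := by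
      apply e.symm.injective
      rw [map_mul, map_mul]
      exact h1
    exact congrArg Subtype.val h2
  · rw [Nat.card_congr e.toEquiv]
    exact hcard

end Cfsg.Agent.Lib.Helper99.T2
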