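import Mathlib
import Cfsg.Prelude.Def_GeometricClasses
import Cfsg.Agent.Lib.Helper97.Transv
import Cfsg.Agent.Lib.Helper97.TransvM
import Cfsg.Agent.Lib.Helper71.TP0
import Cfsg.Agent.Lib.Helper71.TP1
import Cfsg.Agent.Lib.Helper87.TPFLAGW
import Cfsg.Agent.Lib.Helper57.TPFIB
import Cfsg.Agent.Lib.Helper35.TPRA
import Cfsg.Agent.Lib.Helper46.TPRB
import Cfsg.Agent.Lib.Helper19.TPRC
import Cfsg.Agent.Lib.Helper57.TPF1

/-!
# S5637, piece G1 (helper97 for helper71): for `x ∈ M ∖ N` the conjugate of a root element of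
`N` by `x` is not in `N`.
-/

set_option autoImplicit false

namespace Cfsg.Agent.Lib.Helper97.TPG1

open Matrix Cfsg.Agent.Lib.Helper71.TP Cfsg.Agent.Lib.Helper97
open Cfsg.Agent.Lib.Helper87.TPFLAGW Cfsg.Agent.Lib.Helper57.TPFIB Cfsg.Agent.Lib.Helper35.TPRA
  Cfsg.Agent.Lib.Helper46.TPRB Cfsg.Agent.Lib.Helper19.TPRC Cfsg.Agent.Lib.Helper57.TPF1
open scoped Kronecker

variable {a b : ℕ} {F : Type*} [Field F]

/-- R (assembly of RA, RB, RC, as in the skeleton) -/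
theorem g1_quad_kron_form (ha : 1 ≤ a) (hab : a < b) (hb : 3 ≤ b) (A : Matrix (Fin a) (Fin a) F)
    (B : Matrix (Fin b) (Fin b) F)
    (S : Submodule F (Fin a × Fin b → F)) (hS : Module.finrank F ↥S ≤ a)
    (hrange : ∀ v : Fin a × Fin b → F, (A ⊗ₖ B) *ᵥ v - v ∈ S)
    (hsq : ∀ v : Fin a × Fin b → F, (A ⊗ₖ B) *ᵥ ((A ⊗ₖ B) *ᵥ v - v) = (A ⊗ₖ B) *ᵥ v - v)
    (hne : A ⊗ₖ B ≠ 1) :
    ∃ w ψ : Fin b → F, w ≠ 0 ∧ ψ ≠ 0 ∧ ψ ⬝ᵥ w = 0 ∧ A ⊗ₖ B = 1 + kv 1 w ψ := by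
  have hB := kron_right_nonscalar hab A B S hS hrange hne
  obtain ⟨c, rfl⟩ := kron_left_scalar hb A B S hS hrange hB
  exact kron_right_form ha c B S hS hrange hsq hne

/-- a vector with value `1` under a non-zero functional -/
theorem g1_exists_dual (ψ : Fin b → F) (hψ : ψ ≠ 0) : ∃ w₁ : Fin b → F, ψ ⬝ᵥ w₁ = 1 := by
  classical
  obtain ⟨j, hj⟩ : ∃ j, ψ j ≠ 0 := by
    by_contra hcon
    push Not at hcon
    exact hψ (funext hcon)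
  refine ⟨(ψ j)⁻¹ • Pi.single j 1, ?_⟩
  rw [dotProduct_smul, dotProduct_single, mul_one, smul_eq_mul, inv_mul_cancel₀ hj]

/-- an element of `SL_b` moving `w₂` to `w` -/
theorem g1_exists_move (hb : 3 ≤ b) (w ψ w₂ ψ₂ : Fin b → F) (hw : w ≠ 0) (hψ : ψ ≠ 0)
    (h : ψ ⬝ᵥ w = 0) (hw₂ : w₂ ≠ 0) (hψ₂ : ψ₂ ≠ 0) (h₂ : ψ₂ ⬝ᵥ w₂ = 0) :
    ∃ C : GL (Fin b) F, C.1.det = 1 ∧ C.1 *ᵥ w₂ = w := by
  obtain ⟨B₁, hB₁d, hB₁, -⟩ := exists_flagW hb w ψ hw hψ h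
  obtain ⟨B₂, hB₂d, hB₂, -⟩ := exists_flagW hb w₂ ψ₂ hw₂ hψ₂ h₂
  refine ⟨B₁ * B₂⁻¹, ?_, ?_⟩
  · have h1 : (B₂⁻¹ : GL (Fin b) F).1.det = 1 := by
      have h2 : (B₂⁻¹ : GL (Fin b) F).1 * B₂.1 = 1 := by
        rw [← Units.val_mul, inv_mul_cancel, Units.val_one]
      have h3 := congrArg Matrix.det h2
      rw [Matrix.det_mul, hB₂d, mul_one, Matrix.det_one] at h3
      exact h3
    rw [Units.val_mul, Matrix.det_mul, hB₁d, h1, mul_one]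
  · have h2 : (B₂⁻¹ : GL (Fin b) F).1 * B₂.1 = 1 := by
      rw [← Units.val_mul, inv_mul_cancel, Units.val_one]
    rw [← hB₂, Units.val_mul, Matrix.mulVec_mulVec, Matrix.mul_assoc, h2, Matrix.mul_one, hB₁]

/-- G1 -/
theorem conj_root_not_mem (ha : 1 ≤ a) (hab : a < b) (hb : 3 ≤ b)
    (M : Subgroup (GL (Fin a × Fin b) F)) (hNM : NN a b F ≤ M)
    (hM : M ≤ Cfsg.Geo.specialLinear (Fin a × Fin b) F) (hD : HD M)
    (x : GL (Fin a × Fin b) F) (hx : x ∈ M) (hxN : x ∉ NN a b F) (w ψ : Fin b → F)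
    (hw : w ≠ 0) (hψ : ψ ≠ 0) (h : ψ ⬝ᵥ w = 0) :
    x * rootG w ψ h * x⁻¹ ∉ NN a b F := by
  classical
  intro hz
  obtain ⟨⟨A, B, hAB⟩, -⟩ := mem_NN.mp hz
  -- the action of `z`
  have hzv : ∀ v, act (x * rootG w ψ h * x⁻¹) v - v = act x (pt (ctr ψ (act x⁻¹ v)) w) := by
    intro v
    rw [act_mul, act_mul, act_rootG, act_add, act_act_inv, add_sub_cancel_left]
  have hzv' : ∀ v, (A.1 ⊗ₖ B.1) *ᵥ v - v = act x (pt (ctr ψ (act x⁻¹ v)) w) := by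
    intro v
    rw [← hAB]
    exact hzv v
  obtain ⟨w₁, hw₁⟩ := g1_exists_dual ψ hψ
  have hS : Module.finrank F ↥((fib (a := a) w).map (Matrix.toLin' x.1)) ≤ a := by
    have h1 := Submodule.finrank_map_le (Matrix.toLin' x.1) (fib (a := a) w)
    rw [finrank_fib w hw] at h1
    exact h1
  have hrange : ∀ v : Fin a × Fin b → F,
      (A.1 ⊗ₖ B.1) *ᵥ v - v ∈ (fib (a := a) w).map (Matrix.toLin' x.1) := by
    intro v
    rw [hzv', mem_map_fib]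
    exact ⟨_, rfl⟩
  have hsq : ∀ v : Fin a × Fin b → F,
      (A.1 ⊗ₖ B.1) *ᵥ ((A.1 ⊗ₖ B.1) *ᵥ v - v) = (A.1 ⊗ₖ B.1) *ᵥ v - v := by
    intro v
    rw [hzv' v]
    have h1 := hzv' (act x (pt (ctr ψ (act x⁻¹ v)) w))
    rw [act_inv_act, ctr_pt, h, zero_smul, pt_zero_left, act_zero] at h1
    exact sub_eq_zero.mp h1
  have hne : A.1 ⊗ₖ B.1 ≠ 1 := by
    intro e
    have h1 := hzv' (act x (pt (Pi.single (⟨0, ha⟩ : Fin a) (1 : F)) w₁))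
    rw [e, Matrix.one_mulVec, sub_self, act_inv_act, ctr_pt, hw₁, one_smul] at h1
    have h2 : act x (pt (Pi.single (⟨0, ha⟩ : Fin a) (1 : F)) w) = act x 0 := by
      rw [← h1, act_zero]
    have h3 := act_injective x h2
    obtain ⟨j₀, hj₀⟩ : ∃ j₀, w j₀ ≠ 0 := by
      by_contra hcon
      push Not at hcon
      exact hw (funext hcon)
    have h4 := congrFun h3 (⟨0, ha⟩, j₀)
    rw [pt_apply] at h4
    simp at h4
    exact hj₀ h4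
  obtain ⟨w₂, ψ₂, hw₂, hψ₂, h₂, hform⟩ :=
    g1_quad_kron_form ha hab hb A.1 B.1 _ hS hrange hsq hne
  -- `x` maps `fib w` into `fib w₂`
  have hxfib : ∀ u : Fin a → F, ∃ u' : Fin a → F, act x (pt u w) = pt u' w₂ := by
    intro u
    have h1 := hzv' (act x (pt u w₁))
    rw [act_inv_act, ctr_pt, hw₁, one_smul, hform, Matrix.add_mulVec, Matrix.one_mulVec,
      add_sub_cancel_left, kv_mulVec, Matrix.one_mulVec] at h1
    exact ⟨_, h1.symm⟩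
  obtain ⟨C, hCd, hC⟩ := g1_exists_move hb w ψ w₂ ψ₂ hw hψ h hw₂ hψ₂ h₂
  have hn : kronG (1 : GL (Fin a) F) C ∈ NN a b F := by
    apply kronG_mem_NN
    rw [hCd]
    simp
  have hnx : kronG (1 : GL (Fin a) F) C * x ∈ NN a b F := by
    apply stab_le ha M hNM hM hD _ (M.mul_mem (hNM hn) hx) w hw
    intro v hv
    obtain ⟨u, rfl⟩ := mem_fib.mp hv
    obtain ⟨u', hu'⟩ := hxfib u
    rw [act_mul, hu', act_kronG_pt, hC]
    exact pt_mem_fib _ _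
  apply hxN
  have h5 : x = (kronG (1 : GL (Fin a) F) C)⁻¹ * (kronG (1 : GL (Fin a) F) C * x) := by
    group
  rw [h5]
  exact (NN a b F).mul_mem ((NN a b F).inv_mem hn) hnx

end Cfsg.Agent.Lib.Helper97.TPG1
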