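import Mathlib
import Cfsg.Prelude.Def_GeometricClasses
import Cfsg.Agent.Lib.Helper93.SUPair
import Cfsg.Agent.Lib.Helper97.SpOver2

/-!
# The stabiliser of a totally isotropic subspace is maximal in `SU_n(q)`

Helper library (helper97), used for statement S5653.

* `un_exists_trace_eq`: every element fixed by `x ↦ x ^ q` is a trace `μ + μ ^ q`.
* `un_exists_iso_add`: `a + l • y` is isotropic for a suitable `l` when `y` is isotropic and
  `h(y, a) ≠ 0`.
* `un_exists_perp_not`: a vector outside a subspace `W` is separated from `W` by the form.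
* `un_par_overgroup`: a subgroup of `SU` containing the stabiliser of a totally isotropic
  subspace and an element not stabilising it is all of `SU` (via centres of unitary
  transvections, `Cfsg.Agent.Lib.Helper93.Cen`).
* `un_par_ne`: the stabiliser is proper.
-/

set_option autoImplicit false
set_option linter.unusedSectionVars false
set_option linter.unusedVariables false

namespace Cfsg.Agent.Lib.Helper97

open Matrix Cfsg.Agent.Lib.Helper7 Cfsg.Agent.Lib.Helper18 Cfsg.Agent.Lib.Helper93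

section unpar
variable {F : Type*} [Field F] [Fintype F] {q n : ℕ}

/-- every element fixed by the involution is a trace -/
theorem un_exists_trace_eq (hF : Fintype.card F = q ^ 2) (r : F) (hr : r ^ q = r) :
    ∃ μ : F, μ + μ ^ q = r := by
  obtain ⟨l, hl⟩ := exists_trace_one hF
  refine ⟨r * l, ?_⟩
  rw [mul_pow, hr]
  linear_combination r * hl

/-- making a vector isotropic by adding a multiple of an isotropic vector not orthogonal to it -/
theorem un_exists_iso_add (hF : Fintype.card F = q ^ 2) (a y : Fin n → F)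
    (hy : Cfsg.hermForm n F q y y = 0) (hya : Cfsg.hermForm n F q y a ≠ 0) :
    ∃ l : F, Cfsg.hermForm n F q (a + l • y) (a + l • y) = 0 := by
  obtain ⟨μ, hμ⟩ := un_exists_trace_eq hF (-Cfsg.hermForm n F q a a)
    (by rw [herm_neg_pow hF, hf_self_pow hF])
  refine ⟨μ / Cfsg.hermForm n F q y a, ?_⟩
  have h1 : Cfsg.hermForm n F q a y = Cfsg.hermForm n F q y a ^ q := hf_conj hF n y a
  simp only [hf_add_left, hf_add_right hF, hf_smul_left, hf_smul_right, hy, mul_zero, add_zero]
  rw [h1, div_pow, div_mul_cancel₀ _ hya, div_mul_cancel₀ _ (pow_ne_zero _ hya)]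
  linear_combination hμ

/-- a vector outside a subspace is separated from it by the form -/
theorem un_exists_perp_not (hF : Fintype.card F = q ^ 2) (W : Submodule F (Fin n → F))
    (x : Fin n → F) (hx : x ∉ W) :
    ∃ a : Fin n → F, (∀ w ∈ W, Cfsg.hermForm n F q w a = 0) ∧ Cfsg.hermForm n F q x a ≠ 0 := by
  classical
  obtain ⟨φ, hφx, hφW⟩ := Submodule.exists_le_ker_of_notMem hx
  have key : ∀ v : Fin n → F,
      Cfsg.hermForm n F q v (fun i => φ (fun k => if i = k then 1 else 0) ^ q) = φ v := by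
    intro v
    rw [LinearMap.pi_apply_eq_sum_univ φ v]
    unfold Cfsg.hermForm
    apply Finset.sum_congr rfl
    intro i _
    rw [herm_pow_pow hF, smul_eq_mul]
  refine ⟨fun i => φ (fun k => if i = k then 1 else 0) ^ q, fun w hw => ?_, ?_⟩
  · rw [key]
    exact LinearMap.mem_ker.mp (hφW hw)
  · rw [key]
    exact hφx

/-- A subgroup of `SU_n(q)` containing the stabiliser of a totally isotropic subspace `W` and an
element not stabilising `W` is all of `SU_n(q)`. -/
theorem un_par_overgroup (hF : Fintype.card F = q ^ 2) (hn : 4 ≤ n)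
    (W : Submodule F (Fin n → F))
    (hW : Cfsg.Geo.IsTotallySingularFor (Cfsg.hermForm n F q) W)
    (M : Subgroup (GL (Fin n) F))
    (hM : M ≤ Cfsg.GU n F q ⊓ Cfsg.Geo.specialLinear (Fin n) F)
    (hHM : Cfsg.Geo.subspaceStabilizer W ⊓
      (Cfsg.GU n F q ⊓ Cfsg.Geo.specialLinear (Fin n) F) ≤ M)
    (g : GL (Fin n) F) (hgM : g ∈ M) (hg : g ∉ Cfsg.Geo.subspaceStabilizer W) :
    Cfsg.GU n F q ⊓ Cfsg.Geo.specialLinear (Fin n) F ≤ M := by
  classical
  -- matrices preserving the form with determinant one and mapping `W` into `W` are in `M`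
  have hin : ∀ A : Matrix (Fin n) (Fin n) F, suPres q n A → A.det = 1 →
      (∀ x ∈ W, A *ᵥ x ∈ W) → MIn M A := by
    intro A hA hd hAW
    obtain ⟨t, ht, htG⟩ := exists_gl_of_pres hA hd
    refine ⟨t, hHM (Subgroup.mem_inf.mpr ⟨stab_of_map_le W t ?_, htG⟩), ht⟩
    rw [ht]
    exact hAW
  -- isotropic vectors orthogonal to `W` are centres
  have hA : ∀ a : Fin n → F, Cfsg.hermForm n F q a a = 0 →
      (∀ w ∈ W, Cfsg.hermForm n F q w a = 0) → Cen q M a := by
    intro a haa haW
    refine ⟨haa, fun c hc => ?_⟩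
    apply hin _ (transvection_preserves hF n a c haa hc) (transvection_det n a c haa)
    intro x hx
    rw [unitaryTransvection_mulVec, haW x hx, mul_zero, zero_smul, add_zero]
    exact hx
  have hWc : ∀ w ∈ W, Cen q M w :=
    fun w hw => hA w (hW w hw w hw) (fun w' hw' => hW w' hw' w hw)
  have hgP : suPres q n (g : Matrix (Fin n) (Fin n) F) := (hM hgM).1
  have hgMIn : MIn M (g : Matrix (Fin n) (Fin n) F) := ⟨g, hgM, rfl⟩
  have hginvMIn : MIn M ((g⁻¹ : GL (Fin n) F) : Matrix (Fin n) (Fin n) F) :=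
    ⟨g⁻¹, M.inv_mem hgM, rfl⟩
  -- a centre not orthogonal to `W`
  have hstep : ∃ s : Fin n → F, Cen q M s ∧ ∃ u ∈ W, Cfsg.hermForm n F q s u ≠ 0 := by
    by_cases hc : ∃ w ∈ W, ∃ u ∈ W,
        Cfsg.hermForm n F q ((g : Matrix (Fin n) (Fin n) F) *ᵥ w) u ≠ 0
    · obtain ⟨w, hw, u, hu, hne⟩ := hc
      exact ⟨_, (hWc w hw).map hM hgMIn, u, hu, hne⟩
    · push Not at hc
      obtain ⟨w₀, hw₀, hy⟩ : ∃ w₀ ∈ W, (g : Matrix (Fin n) (Fin n) F) *ᵥ w₀ ∉ W := by
        by_contra hcon
        push Not at hcon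
        exact hg (stab_of_map_le W g hcon)
      obtain ⟨y, hyeq⟩ : ∃ y : Fin n → F, y = (g : Matrix (Fin n) (Fin n) F) *ᵥ w₀ := ⟨_, rfl⟩
      rw [← hyeq] at hy
      have hyy : Cfsg.hermForm n F q y y = 0 := by
        rw [hyeq, hgP]
        exact hW w₀ hw₀ w₀ hw₀
      have hyW : ∀ w ∈ W, Cfsg.hermForm n F q w y = 0 := by
        intro w hw
        apply hf_eq_zero_symm hF
        rw [hyeq]
        exact hc w₀ hw₀ w hw
      obtain ⟨a, haW, hya⟩ := un_exists_perp_not hF W y hy
      obtain ⟨l, hl⟩ := un_exists_iso_add hF a y hyy hya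
      have hcen : Cen q M (a + l • y) := by
        apply hA _ hl
        intro w hw
        rw [hf_add_right hF, hf_smul_right, haW w hw, hyW w hw, mul_zero, add_zero]
      have hcen' := hcen.map hM hginvMIn
      refine ⟨_, hcen', w₀, hw₀, ?_⟩
      have h1 := hgP (((g⁻¹ : GL (Fin n) F) : Matrix (Fin n) (Fin n) F) *ᵥ (a + l • y)) w₀
      rw [gl_mulVec_inv, ← hyeq] at h1
      rw [← h1, hf_add_left, hf_smul_left, hyy, mul_zero, add_zero, hf_conj hF n y a]
      exact pow_ne_zero _ hya
  obtain ⟨s, hs, u, hu, hsu⟩ := hstep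
  obtain ⟨s₁, hs₁eq⟩ : ∃ s₁ : Fin n → F, s₁ = (Cfsg.hermForm n F q s u)⁻¹ • s := ⟨_, rfl⟩
  have hs₁ : Cen q M s₁ := by
    rw [hs₁eq]
    exact hs.smul hF _
  have hs₁u : Cfsg.hermForm n F q s₁ u = 1 := by
    rw [hs₁eq, hf_smul_left, inv_mul_cancel₀ hsu]
  have hs₁s₁ := hs₁.1
  have huu : Cfsg.hermForm n F q u u = 0 := hW u hu u hu
  have hus₁ : Cfsg.hermForm n F q u s₁ = 1 := by rw [hf_conj hF n s₁ u, hs₁u, one_pow]
  -- isotropic vectors not orthogonal to `u` are centres
  have hout : ∀ x : Fin n → F, Cfsg.hermForm n F q x x = 0 → Cfsg.hermForm n F q x u ≠ 0 →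
      Cen q M x := by
    intro x hxx hxu
    obtain ⟨x', hx'eq⟩ : ∃ x' : Fin n → F, x' = (Cfsg.hermForm n F q x u)⁻¹ • x := ⟨_, rfl⟩
    have hx'u : Cfsg.hermForm n F q x' u = 1 := by
      rw [hx'eq, hf_smul_left, inv_mul_cancel₀ hxu]
    have hx'x' : Cfsg.hermForm n F q x' x' = 0 := by
      rw [hx'eq, hf_smul_left, hf_smul_right, hxx, mul_zero, mul_zero]
    have hwe : Cfsg.hermForm n F q (x' - s₁) u = 0 := by
      rw [hf_sub_left, hx'u, hs₁u, sub_self]
    have ha : Cfsg.hermForm n F q s₁ x' + Cfsg.hermForm n F q s₁ x' ^ q +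
        Cfsg.hermForm n F q (x' - s₁) (x' - s₁) = 0 := by
      rw [hf_sub_left, hf_sub_right hF, hf_sub_right hF, hx'x', hs₁s₁, ← hf_conj hF n s₁ x']
      ring
    have hmem : MIn M (heis q n u (x' - s₁) (Cfsg.hermForm n F q s₁ x')) := by
      apply hin _ (heis_preserves hF n u _ _ huu hwe ha) (heis_det hF n u _ _ huu hwe)
      intro z hz
      rw [heis_mulVec, hW z hz u hu, zero_smul, add_zero, mul_zero, zero_sub]
      exact W.add_mem hz (W.smul_mem _ hu)
    have h1 := hs₁.map hM hmem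
    have h2 : heis q n u (x' - s₁) (Cfsg.hermForm n F q s₁ x') *ᵥ s₁ = x' := by
      rw [heis_mulVec, hs₁u, one_smul, mul_one, hf_sub_right hF, hs₁s₁, sub_zero, sub_self,
        zero_smul, add_zero]
      abel
    rw [h2] at h1
    have h3 : x = Cfsg.hermForm n F q x u • x' := by
      rw [hx'eq, smul_smul, mul_inv_cancel₀ hxu, one_smul]
    rw [h3]
    exact h1.smul hF _
  -- isotropic vectors orthogonal to `u` are centres
  have hperp : ∀ x : Fin n → F, Cfsg.hermForm n F q x x = 0 → Cfsg.hermForm n F q x u = 0 →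
      Cen q M x := by
    intro x hxx hxu
    by_cases hxs : x ∈ Submodule.span F {u}
    · obtain ⟨κ, rfl⟩ := Submodule.mem_span_singleton.mp hxs
      exact (hWc u hu).smul hF κ
    · obtain ⟨a, haS, hxa⟩ := un_exists_perp_not hF (Submodule.span F {u}) x hxs
      have hua : Cfsg.hermForm n F q u a = 0 := haS u (Submodule.mem_span_singleton_self u)
      have hau : Cfsg.hermForm n F q a u = 0 := hf_eq_zero_symm hF n _ _ hua
      have hax : Cfsg.hermForm n F q a x ≠ 0 := by
        rw [hf_conj hF n x a]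
        exact pow_ne_zero _ hxa
      have hux : Cfsg.hermForm n F q u x = 0 := hf_eq_zero_symm hF n _ _ hxu
      obtain ⟨ε, hε0, hε⟩ := exists_trace_zero_ne hF
      obtain ⟨y₀, hy₀eq⟩ : ∃ y₀ : Fin n → F,
          y₀ = s₁ + ((ε - Cfsg.hermForm n F q s₁ x) / Cfsg.hermForm n F q a x) • a := ⟨_, rfl⟩
      have hy₀u : Cfsg.hermForm n F q y₀ u = 1 := by
        rw [hy₀eq, hf_add_left, hf_smul_left, hau, mul_zero, add_zero, hs₁u]
      have huy₀ : Cfsg.hermForm n F q u y₀ = 1 := by rw [hf_conj hF n y₀ u, hy₀u, one_pow]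
      have hy₀x : Cfsg.hermForm n F q y₀ x = ε := by
        rw [hy₀eq, hf_add_left, hf_smul_left, div_mul_cancel₀ _ hax]
        ring
      obtain ⟨ρ, hρ⟩ := un_exists_trace_eq hF (-Cfsg.hermForm n F q y₀ y₀)
        (by rw [herm_neg_pow hF, hf_self_pow hF])
      obtain ⟨y, hyeq⟩ : ∃ y : Fin n → F, y = y₀ + ρ • u := ⟨_, rfl⟩
      have hyu : Cfsg.hermForm n F q y u = 1 := by
        rw [hyeq, hf_add_left, hf_smul_left, huu, mul_zero, add_zero, hy₀u]
      have hyx : Cfsg.hermForm n F q y x = ε := by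
        rw [hyeq, hf_add_left, hf_smul_left, hux, mul_zero, add_zero, hy₀x]
      have hxy : Cfsg.hermForm n F q x y = -ε := by
        rw [hf_conj hF n y x, hyx, hε]
      have hyy : Cfsg.hermForm n F q y y = 0 := by
        rw [hyeq]
        simp only [hf_add_left, hf_add_right hF, hf_smul_left, hf_smul_right, huu, hy₀u, huy₀,
          mul_zero, add_zero, mul_one]
        linear_combination hρ
      have hcy : Cen q M y := hout y hyy (by rw [hyu]; exact one_ne_zero)
      have hcxy : Cen q M (x + y) := by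
        apply hout
        · rw [hf_add_left, hf_add_right hF, hf_add_right hF, hxx, hyy, hxy, hyx]
          ring
        · rw [hf_add_left, hxu, hyu, zero_add]
          exact one_ne_zero
      have hcny : Cen q M (-y) := by
        have := hcy.smul hF (-1)
        rwa [neg_one_smul] at this
      have hval : Cfsg.hermForm n F q (-y) (x + y) = -ε := by
        rw [hf_neg_left, hf_add_right hF, hyx, hyy, add_zero]
      have h1 := cen_add hF hM hcxy hcny (by rw [hval]; exact neg_ne_zero.mpr hε0)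
        (by rw [hval, herm_neg_pow hF, hε]; ring)
      have h2 : x + y + -y = x := by abel
      rwa [h2] at h1
  apply su_le_of_cen hF hn
  intro v hv
  by_cases hvu : Cfsg.hermForm n F q v u = 0
  · exact hperp v hv hvu
  · exact hout v hv hvu

/-- the stabiliser of a non-zero totally isotropic subspace does not contain `SU_n(q)` -/
theorem un_par_ne (hF : Fintype.card F = q ^ 2) (W : Submodule F (Fin n → F)) (hW0 : W ≠ ⊥)
    (hW : Cfsg.Geo.IsTotallySingularFor (Cfsg.hermForm n F q) W) :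
    ∃ t ∈ Cfsg.GU n F q ⊓ Cfsg.Geo.specialLinear (Fin n) F,
      t ∉ Cfsg.Geo.subspaceStabilizer W := by
  classical
  obtain ⟨w, hw, hw0⟩ := Submodule.exists_mem_ne_zero_of_ne_bot hW0
  obtain ⟨v₀, hv₀⟩ := exists_herm_ne_zero hF w hw0
  have hww := hW w hw w hw
  have hwv₀ : Cfsg.hermForm n F q w v₀ ≠ 0 := by
    rw [hf_conj hF n v₀ w]
    exact pow_ne_zero _ hv₀
  obtain ⟨l, hl⟩ := un_exists_iso_add hF v₀ w hww hwv₀
  obtain ⟨v, hveq⟩ : ∃ v : Fin n → F, v = v₀ + l • w := ⟨_, rfl⟩
  rw [← hveq] at hl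
  have hwv : Cfsg.hermForm n F q w v ≠ 0 := by
    rw [hveq, hf_add_right hF, hf_smul_right, hww, mul_zero, add_zero]
    exact hwv₀
  obtain ⟨c, hc0, hc⟩ := exists_trace_zero_ne hF
  obtain ⟨t, ht, htG⟩ := exists_gl_of_pres
    (transvection_preserves hF n v c hl (by rw [hc]; ring)) (transvection_det n v c hl)
  refine ⟨t, htG, fun hstab => ?_⟩
  have h1 := ((mem_subspaceStabilizer_iff W t).mp hstab w).mp hw
  rw [ht, unitaryTransvection_mulVec] at h1
  have h2 : (c * Cfsg.hermForm n F q w v) • v ∈ W := (W.add_mem_iff_right hw).mp h1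
  have h3 : v ∈ W := by
    have := W.smul_mem (c * Cfsg.hermForm n F q w v)⁻¹ h2
    rwa [smul_smul, inv_mul_cancel₀ (mul_ne_zero hc0 hwv), one_smul] at this
  exact hwv (hW w hw v h3)

end unpar

end Cfsg.Agent.Lib.Helper97
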