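import Mathlib
import Cfsg.Prelude.Def_GeometricClasses
import Cfsg.Agent.Lib.Helper97.UnPar

/-!
# Unitary geometry of a non-degenerate subspace

Helper library (helper97), used for statement S5654 (stabiliser of a non-degenerate subspace is
maximal in `SU_n(q)`).

* `unPerp q W`: the orthogonal complement of `W` for the hermitian form.
* `un_riesz`, `un_decomp`, `un_perp_disjoint`, `un_perp_finrank`, `un_perp_nondeg`: for a
  non-degenerate `W`, `F^n = W ⊕ W^⊥` and `W^⊥` is non-degenerate.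
* `un_exists_iso`, `un_exists_hyp`: isotropic vectors and hyperbolic pairs in a non-degenerate
  subspace of dimension at least two.
* `un_exists_norm`: vectors of prescribed norm orthogonal to a hyperbolic pair.
-/

set_option autoImplicit false
set_option linter.unusedSectionVars false
set_option linter.unusedVariables false
set_option linter.unusedSimpArgs false

namespace Cfsg.Agent.Lib.Helper97

open Matrix Cfsg.Agent.Lib.Helper7 Cfsg.Agent.Lib.Helper18 Cfsg.Agent.Lib.Helper93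

section unnd
variable {F : Type*} [Field F] [Fintype F] {q n : ℕ}

/-- the orthogonal complement of a subspace for the hermitian form -/
def unPerp (q : ℕ) (W : Submodule F (Fin n → F)) : Submodule F (Fin n → F) where
  carrier := {x | ∀ w ∈ W, Cfsg.hermForm n F q x w = 0}
  add_mem' := by
    intro x y hx hy w hw
    rw [hf_add_left, hx w hw, hy w hw, add_zero]
  zero_mem' := fun w _ => hf_zero_left n w
  smul_mem' := by
    intro c x hx w hw
    rw [hf_smul_left, hx w hw, mul_zero]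

theorem mem_unPerp (W : Submodule F (Fin n → F)) (x : Fin n → F) :
    x ∈ unPerp q W ↔ ∀ w ∈ W, Cfsg.hermForm n F q x w = 0 := Iff.rfl

/-- Riesz representation on a non-degenerate subspace (by counting) -/
theorem un_riesz (hF : Fintype.card F = q ^ 2) (W : Submodule F (Fin n → F))
    (hW : Cfsg.Geo.IsNondegenerateOn (Cfsg.hermForm n F q) W) (φ : W →ₗ[F] F) :
    ∃ a ∈ W, ∀ w : W, Cfsg.hermForm n F q (w : Fin n → F) a = φ w := by
  classical
  let Φ : W → (W →ₗ[F] F) := fun a =>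
    { toFun := fun w => Cfsg.hermForm n F q (w : Fin n → F) (a : Fin n → F)
      map_add' := fun x y => by rw [Submodule.coe_add, hf_add_left]
      map_smul' := fun c x => by rw [Submodule.coe_smul, hf_smul_left]; rfl }
  have hΦ : ∀ (a w : W), Φ a w = Cfsg.hermForm n F q (w : Fin n → F) (a : Fin n → F) :=
    fun a w => rfl
  have hinj : Function.Injective Φ := by
    intro a a' haa
    by_contra hne
    have hsub : ((a : Fin n → F) - (a' : Fin n → F)) ≠ 0 := by
      intro h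
      exact hne (Subtype.ext (sub_eq_zero.mp h))
    obtain ⟨⟨x, hx, hxne⟩, -⟩ := hW _ (W.sub_mem a.2 a'.2) hsub
    apply hxne
    have h1 := congrArg (fun ψ : W →ₗ[F] F => ψ ⟨x, hx⟩) haa
    simp only [hΦ] at h1
    rw [hf_sub_right hF, h1, sub_self]
  have : Finite (W →ₗ[F] F) := Module.finite_of_finite F
  have hcard : Nat.card (W →ₗ[F] F) ≤ Nat.card W := by
    apply le_of_eq
    rw [Module.natCard_eq_pow_finrank (K := F) (V := W),
      Module.natCard_eq_pow_finrank (K := F) (V := (W →ₗ[F] F))]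
    congr 1
    exact Subspace.dual_finrank_eq
  obtain ⟨a, ha⟩ := (hinj.bijective_of_nat_card_le hcard).2 φ
  exact ⟨a, a.2, fun w => by rw [← ha, hΦ]⟩

/-- orthogonal decomposition along a non-degenerate subspace -/
theorem un_decomp (hF : Fintype.card F = q ^ 2) (W : Submodule F (Fin n → F))
    (hW : Cfsg.Geo.IsNondegenerateOn (Cfsg.hermForm n F q) W) (v : Fin n → F) :
    ∃ a ∈ W, ∃ b ∈ unPerp q W, v = a + b := by
  obtain ⟨a, ha, hav⟩ := un_riesz hF W hW ((hl q n v).comp W.subtype)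
  refine ⟨a, ha, v - a, ?_, by abel⟩
  intro w hw
  apply hf_eq_zero_symm hF
  rw [hf_sub_right hF, hav ⟨w, hw⟩, LinearMap.comp_apply, Submodule.subtype_apply, hl_apply,
    sub_self]

theorem un_perp_disjoint (hF : Fintype.card F = q ^ 2) (W : Submodule F (Fin n → F))
    (hW : Cfsg.Geo.IsNondegenerateOn (Cfsg.hermForm n F q) W) (x : Fin n → F) (hx : x ∈ W)
    (hx' : x ∈ unPerp q W) : x = 0 := by
  by_contra h0
  obtain ⟨-, ⟨y, hy, hne⟩⟩ := hW x hx h0
  exact hne (hx' y hy)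

theorem un_perp_finrank (hF : Fintype.card F = q ^ 2) (W : Submodule F (Fin n → F))
    (hW : Cfsg.Geo.IsNondegenerateOn (Cfsg.hermForm n F q) W) :
    Module.finrank F W + Module.finrank F (unPerp q W) = n := by
  have h1 := Submodule.finrank_sup_add_finrank_inf_eq W (unPerp q W)
  have hsup : W ⊔ unPerp q W = ⊤ := by
    rw [eq_top_iff]
    intro v _
    obtain ⟨a, ha, b, hb, rfl⟩ := un_decomp hF W hW v
    exact Submodule.add_mem_sup ha hb
  have hinf : W ⊓ unPerp q W = ⊥ := by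
    rw [eq_bot_iff]
    intro x hx
    rw [Submodule.mem_bot]
    exact un_perp_disjoint hF W hW x hx.1 hx.2
  rw [hsup, hinf, finrank_top, finrank_bot, Module.finrank_fintype_fun_eq_card,
    Fintype.card_fin] at h1
  omega

theorem un_perp_nondeg (hF : Fintype.card F = q ^ 2) (W : Submodule F (Fin n → F))
    (hW : Cfsg.Geo.IsNondegenerateOn (Cfsg.hermForm n F q) W) (b : Fin n → F)
    (hb : b ∈ unPerp q W) (hb0 : b ≠ 0) :
    ∃ x ∈ unPerp q W, Cfsg.hermForm n F q x b ≠ 0 := by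
  obtain ⟨x, hx⟩ := exists_herm_ne_zero hF b hb0
  obtain ⟨a, ha, b', hb', rfl⟩ := un_decomp hF W hW x
  refine ⟨b', hb', ?_⟩
  rw [hf_add_left, hf_eq_zero_symm hF n _ _ (hb a ha), zero_add] at hx
  exact hx

/-- a subspace of dimension at least two contains a non-zero isotropic vector -/
theorem un_exists_iso (hF : Fintype.card F = q ^ 2) (B : Submodule F (Fin n → F))
    (h2 : 2 ≤ Module.finrank F B) :
    ∃ u ∈ B, u ≠ 0 ∧ Cfsg.hermForm n F q u u = 0 := by
  have hB0 : B ≠ ⊥ := by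
    intro h
    rw [h, finrank_bot] at h2
    omega
  obtain ⟨b₁, hb₁, hb₁0⟩ := Submodule.exists_mem_ne_zero_of_ne_bot hB0
  by_cases h1 : Cfsg.hermForm n F q b₁ b₁ = 0
  · exact ⟨b₁, hb₁, hb₁0, h1⟩
  obtain ⟨b₂, hb₂, hb₂0, hb₂b₁⟩ := exists_perp_ne (q := q) h2 b₁
  by_cases h2' : Cfsg.hermForm n F q b₂ b₂ = 0
  · exact ⟨b₂, hb₂, hb₂0, h2'⟩
  obtain ⟨t, ht0, ht⟩ := herm_norm_surj hF
    (-Cfsg.hermForm n F q b₂ b₂ / Cfsg.hermForm n F q b₁ b₁)
    (div_ne_zero (neg_ne_zero.mpr h2') h1)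
    (by rw [div_pow, herm_neg_pow hF, hf_self_pow hF, hf_self_pow hF])
  have hb₁b₂ : Cfsg.hermForm n F q b₁ b₂ = 0 := hf_eq_zero_symm hF n _ _ hb₂b₁
  refine ⟨b₂ + t • b₁, B.add_mem hb₂ (B.smul_mem t hb₁), ?_, ?_⟩
  · intro h0
    have h3 : Cfsg.hermForm n F q (b₂ + t • b₁) b₁ = 0 := by rw [h0, hf_zero_left]
    rw [hf_add_left, hf_smul_left, hb₂b₁, zero_add] at h3
    rcases mul_eq_zero.mp h3 with h | h
    · exact ht0 h
    · exact h1 h
  · have h4 : t * t ^ q = -Cfsg.hermForm n F q b₂ b₂ / Cfsg.hermForm n F q b₁ b₁ := by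
      rw [← ht, pow_succ']
    simp only [hf_add_left, hf_add_right hF, hf_smul_left, hf_smul_right, hb₂b₁, hb₁b₂,
      mul_zero, add_zero, zero_add]
    have h5 : t * t ^ q * Cfsg.hermForm n F q b₁ b₁ = -Cfsg.hermForm n F q b₂ b₂ := by
      rw [h4, div_mul_cancel₀ _ h1]
    linear_combination h5

/-- a non-degenerate subspace of dimension at least two contains a hyperbolic pair -/
theorem un_exists_hyp (hF : Fintype.card F = q ^ 2) (B : Submodule F (Fin n → F))
    (hB : ∀ b ∈ B, b ≠ 0 → ∃ x ∈ B, Cfsg.hermForm n F q x b ≠ 0)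
    (h2 : 2 ≤ Module.finrank F B) :
    ∃ u ∈ B, ∃ u' ∈ B, Cfsg.hermForm n F q u u = 0 ∧ Cfsg.hermForm n F q u' u' = 0 ∧
      Cfsg.hermForm n F q u u' = 1 := by
  obtain ⟨u, hu, hu0, huu⟩ := un_exists_iso hF B h2
  obtain ⟨x₀, hx₀, hx₀u⟩ := hB u hu hu0
  have hux₀ : Cfsg.hermForm n F q u x₀ ≠ 0 := by
    rw [hf_conj hF n x₀ u]
    exact pow_ne_zero _ hx₀u
  obtain ⟨l, hl⟩ := un_exists_iso_add hF x₀ u huu hux₀
  obtain ⟨y, hyeq⟩ : ∃ y : Fin n → F, y = x₀ + l • u := ⟨_, rfl⟩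
  rw [← hyeq] at hl
  have hy : y ∈ B := by
    rw [hyeq]
    exact B.add_mem hx₀ (B.smul_mem l hu)
  have hyu : Cfsg.hermForm n F q y u ≠ 0 := by
    rw [hyeq, hf_add_left, hf_smul_left, huu, mul_zero, add_zero]
    exact hx₀u
  refine ⟨u, hu, (Cfsg.hermForm n F q y u)⁻¹ • y, B.smul_mem _ hy, huu, ?_, ?_⟩
  · rw [hf_smul_left, hf_smul_right, hl, mul_zero, mul_zero]
  · rw [hf_conj hF n ((Cfsg.hermForm n F q y u)⁻¹ • y) u, hf_smul_left, inv_mul_cancel₀ hyu,
      one_pow]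

/-- vectors of prescribed norm orthogonal to a hyperbolic pair -/
theorem un_exists_norm (hF : Fintype.card F = q ^ 2) (B : Submodule F (Fin n → F))
    (u u' : Fin n → F)
    (hCnd : ∀ c ∈ B, Cfsg.hermForm n F q c u = 0 → Cfsg.hermForm n F q c u' = 0 → c ≠ 0 →
      ∃ z ∈ B, Cfsg.hermForm n F q z u = 0 ∧ Cfsg.hermForm n F q z u' = 0 ∧
        Cfsg.hermForm n F q c z ≠ 0)
    (h3 : 3 ≤ Module.finrank F B) (r : F) (hr : r ^ q = r) :
    ∃ c ∈ B, Cfsg.hermForm n F q c u = 0 ∧ Cfsg.hermForm n F q c u' = 0 ∧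
      Cfsg.hermForm n F q c c = r := by
  have h1 := finrank_inf_ker_ge B (hl q n u)
  have h2 := finrank_inf_ker_ge (B ⊓ LinearMap.ker (hl q n u)) (hl q n u')
  have hne : B ⊓ LinearMap.ker (hl q n u) ⊓ LinearMap.ker (hl q n u') ≠ ⊥ := by
    rw [← Submodule.one_le_finrank_iff]
    omega
  obtain ⟨c₁, hc₁, hc₁0⟩ := Submodule.exists_mem_ne_zero_of_ne_bot hne
  have hc₁B : c₁ ∈ B := hc₁.1.1
  have hc₁u : Cfsg.hermForm n F q c₁ u = 0 := LinearMap.mem_ker.mp hc₁.1.2
  have hc₁u' : Cfsg.hermForm n F q c₁ u' = 0 := LinearMap.mem_ker.mp hc₁.2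
  have haniso : ∃ c₀ ∈ B, Cfsg.hermForm n F q c₀ u = 0 ∧ Cfsg.hermForm n F q c₀ u' = 0 ∧
      Cfsg.hermForm n F q c₀ c₀ ≠ 0 := by
    by_cases hc : Cfsg.hermForm n F q c₁ c₁ = 0
    · obtain ⟨z, hz, hzu, hzu', hcz⟩ := hCnd c₁ hc₁B hc₁u hc₁u' hc₁0
      by_cases hzz : Cfsg.hermForm n F q z z = 0
      · obtain ⟨l, hl⟩ := exists_trace_one hF
        refine ⟨c₁ + ((l / Cfsg.hermForm n F q c₁ z) ^ q) • z,
          B.add_mem hc₁B (B.smul_mem _ hz), ?_, ?_, ?_⟩
        · rw [hf_add_left, hf_smul_left, hc₁u, hzu, mul_zero, add_zero]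
        · rw [hf_add_left, hf_smul_left, hc₁u', hzu', mul_zero, add_zero]
        · simp only [hf_add_left, hf_add_right hF, hf_smul_left, hf_smul_right, hc, hzz,
            mul_zero, add_zero, zero_add]
          rw [herm_pow_pow hF, div_mul_cancel₀ _ hcz, hf_conj hF n c₁ z, ← mul_pow,
            div_mul_cancel₀ _ hcz, add_comm, hl]
          exact one_ne_zero
      · exact ⟨z, hz, hzu, hzu', hzz⟩
    · exact ⟨c₁, hc₁B, hc₁u, hc₁u', hc⟩
  obtain ⟨c₀, hc₀, hc₀u, hc₀u', hc₀c₀⟩ := haniso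
  by_cases hr0 : r = 0
  · exact ⟨0, B.zero_mem, hf_zero_left n u, hf_zero_left n u', by rw [hf_zero_left, hr0]⟩
  · obtain ⟨t, ht0, ht⟩ := herm_norm_surj hF (r / Cfsg.hermForm n F q c₀ c₀)
      (div_ne_zero hr0 hc₀c₀) (by rw [div_pow, hr, hf_self_pow hF])
    refine ⟨t • c₀, B.smul_mem t hc₀, ?_, ?_, ?_⟩
    · rw [hf_smul_left, hc₀u, mul_zero]
    · rw [hf_smul_left, hc₀u', mul_zero]
    · rw [hf_smul_left, hf_smul_right, ← mul_assoc, ← pow_succ', ht, div_mul_cancel₀ _ hc₀c₀]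

end unnd

end Cfsg.Agent.Lib.Helper97
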