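import Mathlib
import Cfsg.Prelude.Def_GeometricClasses
import Cfsg.Agent.Lib.Helper97.UnNd

/-!
# The stabiliser of a non-degenerate subspace is maximal in `SU_n(q)`

Helper library (helper97), used for statement S5654.

`NdCtx q W B M u u'`: `M` is a subgroup of `SU_n(q)` containing every determinant-one isometry
mapping `W` into itself, `B` is orthogonal to `W`, and `(u, u')` is a hyperbolic pair of `B`
whose orthogonal complement in `B` is non-degenerate and contains vectors of every norm.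

* `NdCtx.move`: Heisenberg elements of `B` move centres `a + b` to `a + b'`.
* `NdCtx.trans`: if `a + b` is a centre (`b ≠ 0`), so is `a + b'` for every `b' ∈ B` of the
  same norm as `b`.
* `NdP q B M a`: every isotropic vector `a + b`, `b ∈ B`, is a centre; `NdCtx.P_add`,
  `NdCtx.P_smul`, `NdCtx.P_of_pair` (invariance under transvections and quasi-reflections of
  `W`), `NdCtx.P_all`.
* `NdCtx.exists_mixed`: an element of `M` not stabilising `W` yields a centre `a + b` with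
  `a ≠ 0`, `b ≠ 0`.
* `un_nd_overgroup`, `un_nd_ne`: the overgroup theorem and properness.
-/

set_option autoImplicit false
set_option linter.unusedSectionVars false
set_option linter.unusedVariables false
set_option linter.unusedSimpArgs false

namespace Cfsg.Agent.Lib.Helper97

open Matrix Cfsg.Agent.Lib.Helper7 Cfsg.Agent.Lib.Helper18 Cfsg.Agent.Lib.Helper93

section unnd2
variable {F : Type*} [Field F] [Fintype F] {q n : ℕ}

/-- the data for the overgroup theorem of a non-degenerate subspace stabiliser -/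
structure NdCtx (q : ℕ) (W B : Submodule F (Fin n → F)) (M : Subgroup (GL (Fin n) F))
    (u u' : Fin n → F) : Prop where
  hF : Fintype.card F = q ^ 2
  hM : M ≤ Cfsg.GU n F q ⊓ Cfsg.Geo.specialLinear (Fin n) F
  hin : ∀ A : Matrix (Fin n) (Fin n) F, suPres q n A → A.det = 1 →
    (∀ x ∈ W, A *ᵥ x ∈ W) → MIn M A
  hWB : ∀ a ∈ W, ∀ b ∈ B, Cfsg.hermForm n F q a b = 0
  hu : u ∈ B
  hu' : u' ∈ B
  huu : Cfsg.hermForm n F q u u = 0
  hu'u' : Cfsg.hermForm n F q u' u' = 0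
  huu' : Cfsg.hermForm n F q u u' = 1
  hnorm : ∀ r : F, r ^ q = r → ∃ c ∈ B, Cfsg.hermForm n F q c u = 0 ∧
    Cfsg.hermForm n F q c u' = 0 ∧ Cfsg.hermForm n F q c c = r
  hCnd : ∀ c ∈ B, Cfsg.hermForm n F q c u = 0 → Cfsg.hermForm n F q c u' = 0 → c ≠ 0 →
    ∃ z ∈ B, Cfsg.hermForm n F q z u = 0 ∧ Cfsg.hermForm n F q z u' = 0 ∧
      Cfsg.hermForm n F q c z ≠ 0

/-- all isotropic vectors with `W`-component `a` are centres -/
def NdP (q : ℕ) (B : Submodule F (Fin n → F)) (M : Subgroup (GL (Fin n) F))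
    (a : Fin n → F) : Prop :=
  ∀ b ∈ B, Cfsg.hermForm n F q b b + Cfsg.hermForm n F q a a = 0 → Cen q M (a + b)

namespace NdCtx

variable {W B : Submodule F (Fin n → F)} {M : Subgroup (GL (Fin n) F)} {u u' : Fin n → F}

theorem hBW (h : NdCtx q W B M u u') {a b : Fin n → F} (ha : a ∈ W) (hb : b ∈ B) :
    Cfsg.hermForm n F q b a = 0 := hf_eq_zero_symm h.hF n _ _ (h.hWB a ha b hb)

theorem hu'u (h : NdCtx q W B M u u') : Cfsg.hermForm n F q u' u = 1 := by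
  rw [hf_conj h.hF n u u', h.huu', one_pow]

theorem symm (h : NdCtx q W B M u u') : NdCtx q W B M u' u :=
  { hF := h.hF, hM := h.hM, hin := h.hin, hWB := h.hWB, hu := h.hu', hu' := h.hu,
    huu := h.hu'u', hu'u' := h.huu, huu' := h.hu'u,
    hnorm := fun r hr => by
      obtain ⟨c, hc, h1, h2, h3⟩ := h.hnorm r hr
      exact ⟨c, hc, h2, h1, h3⟩
    hCnd := fun c hc h1 h2 hc0 => by
      obtain ⟨z, hz, h3, h4, h5⟩ := h.hCnd c hc h2 h1 hc0
      exact ⟨z, hz, h4, h3, h5⟩ }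

theorem norm_add (h : NdCtx q W B M u u') {a b : Fin n → F} (ha : a ∈ W) (hb : b ∈ B) :
    Cfsg.hermForm n F q (a + b) (a + b) =
      Cfsg.hermForm n F q a a + Cfsg.hermForm n F q b b := by
  rw [hf_add_left, hf_add_right h.hF, hf_add_right h.hF, h.hWB a ha b hb, h.hBW ha hb]
  ring

theorem cenB (h : NdCtx q W B M u u') {b : Fin n → F} (hb : b ∈ B)
    (hbb : Cfsg.hermForm n F q b b = 0) : Cen q M b := by
  refine ⟨hbb, fun c hc => ?_⟩
  apply h.hin _ (transvection_preserves h.hF n b c hbb hc) (transvection_det n b c hbb)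
  intro x hx
  rw [unitaryTransvection_mulVec, h.hWB x hx b hb, mul_zero, zero_smul, add_zero]
  exact hx

theorem cenW (h : NdCtx q W B M u u') {a : Fin n → F} (ha : a ∈ W)
    (haa : Cfsg.hermForm n F q a a = 0) : Cen q M a := by
  refine ⟨haa, fun c hc => ?_⟩
  apply h.hin _ (transvection_preserves h.hF n a c haa hc) (transvection_det n a c haa)
  intro x hx
  rw [unitaryTransvection_mulVec]
  exact W.add_mem hx (W.smul_mem _ ha)

/-- moving a centre by a Heisenberg element of `B` -/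
theorem move (h : NdCtx q W B M u u') {u₀ x x' : Fin n → F} (hu₀ : u₀ ∈ B)
    (hu₀u₀ : Cfsg.hermForm n F q u₀ u₀ = 0) (hx : Cen q M x)
    (hx' : Cfsg.hermForm n F q x' x' = 0) (hd : x' - x ∈ B)
    (hxu : Cfsg.hermForm n F q x u₀ ≠ 0)
    (hx'u : Cfsg.hermForm n F q x' u₀ = Cfsg.hermForm n F q x u₀) : Cen q M x' := by
  have hF := h.hF
  obtain ⟨η, hη⟩ : ∃ η : F, η = Cfsg.hermForm n F q x u₀ := ⟨_, rfl⟩
  rw [← hη] at hxu hx'u
  obtain ⟨s₁, hs₁eq⟩ : ∃ s₁ : Fin n → F, s₁ = η⁻¹ • x := ⟨_, rfl⟩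
  obtain ⟨y, hyeq⟩ : ∃ y : Fin n → F, y = η⁻¹ • x' := ⟨_, rfl⟩
  have hs₁ : Cen q M s₁ := by
    rw [hs₁eq]
    exact hx.smul hF _
  have hs₁s₁ := hs₁.1
  have hs₁u : Cfsg.hermForm n F q s₁ u₀ = 1 := by
    rw [hs₁eq, hf_smul_left, ← hη, inv_mul_cancel₀ hxu]
  have hyu : Cfsg.hermForm n F q y u₀ = 1 := by
    rw [hyeq, hf_smul_left, hx'u, inv_mul_cancel₀ hxu]
  have hyy : Cfsg.hermForm n F q y y = 0 := by
    rw [hyeq, hf_smul_left, hf_smul_right, hx', mul_zero, mul_zero]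
  have hwB : y - s₁ ∈ B := by
    have : y - s₁ = η⁻¹ • (x' - x) := by rw [hyeq, hs₁eq, smul_sub]
    rw [this]
    exact B.smul_mem _ hd
  have hwe : Cfsg.hermForm n F q (y - s₁) u₀ = 0 := by
    rw [hf_sub_left, hyu, hs₁u, sub_self]
  have ha : Cfsg.hermForm n F q s₁ y + Cfsg.hermForm n F q s₁ y ^ q +
      Cfsg.hermForm n F q (y - s₁) (y - s₁) = 0 := by
    rw [hf_sub_left, hf_sub_right hF, hf_sub_right hF, hyy, hs₁s₁, ← hf_conj hF n s₁ y]
    ring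
  have hmem : MIn M (heis q n u₀ (y - s₁) (Cfsg.hermForm n F q s₁ y)) := by
    apply h.hin _ (heis_preserves hF n u₀ _ _ hu₀u₀ hwe ha) (heis_det hF n u₀ _ _ hu₀u₀ hwe)
    intro z hz
    rw [heis_mulVec, h.hWB z hz u₀ hu₀, h.hWB z hz _ hwB, zero_smul, add_zero, mul_zero,
      sub_zero, zero_smul, add_zero]
    exact hz
  have h1 := hs₁.map h.hM hmem
  have h2 : heis q n u₀ (y - s₁) (Cfsg.hermForm n F q s₁ y) *ᵥ s₁ = y := by
    rw [heis_mulVec, hs₁u, one_smul, mul_one, hf_sub_right hF, hs₁s₁, sub_zero, sub_self,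
      zero_smul, add_zero]
    abel
  rw [h2] at h1
  have h3 : x' = η • y := by rw [hyeq, smul_smul, mul_inv_cancel₀ hxu, one_smul]
  rw [h3]
  exact h1.smul hF _

theorem moveB (h : NdCtx q W B M u u') {u₀ a b b' : Fin n → F} (hu₀ : u₀ ∈ B)
    (hu₀u₀ : Cfsg.hermForm n F q u₀ u₀ = 0) (ha : a ∈ W) (hb : b ∈ B) (hb' : b' ∈ B)
    (hx : Cen q M (a + b)) (hnorm : Cfsg.hermForm n F q b' b' = Cfsg.hermForm n F q b b)
    (hbu : Cfsg.hermForm n F q b u₀ ≠ 0)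
    (hb'u : Cfsg.hermForm n F q b' u₀ = Cfsg.hermForm n F q b u₀) : Cen q M (a + b') := by
  have e1 : Cfsg.hermForm n F q (a + b) u₀ = Cfsg.hermForm n F q b u₀ := by
    rw [hf_add_left, h.hWB a ha u₀ hu₀, zero_add]
  have e2 : Cfsg.hermForm n F q (a + b') u₀ = Cfsg.hermForm n F q b' u₀ := by
    rw [hf_add_left, h.hWB a ha u₀ hu₀, zero_add]
  apply h.move hu₀ hu₀u₀ hx
  · rw [h.norm_add ha hb', hnorm, ← h.norm_add ha hb]
    exact hx.1
  · have : a + b' - (a + b) = b' - b := by abel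
    rw [this]
    exact B.sub_mem hb' hb
  · rw [e1]
    exact hbu
  · rw [e1, e2, hb'u]

/-- from a centre with `h(b₁, u) ≠ 0` to any vector of the same norm with `h(b₂, u') ≠ 0` -/
theorem reach (h : NdCtx q W B M u u') {a b₁ b₂ : Fin n → F} (ha : a ∈ W) (hb₁ : b₁ ∈ B)
    (hb₂ : b₂ ∈ B) (hx : Cen q M (a + b₁))
    (hnorm : Cfsg.hermForm n F q b₂ b₂ = Cfsg.hermForm n F q b₁ b₁)
    (h1 : Cfsg.hermForm n F q b₁ u ≠ 0) (h2 : Cfsg.hermForm n F q b₂ u' ≠ 0) :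
    Cen q M (a + b₂) := by
  have hF := h.hF
  obtain ⟨α, hα⟩ : ∃ α : F, α = Cfsg.hermForm n F q b₂ u' := ⟨_, rfl⟩
  obtain ⟨β, hβ⟩ : ∃ β : F, β = Cfsg.hermForm n F q b₁ u := ⟨_, rfl⟩
  obtain ⟨κ, hκ⟩ : ∃ κ : F, κ = Cfsg.hermForm n F q b₁ b₁ := ⟨_, rfl⟩
  have hκq : κ ^ q = κ := by rw [hκ, hf_self_pow hF]
  obtain ⟨c, hc, hcu, hcu', hcc⟩ := h.hnorm (κ - (α * β ^ q + β * α ^ q)) (by
    rw [herm_sub_pow hF, herm_add_pow hF, mul_pow, mul_pow, herm_pow_pow hF, herm_pow_pow hF,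
      hκq]
    ring)
  have huc : Cfsg.hermForm n F q u c = 0 := hf_eq_zero_symm hF n _ _ hcu
  have hu'c : Cfsg.hermForm n F q u' c = 0 := hf_eq_zero_symm hF n _ _ hcu'
  obtain ⟨y, hyeq⟩ : ∃ y : Fin n → F, y = α • u + β • u' + c := ⟨_, rfl⟩
  have hy : y ∈ B := by
    rw [hyeq]
    exact B.add_mem (B.add_mem (B.smul_mem _ h.hu) (B.smul_mem _ h.hu')) hc
  have hyu : Cfsg.hermForm n F q y u = β := by
    rw [hyeq]
    simp only [hf_add_left, hf_smul_left, h.huu, h.hu'u, hcu, mul_zero, mul_one, add_zero,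
      zero_add]
  have hyu' : Cfsg.hermForm n F q y u' = α := by
    rw [hyeq]
    simp only [hf_add_left, hf_smul_left, h.huu', h.hu'u', hcu', mul_zero, mul_one, add_zero,
      zero_add]
  have hyy : Cfsg.hermForm n F q y y = κ := by
    rw [hyeq]
    simp only [hf_add_left, hf_add_right hF, hf_smul_left, hf_smul_right, h.huu, h.hu'u',
      h.huu', h.hu'u, hcu, hcu', huc, hu'c, hcc, mul_zero, mul_one, add_zero, zero_add]
    ring
  have hstep1 : Cen q M (a + y) := by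
    apply h.moveB h.hu h.huu ha hb₁ hy hx
    · rw [hyy, hκ]
    · exact h1
    · rw [hyu, hβ]
  apply h.moveB h.hu' h.hu'u' ha hy hb₂ hstep1
  · rw [hnorm, ← hκ, hyy]
  · rw [hyu', hα]
    exact h2
  · rw [hyu', hα]

theorem both (h : NdCtx q W B M u u') {a b b₂ : Fin n → F} (ha : a ∈ W) (hb : b ∈ B)
    (hb₂ : b₂ ∈ B) (hx : Cen q M (a + b))
    (hnorm : Cfsg.hermForm n F q b₂ b₂ = Cfsg.hermForm n F q b b)
    (h1 : Cfsg.hermForm n F q b u ≠ 0 ∨ Cfsg.hermForm n F q b u' ≠ 0)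
    (h2 : Cfsg.hermForm n F q b₂ u ≠ 0 ∨ Cfsg.hermForm n F q b₂ u' ≠ 0) :
    Cen q M (a + b₂) := by
  have hF := h.hF
  obtain ⟨κ, hκ⟩ : ∃ κ : F, κ = Cfsg.hermForm n F q b b := ⟨_, rfl⟩
  have hκq : κ ^ q = κ := by rw [hκ, hf_self_pow hF]
  obtain ⟨c, hc, hcu, hcu', hcc⟩ := h.hnorm (κ - (1 + 1)) (by
    rw [herm_sub_pow hF, herm_add_pow hF, one_pow, hκq])
  have huc := hf_eq_zero_symm hF n _ _ hcu
  have hu'c := hf_eq_zero_symm hF n _ _ hcu'
  obtain ⟨b₃, hb₃eq⟩ : ∃ b₃ : Fin n → F, b₃ = u + u' + c := ⟨_, rfl⟩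
  have hb₃ : b₃ ∈ B := by
    rw [hb₃eq]
    exact B.add_mem (B.add_mem h.hu h.hu') hc
  have hb₃u : Cfsg.hermForm n F q b₃ u = 1 := by
    rw [hb₃eq, hf_add_left, hf_add_left, h.huu, h.hu'u, hcu]
    ring
  have hb₃u' : Cfsg.hermForm n F q b₃ u' = 1 := by
    rw [hb₃eq, hf_add_left, hf_add_left, h.huu', h.hu'u', hcu']
    ring
  have hb₃b₃ : Cfsg.hermForm n F q b₃ b₃ = κ := by
    rw [hb₃eq]
    simp only [hf_add_left, hf_add_right hF, h.huu, h.hu'u', h.huu', h.hu'u, hcu, hcu', huc,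
      hu'c, hcc]
    ring
  have hx₃ : Cen q M (a + b₃) := by
    rcases h1 with h1 | h1
    · exact h.reach ha hb hb₃ hx (by rw [hb₃b₃, hκ]) h1 (by rw [hb₃u']; exact one_ne_zero)
    · exact h.symm.reach ha hb hb₃ hx (by rw [hb₃b₃, hκ]) h1 (by rw [hb₃u]; exact one_ne_zero)
  rcases h2 with h2 | h2
  · exact h.symm.reach ha hb₃ hb₂ hx₃ (by rw [hnorm, hb₃b₃, hκ])
      (by rw [hb₃u']; exact one_ne_zero) h2
  · exact h.reach ha hb₃ hb₂ hx₃ (by rw [hnorm, hb₃b₃, hκ])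
      (by rw [hb₃u]; exact one_ne_zero) h2

/-- a vector of `B` orthogonal to the hyperbolic pair is linked to one which is not -/
theorem cstep (h : NdCtx q W B M u u') {b : Fin n → F} (hb : b ∈ B)
    (hbu : Cfsg.hermForm n F q b u = 0) (hbu' : Cfsg.hermForm n F q b u' = 0) (hb0 : b ≠ 0) :
    ∃ b₃ ∈ B, ∃ u₀ ∈ B, Cfsg.hermForm n F q b₃ b₃ = Cfsg.hermForm n F q b b ∧
      Cfsg.hermForm n F q b₃ u' ≠ 0 ∧ Cfsg.hermForm n F q u₀ u₀ = 0 ∧
      Cfsg.hermForm n F q b u₀ ≠ 0 ∧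
      Cfsg.hermForm n F q b₃ u₀ = Cfsg.hermForm n F q b u₀ := by
  have hF := h.hF
  obtain ⟨z, hz, hzu, hzu', hbz⟩ := h.hCnd b hb hbu hbu' hb0
  have huz := hf_eq_zero_symm hF n _ _ hzu
  have hu'z := hf_eq_zero_symm hF n _ _ hzu'
  have hub := hf_eq_zero_symm hF n _ _ hbu
  have hu'b := hf_eq_zero_symm hF n _ _ hbu'
  obtain ⟨ξ, hξ⟩ := un_exists_trace_eq hF (-Cfsg.hermForm n F q z z)
    (by rw [herm_neg_pow hF, hf_self_pow hF])
  obtain ⟨θ, hθ1, hθ2⟩ := exists_norm_one_sq_ne hF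
  have hθ : θ ≠ 1 := by
    rintro rfl
    exact hθ2 (mul_one 1)
  obtain ⟨u₀, hu₀eq⟩ : ∃ u₀ : Fin n → F, u₀ = u' + z + ξ • u := ⟨_, rfl⟩
  have hu₀ : u₀ ∈ B := by
    rw [hu₀eq]
    exact B.add_mem (B.add_mem h.hu' hz) (B.smul_mem _ h.hu)
  have hu₀u₀ : Cfsg.hermForm n F q u₀ u₀ = 0 := by
    rw [hu₀eq]
    simp only [hf_add_left, hf_add_right hF, hf_smul_left, hf_smul_right, h.huu, h.hu'u',
      h.huu', h.hu'u, hzu, hzu', huz, hu'z, mul_zero, mul_one, add_zero, zero_add]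
    linear_combination hξ
  obtain ⟨η, hη⟩ : ∃ η : F, η = Cfsg.hermForm n F q b z := ⟨_, rfl⟩
  have hbu₀ : Cfsg.hermForm n F q b u₀ = η := by
    rw [hu₀eq, hf_add_right hF, hf_add_right hF, hf_smul_right, hbu, hbu', hη]
    ring
  have huu₀ : Cfsg.hermForm n F q u u₀ = 1 := by
    rw [hu₀eq, hf_add_right hF, hf_add_right hF, hf_smul_right, h.huu, h.huu', huz]
    ring
  refine ⟨((1 - θ) * η) • u + θ • b, B.add_mem (B.smul_mem _ h.hu) (B.smul_mem _ hb), u₀, hu₀,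
    ?_, ?_, hu₀u₀, ?_, ?_⟩
  · simp only [hf_add_left, hf_add_right hF, hf_smul_left, hf_smul_right, h.huu, hub, hbu,
      mul_zero, add_zero, zero_add]
    have h5 : θ * θ ^ q = 1 := by rw [← pow_succ', hθ1]
    linear_combination Cfsg.hermForm n F q b b * h5
  · rw [hf_add_left, hf_smul_left, hf_smul_left, h.huu', hbu', mul_zero, add_zero, mul_one]
    exact mul_ne_zero (sub_ne_zero.mpr (Ne.symm hθ)) (by rw [hη]; exact hbz)
  · rw [hbu₀, hη]
    exact hbz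
  · rw [hf_add_left, hf_smul_left, hf_smul_left, huu₀, hbu₀]
    ring

/-- transitivity on the `B`-components of given norm -/
theorem trans (h : NdCtx q W B M u u') {a b b' : Fin n → F} (ha : a ∈ W) (hb : b ∈ B)
    (hb0 : b ≠ 0) (hx : Cen q M (a + b)) (hb' : b' ∈ B)
    (hnorm : Cfsg.hermForm n F q b' b' = Cfsg.hermForm n F q b b) : Cen q M (a + b') := by
  have hF := h.hF
  have hstep : ∃ b₁ ∈ B, Cfsg.hermForm n F q b₁ b₁ = Cfsg.hermForm n F q b b ∧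
      Cen q M (a + b₁) ∧
      (Cfsg.hermForm n F q b₁ u ≠ 0 ∨ Cfsg.hermForm n F q b₁ u' ≠ 0) := by
    by_cases h1 : Cfsg.hermForm n F q b u = 0
    · by_cases h2 : Cfsg.hermForm n F q b u' = 0
      · obtain ⟨b₃, hb₃, u₀, hu₀, e1, e2, e3, e4, e5⟩ := h.cstep hb h1 h2 hb0
        exact ⟨b₃, hb₃, e1, h.moveB hu₀ e3 ha hb hb₃ hx e1 e4 e5, Or.inr e2⟩
      · exact ⟨b, hb, rfl, hx, Or.inr h2⟩
    · exact ⟨b, hb, rfl, hx, Or.inl h1⟩
  obtain ⟨b₁, hb₁, hn₁, hx₁, hor⟩ := hstep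
  by_cases hb'0 : b' = 0
  · have h0 : Cfsg.hermForm n F q a a = 0 := by
      have := hx.1
      rw [h.norm_add ha hb, ← hnorm, hb'0, hf_zero_left, add_zero] at this
      exact this
    rw [hb'0, add_zero]
    exact h.cenW ha h0
  by_cases h1 : Cfsg.hermForm n F q b' u = 0
  · by_cases h2 : Cfsg.hermForm n F q b' u' = 0
    · obtain ⟨b₃, hb₃, u₀, hu₀, e1, e2, e3, e4, e5⟩ := h.cstep hb' h1 h2 hb'0
      have hx₃ : Cen q M (a + b₃) :=
        h.both ha hb₁ hb₃ hx₁ (by rw [e1, hnorm, hn₁]) hor (Or.inr e2)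
      exact h.moveB hu₀ e3 ha hb₃ hb' hx₃ e1.symm (by rw [e5]; exact e4) e5.symm
    · exact h.both ha hb₁ hb' hx₁ (by rw [hnorm, hn₁]) hor (Or.inr h2)
  · exact h.both ha hb₁ hb' hx₁ (by rw [hnorm, hn₁]) hor (Or.inl h1)

theorem P_of_cen (h : NdCtx q W B M u u') {a b : Fin n → F} (ha : a ∈ W) (hb : b ∈ B)
    (hb0 : b ≠ 0) (hx : Cen q M (a + b)) : NdP q B M a := by
  intro b' hb' hn
  apply h.trans ha hb hb0 hx hb'
  have := hx.1
  rw [h.norm_add ha hb] at this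
  linear_combination hn - this

theorem P_zero (h : NdCtx q W B M u u') : NdP q B M 0 := by
  intro b hb hn
  rw [hf_zero_left, add_zero] at hn
  rw [zero_add]
  exact h.cenB hb hn

theorem P_smul (h : NdCtx q W B M u u') {a : Fin n → F} (ha : a ∈ W) (hP : NdP q B M a)
    (l : F) : NdP q B M (l • a) := by
  by_cases hl : l = 0
  · rw [hl, zero_smul]
    exact h.P_zero
  intro b hb hn
  have hlq : l ^ q ≠ 0 := pow_ne_zero _ hl
  have h1 : Cen q M (a + l⁻¹ • b) := by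
    apply hP _ (B.smul_mem _ hb)
    rw [hf_smul_left, hf_smul_right, inv_pow]
    rw [hf_smul_left, hf_smul_right] at hn
    field_simp
    linear_combination hn
  have h2 := h1.smul h.hF l
  rwa [smul_add, smul_smul, mul_inv_cancel₀ hl, one_smul] at h2

theorem P_of_smul (h : NdCtx q W B M u u') {a : Fin n → F} {l : F} (hl : l ≠ 0) (ha : a ∈ W)
    (hP : NdP q B M (l • a)) : NdP q B M a := by
  have := h.P_smul (W.smul_mem l ha) hP l⁻¹
  rwa [smul_smul, inv_mul_cancel₀ hl, one_smul] at this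

theorem P_add (h : NdCtx q W B M u u') {a₁ a₂ : Fin n → F} (ha₁ : a₁ ∈ W) (ha₂ : a₂ ∈ W)
    (hP₁ : NdP q B M a₁) (hP₂ : NdP q B M a₂) : NdP q B M (a₁ + a₂) := by
  have hF := h.hF
  obtain ⟨ε, hε0, hε⟩ := exists_trace_zero_ne hF
  obtain ⟨α, hα⟩ := un_exists_trace_eq hF (-Cfsg.hermForm n F q a₁ a₁)
    (by rw [herm_neg_pow hF, hf_self_pow hF])
  obtain ⟨c, hc, hcu, hcu', hcc⟩ := h.hnorm (-Cfsg.hermForm n F q a₂ a₂)
    (by rw [herm_neg_pow hF, hf_self_pow hF])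
  have huc := hf_eq_zero_symm hF n _ _ hcu
  have hu'c := hf_eq_zero_symm hF n _ _ hcu'
  obtain ⟨π, hπ⟩ : ∃ π : F, π = ε - Cfsg.hermForm n F q a₂ a₁ := ⟨_, rfl⟩
  obtain ⟨b₁, hb₁eq⟩ : ∃ b₁ : Fin n → F, b₁ = u + α • u' := ⟨_, rfl⟩
  obtain ⟨b₂, hb₂eq⟩ : ∃ b₂ : Fin n → F, b₂ = π • u' + c := ⟨_, rfl⟩
  have hb₁ : b₁ ∈ B := by
    rw [hb₁eq]
    exact B.add_mem h.hu (B.smul_mem _ h.hu')
  have hb₂ : b₂ ∈ B := by
    rw [hb₂eq]
    exact B.add_mem (B.smul_mem _ h.hu') hc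
  have hb₁b₁ : Cfsg.hermForm n F q b₁ b₁ = -Cfsg.hermForm n F q a₁ a₁ := by
    rw [hb₁eq]
    simp only [hf_add_left, hf_add_right hF, hf_smul_left, hf_smul_right, h.huu, h.hu'u',
      h.huu', h.hu'u, mul_zero, mul_one, add_zero, zero_add]
    linear_combination hα
  have hb₂b₂ : Cfsg.hermForm n F q b₂ b₂ = -Cfsg.hermForm n F q a₂ a₂ := by
    rw [hb₂eq]
    simp only [hf_add_left, hf_add_right hF, hf_smul_left, hf_smul_right, h.hu'u', hcu', hu'c,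
      hcc, mul_zero, add_zero, zero_add]
  have hb₂b₁ : Cfsg.hermForm n F q b₂ b₁ = π := by
    rw [hb₂eq, hb₁eq]
    simp only [hf_add_left, hf_add_right hF, hf_smul_left, hf_smul_right, h.hu'u', h.hu'u, hcu,
      hcu', mul_zero, mul_one, add_zero]
  have hc₁ : Cen q M (a₁ + b₁) := hP₁ b₁ hb₁ (by rw [hb₁b₁]; ring)
  have hc₂ : Cen q M (a₂ + b₂) := hP₂ b₂ hb₂ (by rw [hb₂b₂]; ring)
  have hval : Cfsg.hermForm n F q (a₂ + b₂) (a₁ + b₁) = ε := by
    rw [hf_add_left, hf_add_right hF, hf_add_right hF, h.hWB a₂ ha₂ b₁ hb₁, h.hBW ha₁ hb₂,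
      hb₂b₁, hπ]
    ring
  have h1 := cen_add hF h.hM hc₁ hc₂ (by rw [hval]; exact hε0) (by rw [hval, hε]; ring)
  have h2 : a₁ + b₁ + (a₂ + b₂) = (a₁ + a₂) + (b₁ + b₂) := by abel
  rw [h2] at h1
  apply h.P_of_cen (W.add_mem ha₁ ha₂) (B.add_mem hb₁ hb₂) ?_ h1
  intro h0
  have h3 : Cfsg.hermForm n F q (b₁ + b₂) u' = 1 := by
    rw [hb₁eq, hb₂eq]
    simp only [hf_add_left, hf_smul_left, h.huu', h.hu'u', hcu', mul_zero, add_zero]
  rw [h0, hf_zero_left] at h3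
  exact zero_ne_one h3

theorem P_sub (h : NdCtx q W B M u u') {a₁ a₂ : Fin n → F} (ha₁ : a₁ ∈ W) (ha₂ : a₂ ∈ W)
    (hP₁ : NdP q B M a₁) (hP₂ : NdP q B M a₂) : NdP q B M (a₁ - a₂) := by
  have h1 := h.P_smul ha₂ hP₂ (-1)
  rw [neg_one_smul] at h1
  have h2 := h.P_add ha₁ (W.neg_mem ha₂) hP₁ h1
  rwa [← sub_eq_add_neg] at h2

end NdCtx

end unnd2

end Cfsg.Agent.Lib.Helper97
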