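import Mathlib
import Cfsg.Prelude.Def_GeometricClasses
import Cfsg.Agent.Lib.Helper97.UnNd2

/-!
# The stabiliser of a non-degenerate subspace is maximal in `SU_n(q)` (continued)

Helper library (helper97), used for statement S5654.

* `NdCtx.P_of_pair`, `NdCtx.P_all`: the set of `a ∈ W` all of whose isotropic extensions
  `a + b` are centres is invariant under transvections and quasi-reflections of `W`, hence is
  all of `W` as soon as it contains a non-zero vector.
* `NdCtx.span_iso`: `B` is spanned by its isotropic vectors.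
* `NdCtx.exists_mixed`: an element of `M` not stabilising `W` yields a centre `a + b` with
  `a ≠ 0`, `b ≠ 0`.
* `un_nd_overgroup`, `un_nd_ne`: the overgroup theorem and properness.
-/

set_option autoImplicit false
set_option linter.unusedSectionVars false
set_option linter.unusedVariables false
set_option linter.unusedSimpArgs false

namespace Cfsg.Agent.Lib.Helper97

open Matrix Cfsg.Agent.Lib.Helper7 Cfsg.Agent.Lib.Helper18 Cfsg.Agent.Lib.Helper93

section unnd3
variable {F : Type*} [Field F] [Fintype F] {q n : ℕ}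

namespace NdCtx

variable {W B : Submodule F (Fin n → F)} {M : Subgroup (GL (Fin n) F)} {u u' : Fin n → F}

/-- invariance of `NdP` under the transvections and quasi-reflections of `W` -/
theorem P_of_pair (h : NdCtx q W B M u u') {a w : Fin n → F} (ha : a ∈ W) (hw : w ∈ W)
    (hP : NdP q B M a) (haw : Cfsg.hermForm n F q a w ≠ 0) : NdP q B M w := by
  have hF := h.hF
  by_cases hww : Cfsg.hermForm n F q w w = 0
  · obtain ⟨ε, hε0, hε⟩ := exists_trace_zero_ne hF
    have hεc : ε + ε ^ q = 0 := by rw [hε]; ring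
    have hpres := transvection_preserves hF n w ε hww hεc
    have hmem : MIn M (Cfsg.unitaryTransvection n q w ε) := by
      apply h.hin _ hpres (transvection_det n w ε hww)
      intro x hx
      rw [unitaryTransvection_mulVec]
      exact W.add_mem hx (W.smul_mem _ hw)
    have hP' : NdP q B M (a + (ε * Cfsg.hermForm n F q a w) • w) := by
      intro b hb hn
      have e1 : Cfsg.unitaryTransvection n q w ε *ᵥ a =
          a + (ε * Cfsg.hermForm n F q a w) • w := unitaryTransvection_mulVec n w ε a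
      have e2 : Cfsg.unitaryTransvection n q w ε *ᵥ b = b := by
        rw [unitaryTransvection_mulVec, h.hBW hw hb, mul_zero, zero_smul, add_zero]
      have hc : Cen q M (a + b) := by
        apply hP b hb
        rw [← e1, hpres] at hn
        exact hn
      have := hc.map h.hM hmem
      rwa [Matrix.mulVec_add, e1, e2] at this
    have hmem' : (ε * Cfsg.hermForm n F q a w) • w ∈ W := W.smul_mem _ hw
    have h1 := h.P_sub (W.add_mem ha hmem') ha hP' hP
    rw [add_sub_cancel_left] at h1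
    exact h.P_of_smul (mul_ne_zero hε0 haw) hw h1
  · obtain ⟨t₀, ht₀0, ht₀⟩ := herm_norm_surj hF (Cfsg.hermForm n F q w w)⁻¹ (inv_ne_zero hww)
      (by rw [inv_pow, hf_self_pow hF])
    obtain ⟨w₁, hw₁eq⟩ : ∃ w₁ : Fin n → F, w₁ = t₀ • w := ⟨_, rfl⟩
    have hw₁ : w₁ ∈ W := by
      rw [hw₁eq]
      exact W.smul_mem _ hw
    have hw₁w₁ : Cfsg.hermForm n F q w₁ w₁ = 1 := by
      rw [hw₁eq, hf_smul_left, hf_smul_right, ← mul_assoc, ← pow_succ', ht₀,
        inv_mul_cancel₀ hww]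
    have haw₁ : Cfsg.hermForm n F q a w₁ ≠ 0 := by
      rw [hw₁eq, hf_smul_right]
      exact mul_ne_zero (pow_ne_zero _ ht₀0) haw
    obtain ⟨θ, hθ1, hθ2⟩ := exists_norm_one_sq_ne hF
    have hθ : θ ≠ 1 := by
      rintro rfl
      exact hθ2 (mul_one 1)
    have hθ0 : θ ≠ 0 := by
      rintro rfl
      rw [zero_pow (by omega)] at hθ1
      exact zero_ne_one hθ1
    have hθi : θ⁻¹ ^ (q + 1) = 1 := by rw [inv_pow, hθ1, inv_one]
    obtain ⟨μ, hμ⟩ := exists_trace_one hF
    obtain ⟨z, hzeq⟩ : ∃ z : Fin n → F, z = u + μ • u' := ⟨_, rfl⟩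
    have hz : z ∈ B := by
      rw [hzeq]
      exact B.add_mem h.hu (B.smul_mem _ h.hu')
    have hzz : Cfsg.hermForm n F q z z = 1 := by
      rw [hzeq]
      simp only [hf_add_left, hf_add_right hF, hf_smul_left, hf_smul_right, h.huu, h.hu'u',
        h.huu', h.hu'u, mul_zero, mul_one, add_zero, zero_add]
      linear_combination hμ
    have hp1 := qrefl_preserves hF n w₁ θ hw₁w₁ hθ1
    have hp2 := qrefl_preserves hF n z θ⁻¹ hzz hθi
    have hp3 := qrefl_preserves hF n z θ hzz hθ1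
    have hmem : MIn M (qrefl q n w₁ θ * qrefl q n z θ⁻¹) := by
      apply h.hin
      · intro x y
        rw [← Matrix.mulVec_mulVec, ← Matrix.mulVec_mulVec, hp1, hp2]
      · rw [Matrix.det_mul, qrefl_det n w₁ θ hw₁w₁, qrefl_det n z θ⁻¹ hzz, mul_inv_cancel₀ hθ0]
      · intro x hx
        rw [← Matrix.mulVec_mulVec, qrefl_mulVec n z, h.hWB x hx z hz, mul_zero, zero_smul,
          add_zero, qrefl_mulVec]
        exact W.add_mem hx (W.smul_mem _ hw₁)
    have hP' : NdP q B M (a + ((θ - 1) * Cfsg.hermForm n F q a w₁) • w₁) := by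
      intro b' hb' hn
      have e1 : qrefl q n w₁ θ *ᵥ a = a + ((θ - 1) * Cfsg.hermForm n F q a w₁) • w₁ :=
        qrefl_mulVec n w₁ θ a
      obtain ⟨b, hbeq⟩ : ∃ b : Fin n → F, b = qrefl q n z θ *ᵥ b' := ⟨_, rfl⟩
      have hb : b ∈ B := by
        rw [hbeq, qrefl_mulVec]
        exact B.add_mem hb' (B.smul_mem _ hz)
      have hbb : Cfsg.hermForm n F q b b = Cfsg.hermForm n F q b' b' := by rw [hbeq, hp3]
      have hc : Cen q M (a + b) := by
        apply hP b hb
        rw [← e1, hp1] at hn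
        rw [hbb]
        exact hn
      have e2 : qrefl q n z θ⁻¹ *ᵥ b = b' := by
        rw [hbeq, qrefl_mulVec, qrefl_mulVec, hf_add_left, hf_smul_left, hzz]
        have hcoef : (θ - 1) * Cfsg.hermForm n F q b' z +
            (θ⁻¹ - 1) * (Cfsg.hermForm n F q b' z +
              (θ - 1) * Cfsg.hermForm n F q b' z * 1) = 0 := by
          field_simp
          ring
        rw [add_assoc, ← add_smul, hcoef, zero_smul, add_zero]
      have e3 : qrefl q n z θ⁻¹ *ᵥ a = a := by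
        rw [qrefl_mulVec, h.hWB a ha z hz, mul_zero, zero_smul, add_zero]
      have e4 : qrefl q n w₁ θ *ᵥ b' = b' := by
        rw [qrefl_mulVec, h.hBW hw₁ hb', mul_zero, zero_smul, add_zero]
      have := hc.map h.hM hmem
      rwa [← Matrix.mulVec_mulVec, Matrix.mulVec_add, e3, e2, Matrix.mulVec_add, e1, e4] at this
    have hmem' : ((θ - 1) * Cfsg.hermForm n F q a w₁) • w₁ ∈ W := W.smul_mem _ hw₁
    have h1 := h.P_sub (W.add_mem ha hmem') ha hP' hP
    rw [add_sub_cancel_left] at h1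
    have h2 := h.P_of_smul (mul_ne_zero (sub_ne_zero.mpr hθ) haw₁) hw₁ h1
    rw [hw₁eq] at h2
    exact h.P_of_smul ht₀0 hw h2

theorem P_all (h : NdCtx q W B M u u')
    (hWnd : Cfsg.Geo.IsNondegenerateOn (Cfsg.hermForm n F q) W) {a₀ : Fin n → F}
    (ha₀ : a₀ ∈ W) (ha₀0 : a₀ ≠ 0) (hP : NdP q B M a₀) : ∀ w ∈ W, NdP q B M w := by
  intro w hw
  by_cases hc : Cfsg.hermForm n F q a₀ w = 0
  · obtain ⟨-, ⟨w₀, hw₀, hne⟩⟩ := hWnd a₀ ha₀ ha₀0
    have h1 : NdP q B M (w + w₀) := h.P_of_pair ha₀ (W.add_mem hw hw₀) hP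
      (by rw [hf_add_right h.hF, hc, zero_add]; exact hne)
    have h2 : NdP q B M w₀ := h.P_of_pair ha₀ hw₀ hP hne
    have h3 := h.P_sub (W.add_mem hw hw₀) hw₀ h1 h2
    rwa [add_sub_cancel_right] at h3
  · exact h.P_of_pair ha₀ hw hP hc

/-- `B` is spanned by its isotropic vectors -/
theorem span_iso (h : NdCtx q W B M u u') (T : Submodule F (Fin n → F))
    (hT : ∀ y ∈ B, Cfsg.hermForm n F q y y = 0 → y ∈ T) : B ≤ T := by
  have hF := h.hF
  intro b hb
  obtain ⟨c, hceq⟩ : ∃ c : Fin n → F,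
      c = b - Cfsg.hermForm n F q b u' • u - Cfsg.hermForm n F q b u • u' := ⟨_, rfl⟩
  have hc : c ∈ B := by
    rw [hceq]
    exact B.sub_mem (B.sub_mem hb (B.smul_mem _ h.hu)) (B.smul_mem _ h.hu')
  have hcu : Cfsg.hermForm n F q c u = 0 := by
    rw [hceq, hf_sub_left, hf_sub_left, hf_smul_left, hf_smul_left, h.huu, h.hu'u]
    ring
  have hcu' : Cfsg.hermForm n F q c u' = 0 := by
    rw [hceq, hf_sub_left, hf_sub_left, hf_smul_left, hf_smul_left, h.huu', h.hu'u']
    ring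
  have huc := hf_eq_zero_symm hF n _ _ hcu
  have hu'c := hf_eq_zero_symm hF n _ _ hcu'
  obtain ⟨μ, hμ⟩ := un_exists_trace_eq hF (-Cfsg.hermForm n F q c c)
    (by rw [herm_neg_pow hF, hf_self_pow hF])
  have hy : c + u + μ • u' ∈ T := by
    apply hT _ (B.add_mem (B.add_mem hc h.hu) (B.smul_mem _ h.hu'))
    simp only [hf_add_left, hf_add_right hF, hf_smul_left, hf_smul_right, h.huu, h.hu'u',
      h.huu', h.hu'u, hcu, hcu', huc, hu'c, mul_zero, mul_one, add_zero, zero_add]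
    linear_combination hμ
  have huT : u ∈ T := hT u h.hu h.huu
  have hu'T : u' ∈ T := hT u' h.hu' h.hu'u'
  have hb_eq : b = (c + u + μ • u') + (Cfsg.hermForm n F q b u' - 1) • u +
      (Cfsg.hermForm n F q b u - μ) • u' := by
    rw [hceq]
    module
  rw [hb_eq]
  exact T.add_mem (T.add_mem hy (T.smul_mem _ huT)) (T.smul_mem _ hu'T)

/-- an element of `M` not stabilising `W` yields a mixed centre -/
theorem exists_mixed (h : NdCtx q W B M u u')
    (hdec : ∀ v : Fin n → F, ∃ a ∈ W, ∃ b ∈ B, v = a + b)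
    (hperpW : ∀ x : Fin n → F, (∀ b ∈ B, Cfsg.hermForm n F q x b = 0) → x ∈ W)
    (hdim : Module.finrank F W < Module.finrank F B)
    (g : GL (Fin n) F) (hgM : g ∈ M) (hg : g ∉ Cfsg.Geo.subspaceStabilizer W) :
    ∃ a ∈ W, ∃ b ∈ B, a ≠ 0 ∧ b ≠ 0 ∧ Cen q M (a + b) := by
  classical
  have hF := h.hF
  have hgP : suPres q n (g : Matrix (Fin n) (Fin n) F) := (h.hM hgM).1
  have hgMIn : MIn M (g : Matrix (Fin n) (Fin n) F) := ⟨g, hgM, rfl⟩
  have h1 : ∃ x ∈ B, Cfsg.hermForm n F q x x = 0 ∧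
      (g : Matrix (Fin n) (Fin n) F) *ᵥ x ∉ B := by
    by_contra hcon
    push Not at hcon
    have hle : B ≤ B.comap (Matrix.mulVecLin (g : Matrix (Fin n) (Fin n) F)) :=
      h.span_iso _ (fun y hy hyy => by
        rw [Submodule.mem_comap, Matrix.mulVecLin_apply]
        exact hcon y hy hyy)
    have hBB : ∀ b ∈ B, (g : Matrix (Fin n) (Fin n) F) *ᵥ b ∈ B := by
      intro b hb
      have := hle hb
      rwa [Submodule.mem_comap, Matrix.mulVecLin_apply] at this
    have hst := stab_of_map_le B g hBB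
    apply hg
    apply stab_of_map_le W g
    intro w hw
    apply hperpW
    intro b hb
    have hb' : ((g⁻¹ : GL (Fin n) F) : Matrix (Fin n) (Fin n) F) *ᵥ b ∈ B := by
      rw [(mem_subspaceStabilizer_iff B g).mp hst, gl_mulVec_inv]
      exact hb
    have := hgP w (((g⁻¹ : GL (Fin n) F) : Matrix (Fin n) (Fin n) F) *ᵥ b)
    rw [gl_mulVec_inv] at this
    rw [this]
    exact h.hWB w hw _ hb'
  have h2 : ∃ y ∈ B, Cfsg.hermForm n F q y y = 0 ∧
      (g : Matrix (Fin n) (Fin n) F) *ᵥ y ∉ W := by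
    by_contra hcon
    push Not at hcon
    have hle : B ≤ W.comap (Matrix.mulVecLin (g : Matrix (Fin n) (Fin n) F)) :=
      h.span_iso _ (fun y hy hyy => by
        rw [Submodule.mem_comap, Matrix.mulVecLin_apply]
        exact hcon y hy hyy)
    have hinj : Function.Injective (Matrix.mulVecLin (g : Matrix (Fin n) (Fin n) F)) := by
      intro x y hxy
      rw [Matrix.mulVecLin_apply, Matrix.mulVecLin_apply] at hxy
      exact gl_mulVec_injective g hxy
    have hmap : B.map (Matrix.mulVecLin (g : Matrix (Fin n) (Fin n) F)) ≤ W :=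
      Submodule.map_le_iff_le_comap.mpr hle
    have h3 := Submodule.finrank_mono hmap
    rw [← (Submodule.equivMapOfInjective _ hinj B).finrank_eq] at h3
    omega
  obtain ⟨x, hx, hxx, hgx⟩ := h1
  obtain ⟨y, hy, hyy, hgy⟩ := h2
  obtain ⟨a₁, ha₁, b₁, hb₁, hx_eq⟩ := hdec ((g : Matrix (Fin n) (Fin n) F) *ᵥ x)
  obtain ⟨a₂, ha₂, b₂, hb₂, hy_eq⟩ := hdec ((g : Matrix (Fin n) (Fin n) F) *ᵥ y)
  have ha₁0 : a₁ ≠ 0 := by
    rintro rfl
    rw [zero_add] at hx_eq
    exact hgx (hx_eq ▸ hb₁)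
  have hb₂0 : b₂ ≠ 0 := by
    rintro rfl
    rw [add_zero] at hy_eq
    exact hgy (hy_eq ▸ ha₂)
  have hcx : Cen q M (a₁ + b₁) := by
    rw [← hx_eq]
    exact (h.cenB hx hxx).map h.hM hgMIn
  have hcy : Cen q M (a₂ + b₂) := by
    rw [← hy_eq]
    exact (h.cenB hy hyy).map h.hM hgMIn
  by_cases hb₁0 : b₁ = 0
  · by_cases ha₂0 : a₂ = 0
    · rw [hb₁0, add_zero] at hx_eq
      rw [ha₂0, zero_add] at hy_eq
      obtain ⟨c, hc0, hciso⟩ : ∃ c : F, c ≠ 0 ∧
          Cfsg.hermForm n F q (x + c • y) (x + c • y) = 0 := by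
        by_cases hyx : Cfsg.hermForm n F q y x = 0
        · refine ⟨1, one_ne_zero, ?_⟩
          have hxy := hf_eq_zero_symm hF n _ _ hyx
          rw [one_smul, hf_add_left, hf_add_right hF, hf_add_right hF, hxx, hyy, hyx, hxy]
          ring
        · obtain ⟨ε, hε0, hε⟩ := exists_trace_zero_ne hF
          refine ⟨ε / Cfsg.hermForm n F q y x, div_ne_zero hε0 hyx, ?_⟩
          have hxy : Cfsg.hermForm n F q x y = Cfsg.hermForm n F q y x ^ q := hf_conj hF n y x
          simp only [hf_add_left, hf_add_right hF, hf_smul_left, hf_smul_right, hxx, hyy,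
            mul_zero, add_zero, zero_add]
          rw [hxy, div_pow, div_mul_cancel₀ _ (pow_ne_zero _ hyx), div_mul_cancel₀ _ hyx, hε]
          ring
      have hv : x + c • y ∈ B := B.add_mem hx (B.smul_mem _ hy)
      have hcv := (h.cenB hv hciso).map h.hM hgMIn
      rw [Matrix.mulVec_add, Matrix.mulVec_smul, hx_eq, hy_eq] at hcv
      exact ⟨a₁, ha₁, c • b₂, B.smul_mem _ hb₂, ha₁0, smul_ne_zero hc0 hb₂0, hcv⟩
    · exact ⟨a₂, ha₂, b₂, hb₂, ha₂0, hb₂0, hcy⟩
  · exact ⟨a₁, ha₁, b₁, hb₁, ha₁0, hb₁0, hcx⟩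

end NdCtx

/-- A subgroup of `SU_n(q)` containing the stabiliser of a non-degenerate subspace `W` with
`2 dim W < n` and an element not stabilising `W` is all of `SU_n(q)`. -/
theorem un_nd_overgroup (hF : Fintype.card F = q ^ 2) (hn : 13 ≤ n)
    (W : Submodule F (Fin n → F))
    (hW : Cfsg.Geo.IsNondegenerateOn (Cfsg.hermForm n F q) W)
    (hdim : 2 * Module.finrank F W < n)
    (M : Subgroup (GL (Fin n) F))
    (hM : M ≤ Cfsg.GU n F q ⊓ Cfsg.Geo.specialLinear (Fin n) F)
    (hHM : Cfsg.Geo.subspaceStabilizer W ⊓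
      (Cfsg.GU n F q ⊓ Cfsg.Geo.specialLinear (Fin n) F) ≤ M)
    (g : GL (Fin n) F) (hgM : g ∈ M) (hg : g ∉ Cfsg.Geo.subspaceStabilizer W) :
    Cfsg.GU n F q ⊓ Cfsg.Geo.specialLinear (Fin n) F ≤ M := by
  classical
  obtain ⟨B, hBeq⟩ : ∃ B : Submodule F (Fin n → F), B = unPerp q W := ⟨_, rfl⟩
  have hfin := un_perp_finrank hF W hW
  rw [← hBeq] at hfin
  have hdec : ∀ v : Fin n → F, ∃ a ∈ W, ∃ b ∈ B, v = a + b := by
    intro v
    rw [hBeq]
    exact un_decomp hF W hW v
  have hBW : ∀ b ∈ B, ∀ a ∈ W, Cfsg.hermForm n F q b a = 0 := by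
    intro b hb a ha
    rw [hBeq] at hb
    exact hb a ha
  have hWB : ∀ a ∈ W, ∀ b ∈ B, Cfsg.hermForm n F q a b = 0 :=
    fun a ha b hb => hf_eq_zero_symm hF n _ _ (hBW b hb a ha)
  have hBnd : ∀ b ∈ B, b ≠ 0 → ∃ x ∈ B, Cfsg.hermForm n F q x b ≠ 0 := by
    intro b hb hb0
    rw [hBeq] at hb ⊢
    exact un_perp_nondeg hF W hW b hb hb0
  obtain ⟨u, hu, u', hu', huu, hu'u', huu'⟩ := un_exists_hyp hF B hBnd (by omega)
  have hu'u : Cfsg.hermForm n F q u' u = 1 := by rw [hf_conj hF n u u', huu', one_pow]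
  have hCnd : ∀ c ∈ B, Cfsg.hermForm n F q c u = 0 → Cfsg.hermForm n F q c u' = 0 → c ≠ 0 →
      ∃ z ∈ B, Cfsg.hermForm n F q z u = 0 ∧ Cfsg.hermForm n F q z u' = 0 ∧
        Cfsg.hermForm n F q c z ≠ 0 := by
    intro c hc hcu hcu' hc0
    obtain ⟨x, hx⟩ := exists_herm_ne_zero hF c hc0
    have hcx : Cfsg.hermForm n F q c x ≠ 0 := by
      rw [hf_conj hF n x c]
      exact pow_ne_zero _ hx
    obtain ⟨a, ha, b, hb, rfl⟩ := hdec x
    rw [hf_add_right hF, hBW c hc a ha, zero_add] at hcx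
    refine ⟨b - Cfsg.hermForm n F q b u' • u - Cfsg.hermForm n F q b u • u',
      B.sub_mem (B.sub_mem hb (B.smul_mem _ hu)) (B.smul_mem _ hu'), ?_, ?_, ?_⟩
    · rw [hf_sub_left, hf_sub_left, hf_smul_left, hf_smul_left, huu, hu'u]
      ring
    · rw [hf_sub_left, hf_sub_left, hf_smul_left, hf_smul_left, huu', hu'u']
      ring
    · rw [hf_sub_right hF, hf_sub_right hF, hf_smul_right, hf_smul_right,
        hf_eq_zero_symm hF n _ _ (hf_eq_zero_symm hF n _ _ hcu),
        hf_eq_zero_symm hF n _ _ (hf_eq_zero_symm hF n _ _ hcu'), mul_zero, mul_zero, sub_zero,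
        sub_zero]
      exact hcx
  have hin : ∀ A : Matrix (Fin n) (Fin n) F, suPres q n A → A.det = 1 →
      (∀ x ∈ W, A *ᵥ x ∈ W) → MIn M A := by
    intro A hA hd hAW
    obtain ⟨t, ht, htG⟩ := exists_gl_of_pres hA hd
    refine ⟨t, hHM (Subgroup.mem_inf.mpr ⟨stab_of_map_le W t ?_, htG⟩), ht⟩
    rw [ht]
    exact hAW
  have hctx : NdCtx q W B M u u' :=
    { hF := hF, hM := hM, hin := hin, hWB := hWB, hu := hu, hu' := hu', huu := huu,
      hu'u' := hu'u', huu' := huu',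
      hnorm := fun r hr => un_exists_norm hF B u u' hCnd (by omega) r hr
      hCnd := hCnd }
  have hperpW : ∀ x : Fin n → F, (∀ b ∈ B, Cfsg.hermForm n F q x b = 0) → x ∈ W := by
    intro x hxB
    obtain ⟨a, ha, b, hb, rfl⟩ := hdec x
    have hb0 : b = 0 := by
      by_contra hb0
      obtain ⟨y, hy, hne⟩ := hBnd b hb hb0
      apply hne
      apply hf_eq_zero_symm hF
      have := hxB y hy
      rwa [hf_add_left, hWB a ha y hy, zero_add] at this
    rw [hb0, add_zero]
    exact ha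
  obtain ⟨a₀, ha₀, b₀, hb₀, ha₀0, hb₀0, hc₀⟩ :=
    hctx.exists_mixed hdec hperpW (by omega) g hgM hg
  have hP₀ := hctx.P_of_cen ha₀ hb₀ hb₀0 hc₀
  have hPall := hctx.P_all hW ha₀ ha₀0 hP₀
  apply su_le_of_cen hF (by omega)
  intro v hv
  obtain ⟨a, ha, b, hb, rfl⟩ := hdec v
  apply hPall a ha b hb
  rw [hctx.norm_add ha hb] at hv
  linear_combination hv

/-- the stabiliser of a non-zero non-degenerate subspace of less than half the dimension does
not contain `SU_n(q)` -/
theorem un_nd_ne (hF : Fintype.card F = q ^ 2) (hn : 13 ≤ n) (W : Submodule F (Fin n → F))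
    (hW0 : W ≠ ⊥) (hW : Cfsg.Geo.IsNondegenerateOn (Cfsg.hermForm n F q) W)
    (hdim : 2 * Module.finrank F W < n) :
    ∃ t ∈ Cfsg.GU n F q ⊓ Cfsg.Geo.specialLinear (Fin n) F,
      t ∉ Cfsg.Geo.subspaceStabilizer W := by
  classical
  have hfin := un_perp_finrank hF W hW
  obtain ⟨u, hu, u', hu', huu, hu'u', huu'⟩ :=
    un_exists_hyp hF (unPerp q W) (un_perp_nondeg hF W hW) (by omega)
  have hu'u : Cfsg.hermForm n F q u' u = 1 := by rw [hf_conj hF n u u', huu', one_pow]
  obtain ⟨a, ha, ha0⟩ := Submodule.exists_mem_ne_zero_of_ne_bot hW0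
  obtain ⟨μ, hμ⟩ := un_exists_trace_eq hF (-Cfsg.hermForm n F q a a)
    (by rw [herm_neg_pow hF, hf_self_pow hF])
  obtain ⟨b, hbeq⟩ : ∃ b : Fin n → F, b = u + μ • u' := ⟨_, rfl⟩
  have hb : b ∈ unPerp q W := by
    rw [hbeq]
    exact (unPerp q W).add_mem hu ((unPerp q W).smul_mem _ hu')
  have hbb : Cfsg.hermForm n F q b b = -Cfsg.hermForm n F q a a := by
    rw [hbeq]
    simp only [hf_add_left, hf_add_right hF, hf_smul_left, hf_smul_right, huu, hu'u', huu',
      hu'u, mul_zero, mul_one, add_zero, zero_add]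
    linear_combination hμ
  have hb0 : b ≠ 0 := by
    intro h0
    have h3 : Cfsg.hermForm n F q b u' = 1 := by
      rw [hbeq, hf_add_left, hf_smul_left, huu', hu'u', mul_zero, add_zero]
    rw [h0, hf_zero_left] at h3
    exact zero_ne_one h3
  have hba : Cfsg.hermForm n F q b a = 0 := hb a ha
  have hab : Cfsg.hermForm n F q a b = 0 := hf_eq_zero_symm hF n _ _ hba
  obtain ⟨v, hveq⟩ : ∃ v : Fin n → F, v = a + b := ⟨_, rfl⟩
  have hvv : Cfsg.hermForm n F q v v = 0 := by
    rw [hveq, hf_add_left, hf_add_right hF, hf_add_right hF, hab, hba, hbb]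
    ring
  obtain ⟨⟨w, hw, hwa⟩, -⟩ := hW a ha ha0
  have hwv : Cfsg.hermForm n F q w v ≠ 0 := by
    rw [hveq, hf_add_right hF, hf_eq_zero_symm hF n _ _ (hb w hw), add_zero]
    exact hwa
  obtain ⟨c, hc0, hc⟩ := exists_trace_zero_ne hF
  obtain ⟨t, ht, htG⟩ := exists_gl_of_pres
    (transvection_preserves hF n v c hvv (by rw [hc]; ring)) (transvection_det n v c hvv)
  refine ⟨t, htG, fun hstab => ?_⟩
  have h1 := ((mem_subspaceStabilizer_iff W t).mp hstab w).mp hw
  rw [ht, unitaryTransvection_mulVec] at h1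
  have h2 : (c * Cfsg.hermForm n F q w v) • v ∈ W := (W.add_mem_iff_right hw).mp h1
  have h3 : v ∈ W := by
    have := W.smul_mem (c * Cfsg.hermForm n F q w v)⁻¹ h2
    rwa [smul_smul, inv_mul_cancel₀ (mul_ne_zero hc0 hwv), one_smul] at this
  have h4 : b ∈ W := by
    have := W.sub_mem h3 ha
    rwa [hveq, add_sub_cancel_left] at this
  exact hb0 (un_perp_disjoint hF W hW b h4 hb)

end unnd3

end Cfsg.Agent.Lib.Helper97
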