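import Cfsg.Agent.Lib.Helper22.W2Defs

/-!
# S4707 project W2 (helper22), piece NOCENT (helper97)

If `P` is a Sylow `p`-subgroup of order `p`, every nontrivial normal subgroup has order divisible
by `p`, and `p < |G|`, then `N(P)` does not centralize `P` (Burnside's transfer theorem).
-/

set_option autoImplicit false

namespace Cfsg.Agent.Lib.Helper97.W2

open Cfsg Cfsg.Agent.Lib.Helper22.W2
open scoped ComplexConjugate

universe u

variable {G : Type u} [Group G] [Fintype G]

/-- PIECE NOCENT -/
theorem nocent (p : ℕ) [Fact p.Prime] (P : Sylow p G) (hP : Nat.card P = p)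
    (hnd : ∀ K : Subgroup G, K.Normal → K ≠ ⊥ → p ∣ Nat.card K) (hbig : p < Nat.card G) :
    ∃ n ∈ Subgroup.normalizer ((P : Subgroup G) : Set G), ∃ x ∈ (P : Subgroup G),
      n * x ≠ x * n := by
  by_contra hcon
  push Not at hcon
  have hNC : Subgroup.normalizer ((P : Subgroup G) : Set G) ≤
      Subgroup.centralizer ((P : Subgroup G) : Set G) := by
    intro n hn
    rw [Subgroup.mem_centralizer_iff]
    intro x hx
    exact (hcon n hn x hx).symm
  have hcomp := MonoidHom.ker_transferSylow_isComplement' P hNC
  have hcard := hcomp.card_mul_card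
  have hKn : (MonoidHom.transferSylow P hNC).ker.Normal := MonoidHom.normal_ker _
  have hnot := MonoidHom.not_dvd_card_ker_transferSylow P hNC
  have hKne : (MonoidHom.transferSylow P hNC).ker ≠ ⊥ := by
    intro hK
    rw [hK, Subgroup.card_bot, one_mul, hP] at hcard
    omega
  exact hnot (hnd _ hKn hKne)

end Cfsg.Agent.Lib.Helper97.W2
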