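import Cfsg.Agent.Lib.Helper22.W2Defs
import Cfsg.Agent.Lib.Helper33.TIFour

/-!
# S4707 project W2 (helper22), piece TZ (helper97)

If the Fourier coefficients of `t ↦ χ (z ^ t)` differ from the `0`-th one by `-1` exactly at
`± 1`, then `χ z = -(w + w⁻¹)` has norm at most `2 < p - 2 = χ 1`.
-/

set_option autoImplicit false

namespace Cfsg.Agent.Lib.Helper97.W2

open Cfsg Cfsg.Agent.Lib.Helper22.W2
open scoped ComplexConjugate

universe u

variable {G : Type u} [Group G] [Fintype G]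

/-- PIECE TZ -/
theorem tz (p : ℕ) [Fact p.Prime] (hp : 5 < p) (w : ℂ) (hw : IsPrimitiveRoot w p) (z : G)
    (χ : G → ℂ) (h1 : χ 1 = (p : ℂ) - 2)
    (ha : ∀ v : ZMod p, v ≠ 0 →
      fc p w z χ v - fc p w z χ 0 = if v = 1 ∨ v = -1 then -1 else 0) :
    χ z ≠ χ 1 := by
  have hpr := (Fact.out : p.Prime)
  have : NeZero p := ⟨hpr.ne_zero⟩
  have hval1 : (1 : ZMod p).val = 1 := by
    rw [ZMod.val_one_eq_one_mod, Nat.mod_eq_of_lt (by omega)]
  -- Fourier inversion at `t = 1`
  have hinv : χ z = ∑ u : ZMod p, w ^ u.val * fc p w z χ u := by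
    have h := Cfsg.Agent.Lib.Helper33.TI.fourier_inv p w hw (fun t' => χ (z ^ t'.val)) 1
    simp only [mul_one, hval1, pow_one] at h
    rw [← h]
    rfl
  have h1ne : (1 : ZMod p) ≠ -1 := by
    intro h
    have h2 : (2 : ZMod p) = 0 := by
      have : (1 : ZMod p) + 1 = 0 := by nth_rewrite 2 [h]; ring
      rw [← this]; norm_num
    have h3 : ((2 : ℕ) : ZMod p) = 0 := by exact_mod_cast h2
    rw [ZMod.natCast_eq_zero_iff] at h3
    have := Nat.le_of_dvd (by norm_num) h3
    omega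
  have h10 : (1 : ZMod p) ≠ 0 := one_ne_zero
  have hm10 : (-1 : ZMod p) ≠ 0 := neg_ne_zero.mpr one_ne_zero
  have hterm : ∀ u : ZMod p, w ^ u.val * fc p w z χ u =
      fc p w z χ 0 * w ^ (1 * u).val + ((if u = 1 then -w ^ u.val else 0) +
        (if u = -1 then -w ^ u.val else 0)) := by
    intro u
    rw [one_mul]
    by_cases hu0 : u = 0
    · subst hu0
      rw [if_neg (Ne.symm h10), if_neg (Ne.symm hm10)]
      ring
    · have hau := ha u hu0
      have hfu : fc p w z χ u = fc p w z χ 0 + (if u = 1 ∨ u = -1 then -1 else 0) := by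
        rw [← hau]; ring
      rw [hfu]
      by_cases hu1 : u = 1
      · subst hu1
        rw [if_pos (Or.inl rfl), if_pos rfl, if_neg h1ne]
        ring
      · by_cases hu2 : u = -1
        · subst hu2
          rw [if_pos (Or.inr rfl), if_neg hu1, if_pos rfl]
          ring
        · rw [if_neg (by tauto), if_neg hu1, if_neg hu2]
          ring
  have hsum0 : ∑ u : ZMod p, w ^ ((1 : ZMod p) * u).val = 0 := by
    rw [Cfsg.Agent.Lib.Helper33.TI.sum_pow_val p w hw 1, if_neg h10]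
  have hz : χ z = -w ^ (1 : ZMod p).val + -w ^ (-1 : ZMod p).val := by
    rw [hinv, Finset.sum_congr rfl (fun u _ => hterm u), Finset.sum_add_distrib,
      ← Finset.mul_sum, hsum0, mul_zero, zero_add, Finset.sum_add_distrib,
      Finset.sum_ite_eq' Finset.univ (1 : ZMod p) (fun u => -w ^ u.val),
      Finset.sum_ite_eq' Finset.univ (-1 : ZMod p) (fun u => -w ^ u.val)]
    simp
  have hnw : ‖w‖ = 1 := hw.norm'_eq_one hpr.ne_zero
  have hle : ‖χ z‖ ≤ 2 := by
    rw [hz]
    refine (norm_add_le _ _).trans ?_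
    rw [norm_neg, norm_neg, norm_pow, norm_pow, hnw, one_pow, one_pow]
    norm_num
  intro heq
  rw [heq, h1] at hle
  have hcast : ((p : ℂ) - 2) = (((p - 2 : ℕ) : ℕ) : ℂ) := by
    rw [Nat.cast_sub (by omega)]; norm_num
  rw [hcast, Complex.norm_natCast] at hle
  have h5 : (4 : ℝ) ≤ ((p - 2 : ℕ) : ℝ) := by
    have h5' : 4 ≤ p - 2 := by omega
    exact_mod_cast h5'
  linarith

end Cfsg.Agent.Lib.Helper97.W2
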